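import Cfsg.Agent.OD.Pre
import Cfsg.Agent.H6.Mx
import Cfsg.Prelude.Def_Chevalley
/-! Packed matrices over `𝔽₃`; membership in a Chevalley group by row operations with root elements. -/
set_option autoImplicit false
set_option linter.unusedSectionVars false
namespace CfH3.E8
open CfH6 CfH6.MP Finset Cfsg.Lie

section
variable {P : MP} {ι : Type*} [Fintype ι] [DecidableEq ι] {K : Type*} [CommRing K] (e : ι ≃ Fin P.n)

/-- digitwise quotient by three of digits below `4096` -/
noncomputable def q3 (P : MP) (Z : ℕ) : ℕ :=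
  force (rep P.W (Nat.mul P.n P.n) 15) fun m =>
  force (Nat.add (Nat.add (Nat.land Z m) (Nat.land (Nat.shiftRight Z 4) m)) (Nat.land (Nat.shiftRight Z 8) m)) fun t =>
  force (Nat.add (Nat.land t m) (Nat.land (Nat.shiftRight t 4) m)) fun u =>
  Nat.div (Nat.sub Z (Nat.sub u (Nat.mul 3 (Nat.land (Nat.shiftRight (Nat.mul u 11) 5) m)))) 3

noncomputable def m3 (P : MP) (X Y : ℕ) : ℕ := P.redq (q3 P) (P.raw X Y)

theorem mdl3 (K : Type*) [CommRing K] (e : ι ≃ Fin P.n) (hp : (P.p : K) = 0) (h : (P.side && P.okb P.one) = true) :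
    Mdl (m3 P) P.okb P.one (P.toM K e) := by
  rw [Bool.and_eq_true] at h
  refine ⟨fun {X Y r} hX hY hr => ?_, h.2, MP.toM_one e h.1⟩
  have hX : P.Ok X := Nat.eq_of_beq_eq_true hX
  have hY : P.Ok Y := Nat.eq_of_beq_eq_true hY
  rw [m3, raw_eq h.1] at hr
  obtain ⟨h1, h2⟩ := redq_spec h.1 _ hp (fun t ht => lt_of_le_of_lt (sum_le h.1 hX hY ht) (by
    have := (side_spec h.1).2.2.2.2.2
    exact lt_of_le_of_lt (Nat.le_mul_of_pos_left _ (by omega)) this)) hr
  refine ⟨Nat.beq_eq ▸ h1, ?_⟩
  ext i k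
  rw [mul_toM]
  exact h2 _ (idx_lt e i k)

/-- `X` plus the rows `v • X_c` put into row `r`, for `(r, c, v)` in the list -/
noncomputable def spRaw (P : MP) (X : ℕ) (L : List (ℕ × ℕ × ℕ)) : ℕ :=
  (fun Wn mW => List.rec X (fun q _ ih => Nat.add ih (Nat.shiftLeft
    (Nat.mul q.2.2 (Nat.land (Nat.shiftRight X (Nat.mul Wn q.2.1)) mW)) (Nat.mul Wn q.1))) L) (Nat.mul P.W P.n) P.mW

def spOk (P : MP) (L : List (ℕ × ℕ × ℕ)) : Bool :=
  Nat.blt L.length P.n && L.all fun q => Nat.blt q.1 P.n && Nat.blt q.2.1 P.n && Nat.blt q.2.2 (2 ^ P.b)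

/-- identity plus the listed entries -/
def lM (K : Type*) [CommRing K] (e : ι ≃ Fin P.n) (L : List (ℕ × ℕ × ℕ)) : Matrix ι ι K := fun i k =>
  (if i = k then 1 else 0) + (L.map fun q : ℕ × ℕ × ℕ => if q.1 = (e i : ℕ) ∧ q.2.1 = (e k : ℕ) then (q.2.2 : K) else 0).sum

theorem row_eq (h1 : 0 < P.n) (X c r v : ℕ) (hr : r < P.n) :
    Nat.shiftLeft (Nat.mul v (Nat.land (Nat.shiftRight X (Nat.mul (Nat.mul P.W P.n) c)) P.mW))
      (Nat.mul (Nat.mul P.W P.n) r) = pk P.W (P.n * P.n) fun t =>
        if r = t / P.n then v * dig P.W X (c * P.n + t % P.n) else 0 := by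
  have e2 : (X >>> (P.W * P.n * c)) &&& P.mW = pk P.W P.n fun i => dig P.W X (c * P.n + i) := by
    change _ &&& (1 <<< (P.W * P.n) - 1) = _
    rw [Nat.one_shiftLeft, Nat.and_two_pow_sub_one_eq_mod, ← pk_dig]
    refine pk_congr fun i _ => ?_
    rw [dig, dig, ← Nat.shiftRight_add]
    congr 2; ring
  have e1 : v * 2 ^ (P.W * P.n * r) = pk (P.W * P.n) P.n fun i => if r = i then v else 0 := by
    rw [pk, sum_eq_single r (fun b _ hb => by rw [if_neg (Ne.symm hb), zero_mul])
      (fun h => absurd (mem_range.2 hr) h), if_pos rfl]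
  change (v * ((X >>> (P.W * P.n * c)) &&& P.mW)) <<< (P.W * P.n * r) = _
  rw [Nat.shiftLeft_eq, mul_right_comm, e1, e2, pk_mul]
  refine pk_congr fun t _ => ?_
  split_ifs <;> simp

theorem spRaw_eq (hs : P.side = true) {X : ℕ} (hX : P.Ok X) (L : List (ℕ × ℕ × ℕ)) (hL : ∀ q ∈ L, q.1 < P.n) :
    spRaw P X L = pk P.W (P.n * P.n) fun t => dig P.W X t +
      (L.map fun q => if q.1 = t / P.n then q.2.2 * dig P.W X (q.2.1 * P.n + t % P.n) else 0).sum := by
  induction L with
  | nil =>
    change X = _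
    refine (hX.eq hs).trans (pk_congr fun t ht => ?_)
    rw [Nat.mod_eq_of_lt (hX.dig_lt hs ht)]; simp
  | cons q L ih =>
    change spRaw P X L + _ = _
    rw [ih fun q hq => hL q (List.mem_cons_of_mem _ hq), row_eq (side_spec hs).1 X _ _ _ (hL q List.mem_cons_self),
      pk_add]
    refine pk_congr fun t _ => ?_
    rw [List.map_cons, List.sum_cons]; ring

theorem lM_mul (L : List (ℕ × ℕ × ℕ)) (hL : ∀ q ∈ L, q.2.1 < P.n) (X : ℕ) (i k : ι) :
    (lM K e L * P.toM K e X) i k = P.toM K e X i k + (L.map fun q : ℕ × ℕ × ℕ => if q.1 = (e i : ℕ) then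
      (q.2.2 : K) * (dig P.W X (q.2.1 * P.n + e k) : K) else 0).sum := by
  induction L with
  | nil => simp [lM, Matrix.mul_apply]
  | cons q L ih =>
    have := ih fun q hq => hL q (List.mem_cons_of_mem _ hq)
    simp only [lM, Matrix.mul_apply, List.map_cons, List.sum_cons] at this ⊢
    rw [add_left_comm, ← this]
    simp only [add_left_comm (if _ = _ then (1 : K) else 0), add_mul _ (_ + _), sum_add_distrib]
    congr 1
    rw [sum_eq_single (e.symm ⟨q.2.1, hL q List.mem_cons_self⟩)]
    · simp [toM]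
    · intro b _ hb
      rw [if_neg, zero_mul]
      rintro ⟨-, h⟩
      exact hb (by rw [Equiv.eq_symm_apply]; exact Fin.ext h.symm)
    · simp

noncomputable def sp (P : MP) (L : List (ℕ × ℕ × ℕ)) (X : ℕ) : ℕ :=
  Bool.rec 0 (P.redq (q3 P) (spRaw P X L)) (spOk P L)

theorem sp_spec (hs : P.side = true) (hp : (P.p : K) = 0) {L : List (ℕ × ℕ × ℕ)} {X r : ℕ} (hX : P.Ok X)
    (h : sp P L X = r + 1) : P.Ok r ∧ P.toM K e r = lM K e L * P.toM K e X := by
  unfold sp at h
  cases hb : spOk P L with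
  | false => rw [hb] at h; exact absurd h (by simp)
  | true =>
    rw [hb] at h
    simp only [spOk, Bool.and_eq_true, List.all_eq_true, Nat.blt_eq] at hb
    have h1 := (side_spec hs).1
    change P.redq _ _ = _ at h
    rw [spRaw_eq hs hX L fun q hq => (hb.2 q hq).1.1] at h
    have hd : ∀ t < P.n * P.n, dig P.W X t + (L.map fun q => if q.1 = t / P.n then
        q.2.2 * dig P.W X (q.2.1 * P.n + t % P.n) else 0).sum < 2 ^ P.W := by
      intro t ht
      have b1 := (hX.dig_lt hs ht).le
      have b2 : (L.map fun q => if q.1 = t / P.n then q.2.2 * dig P.W X (q.2.1 * P.n + t % P.n) else 0).sum ≤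
          L.length * (2 ^ P.b * 2 ^ P.b) := by
        have := List.sum_le_card_nsmul (L.map fun q => if q.1 = t / P.n then
          q.2.2 * dig P.W X (q.2.1 * P.n + t % P.n) else 0) (2 ^ P.b * 2 ^ P.b) fun x hx => by
            obtain ⟨q, hq, rfl⟩ := List.mem_map.1 hx
            split_ifs
            · refine Nat.mul_le_mul (hb.2 q hq).2.le (hX.dig_lt hs ?_).le
              have := (hb.2 q hq).1.2
              have := Nat.mod_lt t h1
              nlinarith
            · exact Nat.zero_le _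
        simpa using this
      have b3 := (side_spec hs).2.2.2.2.2
      have b4 : 2 ^ P.b ≤ 2 ^ P.b * 2 ^ P.b := Nat.le_mul_of_pos_left _ (by positivity)
      have b5 : (L.length + 1) * (2 ^ P.b * 2 ^ P.b) ≤ P.n * (2 ^ P.b * 2 ^ P.b) := Nat.mul_le_mul_right _ hb.1
      have b6 : P.n * (2 ^ P.b * 2 ^ P.b) ≤ (2 + P.a0 + P.a1) * (P.n * (2 ^ P.b * 2 ^ P.b)) :=
        Nat.le_mul_of_pos_left _ (by omega)
      nlinarith
    obtain ⟨a1, a2⟩ := redq_spec hs _ hp hd h
    · refine ⟨a1, ?_⟩
      ext i k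
      rw [lM_mul e L fun q hq => (hb.2 q hq).1.2, toM, a2 _ (idx_lt e i k), Nat.cast_add, Nat.cast_list_sum,
        List.map_map]
      have d1 : ((e i : ℕ) * P.n + e k) / P.n = e i := by
        rw [add_comm, Nat.add_mul_div_right _ _ h1, Nat.div_eq_of_lt (e k).2, zero_add]
      have d2 : ((e i : ℕ) * P.n + e k) % P.n = e k := by
        rw [add_comm, Nat.add_mul_mod_self_right, Nat.mod_eq_of_lt (e k).2]
      rw [d1, d2]
      congr 2
      refine List.map_congr_left fun q _ => ?_
      simp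
end

section
variable (D : ChevalleyDatum)

def cf (z : ℤ) : ℕ := (z % 3).toNat

/-- the entries of `x_r(t) - 1` -/
def spl (r : ℕ) (t : ℤ) : List (ℕ × ℕ × ℕ) :=
  ((List.range D.rank).map fun i => (D.rank + r, i, cf (-((D.cartanSR.getD i #[]).getD r 0 * t)))) ++
  (((List.range D.rank).map fun i => (i, D.rank + D.negIdx.getD r 0, cf ((D.coroot.getD r #[]).getD i 0 * t))) ++
  ((D.rank + r, D.rank + D.negIdx.getD r 0, cf (-(t ^ 2))) ::
  (D.chain.getD r #[]).toList.flatMap fun c => c.2.toList.zipIdx.map fun q =>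
    (D.rank + q.1.1, D.rank + c.1, cf (q.1.2 * t ^ (q.2 + 1)))))

def good (r : ℕ) : Bool := Nat.blt r D.nroots && (decide (D.negIdx.getD r 0 ≠ r) &&
  (D.chain.getD r #[]).toList.all fun c => decide (c.1 ≠ r) && decide (c.1 ≠ D.negIdx.getD r 0))

variable {F : Type*} [Field F]

theorem cf_cast (h3 : (3 : F) = 0) (z : ℤ) : (cf z : F) = z := by
  have : ((cf z : ℕ) : ℤ) = z % 3 := Int.toNat_of_nonneg (Int.emod_nonneg _ (by norm_num))
  rw [← Int.cast_natCast, this, Int.emod_def]
  push_cast
  rw [h3]; ring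

theorem sum_range_ite (n j : ℕ) (p : Prop) [Decidable p] (f : ℕ → F) :
    ((List.range n).map fun i => if p ∧ i = j then f i else 0).sum = if p ∧ j < n then f j else 0 := by
  induction n with
  | zero => simp
  | succ n ih =>
    rw [List.range_succ, List.map_append, List.sum_append, ih]
    by_cases hp : p
    · rcases lt_trichotomy j n with h | h | h
      · simp [hp, h, h.ne', h.le, Nat.lt_succ_iff]
      · simp [hp, h]
      · simp [hp, h.ne, h.not_gt, Nat.lt_succ_iff, h.not_ge]
    · simp [hp]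

theorem chain_sum (h3 : (3 : F) = 0) (t : ℤ) (a s u : ℕ) (l : List (ℕ × Array (ℕ × ℤ))) :
    ((l.flatMap fun c => c.2.toList.zipIdx.map fun q => (a + q.1.1, a + c.1, cf (q.1.2 * t ^ (q.2 + 1)))).map
      fun q => if q.1 = a + u ∧ q.2.1 = a + s then (q.2.2 : F) else 0).sum =
    (((l.filter (fun e => e.1 = s)).flatMap fun e => ((e.2.toList.zipIdx).filter (fun q => q.1.1 = u)).map
      fun q => (q.2 + 1, q.1.2)).map fun km : ℕ × ℤ => ((km.2 : ℤ) : F) * (t : F) ^ km.1).sum := by
  induction l with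
  | nil => simp
  | cons c l ih =>
    rw [List.flatMap_cons, List.map_append, List.sum_append, ih, List.filter_cons]
    by_cases hc : c.1 = s
    · rw [if_pos (by simpa using hc), List.flatMap_cons, List.map_append, List.sum_append]
      congr 1
      generalize c.2.toList.zipIdx = m
      induction m with
      | nil => simp
      | cons q m ih2 =>
        rw [List.map_cons, List.map_cons, List.sum_cons, ih2, List.filter_cons]
        by_cases hq : q.1.1 = u
        · simp [hq, hc, cf_cast h3]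
        · simp [hq]
    · rw [if_neg (by simpa using hc), List.sum_eq_zero, zero_add]
      intro x hx
      simp only [List.map_map, List.mem_map, Function.comp] at hx
      obtain ⟨q, -, rfl⟩ := hx
      rw [if_neg fun h => hc (Nat.add_left_cancel h.2)]

theorem chain_zero (t : ℤ) (a x y : ℕ) (l : List (ℕ × Array (ℕ × ℤ))) (h : x < a ∨ ∀ c ∈ l, a + c.1 ≠ y) :
    ((l.flatMap fun c => c.2.toList.zipIdx.map fun q => (a + q.1.1, a + c.1, cf (q.1.2 * t ^ (q.2 + 1)))).map
      fun q => if q.1 = x ∧ q.2.1 = y then (q.2.2 : F) else 0).sum = 0 := by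
  refine List.sum_eq_zero fun z hz => ?_
  simp only [List.mem_map, List.mem_flatMap] at hz
  obtain ⟨_, ⟨c, hc, q, -, rfl⟩, rfl⟩ := hz
  rw [if_neg]
  rintro ⟨h1, h2⟩
  rcases h with h | h
  · simp only at h1; omega
  · exact h c hc h2

theorem lM_spl (h3 : (3 : F) = 0) {P : MP} (e : D.Idx ≃ Fin P.n) (e1 : ∀ i, (e (Sum.inl i) : ℕ) = i)
    (e2 : ∀ s, (e (Sum.inr s) : ℕ) = D.rank + s) (r : Fin D.nroots) (hr : good D r = true) (t : ℤ) :
    lM F e (spl D r t) = D.xMat F r t := by
  simp only [good, Bool.and_eq_true, decide_eq_true_eq, List.all_eq_true] at hr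
  obtain ⟨-, g1, g2⟩ := hr
  ext i k
  simp only [lM, spl, List.map_append, List.sum_append, List.map_cons, List.sum_cons, List.map_map,
    Function.comp_def]
  rw [sum_range_ite, show (fun x : ℕ => if x = (e i : ℕ) ∧ D.rank + D.negIdx.getD r 0 = (e k : ℕ) then
    (cf ((D.coroot.getD r #[]).getD x 0 * t) : F) else 0) = fun x => if D.rank + D.negIdx.getD r 0 = (e k : ℕ) ∧ x = (e i : ℕ) then
    (cf ((D.coroot.getD r #[]).getD x 0 * t) : F) else 0 by simp only [and_comm], sum_range_ite]
  rcases i with i | u <;> rcases k with k | s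
  · have := i.2
    have := k.2
    rw [e1, e1, chain_zero _ _ _ _ _ (Or.inl i.2), if_neg (c := _ ∧ _) (by omega), if_neg (c := _ ∧ _) (by omega),
      if_neg (c := _ ∧ _) (by omega)]
    simp [ChevalleyDatum.xMat]
  · have := i.2
    rw [e1, e2, chain_zero _ _ _ _ _ (Or.inl i.2), if_neg (by simp), if_neg (by omega), if_neg (c := _ ∧ _ = _) (by omega)]
    simp only [ChevalleyDatum.xMat, Matrix.of_apply, cf_cast h3]
    by_cases h1 : s = r
    · subst h1
      rw [if_pos rfl, if_neg (by omega)]; simp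
    · rw [if_neg h1]
      by_cases h2 : s.val = D.negIdx.getD r 0
      · rw [if_pos h2, if_pos ⟨by omega, this⟩]; simp
      · rw [if_neg h2, if_neg (by omega)]; simp
  · have := k.2
    rw [e1, e2, chain_zero _ _ _ _ _ (Or.inr fun c _ => by omega), if_neg (by simp), if_neg (c := _ ∧ _ + _ < _) (by omega),
      if_neg (c := _ ∧ _ = _) (by omega)]
    simp only [ChevalleyDatum.xMat, Matrix.of_apply, cf_cast h3]
    by_cases h1 : u = r
    · subst h1
      rw [if_pos rfl, if_pos ⟨rfl, this⟩]; simp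
    · rw [if_neg h1, if_neg (fun h => h1 (Fin.ext (by omega)))]; simp
  · rw [e2, e2, if_neg (c := _ ∧ _ + _ < _) (by omega), if_neg (c := _ ∧ _ + _ < _) (by omega)]
    simp only [ChevalleyDatum.xMat, Matrix.of_apply, cf_cast h3]
    by_cases h1 : s = r
    · subst h1
      rw [chain_zero _ _ _ _ _ (Or.inr fun c hc h => (g2 c hc).1 (by omega)), if_pos rfl,
        if_neg (c := _ ∧ _ = _) (by omega)]
      simp
    · rw [if_neg h1]
      by_cases h2 : s.val = D.negIdx.getD r 0
      · rw [chain_zero _ _ _ _ _ (Or.inr fun c hc h => (g2 c hc).2 (by omega)), if_pos h2]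
        by_cases h4 : u = s
        · subst h4
          rw [if_neg (c := _ ∧ _ = _) (fun h => h1 (Fin.ext (by omega)))]; simp
        · by_cases h5 : u = r
          · subst h5
            rw [if_pos (c := _ ∧ _ = _) ⟨rfl, by omega⟩]; simp [h4]
          · rw [if_neg (c := _ ∧ _ = _) (fun h => h5 (Fin.ext (by omega)))]; simp [h4, h5]
      · rw [chain_sum h3, if_neg h2, if_neg (c := _ ∧ _ = _) (by omega)]
        simp [ChevalleyDatum.chainCoeff]

theorem lget_arr {α : Type} (a : Array α) (d : α) (i : ℕ) : lget a.toList d i = a.getD i d := by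
  obtain ⟨l⟩ := a
  have : ∀ (l : List α) (i : ℕ), lget l d i = l.getD i d := fun l => by
    induction l with
    | nil => intro i; rfl
    | cons a l ih => intro i; cases i with
      | zero => rfl
      | succ i => exact ih i
  rw [this]
  simp

/-- `spl` in a form the kernel evaluates quickly; `m` is the index of `-r` -/
noncomputable def splF (r m : ℕ) (t : ℤ) : List (ℕ × ℕ × ℕ) :=
  List.append ((List.range D.rank).map fun i =>
    (Nat.add D.rank r, i, cf (Int.neg (Int.mul (lget (lget D.cartanSR.toList #[] i).toList 0 r) t))))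
  (List.append ((List.range D.rank).map fun i =>
    (i, Nat.add D.rank m, cf (Int.mul (lget (lget D.coroot.toList #[] r).toList 0 i) t)))
  ((Nat.add D.rank r, Nat.add D.rank m, cf (Int.neg (Int.pow t 2))) ::
  (lget D.chain.toList #[] r).toList.flatMap fun c => c.2.toList.zipIdx.map fun q =>
    (Nat.add D.rank q.1.1, Nat.add D.rank c.1, cf (Int.mul q.1.2 (Int.pow t (Nat.succ q.2))))))

theorem splF_eq (r : ℕ) (t : ℤ) : splF D r (D.negIdx.getD r 0) t = spl D r t := by
  simp only [splF, lget_arr]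
  rfl

noncomputable def goodF (r m : ℕ) : Bool := Nat.blt r D.nroots && (!Nat.beq m r &&
  (lget D.chain.toList #[] r).toList.all fun c => !Nat.beq c.1 r && !Nat.beq c.1 m)

theorem goodF_eq (r : ℕ) : goodF D r (D.negIdx.getD r 0) = good D r := by
  have : ∀ a b : ℕ, (!Nat.beq a b) = decide (a ≠ b) := fun a b => by
    by_cases h : a = b
    · simp [h]
    · cases hb : Nat.beq a b with
      | false => simp [h]
      | true => exact absurd (Nat.eq_of_beq_eq_true hb) h
  simp only [goodF, good, lget_arr, this]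

/-- evaluate the entries of a list -/
noncomputable def nf (L : List (ℕ × ℕ × ℕ)) : (List (ℕ × ℕ × ℕ) → ℕ) → ℕ :=
  List.rec (fun k => k []) (fun q _ ih k => force q.1 fun a => force q.2.1 fun b => force q.2.2 fun c =>
    ih fun l => k ((a, b, c) :: l)) L

theorem nf_eq (L : List (ℕ × ℕ × ℕ)) (k : List (ℕ × ℕ × ℕ) → ℕ) : nf L k = k L := by
  induction L generalizing k with
  | nil => rfl
  | cons q L ih =>
    change (force q.1 fun a => force q.2.1 fun b => force q.2.2 fun c => nf L fun l => k ((a, b, c) :: l)) = _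
    simp only [force_eq, ih]

noncomputable def step (P : MP) (r : ℕ) (t : ℤ) (X : ℕ) : ℕ :=
  force X fun X => force (lget D.negIdx.toList 0 r) fun m =>
    Bool.rec 0 (nf (splF D r m t) fun L => sp P L X) (goodF D r m)

theorem step_eq {P : MP} {r : ℕ} {t : ℤ} {X Y : ℕ} (h : step D P r t X = Y + 1) :
    good D r = true ∧ sp P (spl D r t) X = Y + 1 := by
  simp only [step, force_eq, nf_eq, lget_arr, splF_eq, goodF_eq] at h
  cases hg : good D r with
  | false => rw [hg] at h; exact absurd h (by simp)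
  | true => rw [hg] at h; exact ⟨rfl, h⟩

/-- apply the root elements of the list from the left, one after the other; `true` if the identity is reached -/
noncomputable def red (P : MP) (ys : List (ℕ × ℤ)) : ℕ → Bool :=
  List.rec (fun X => Nat.beq X P.one) (fun y _ ih X => Nat.rec false (fun r _ => ih r) (step D P y.1 y.2 X)) ys

theorem red_mem (h3 : (3 : F) = 0) {P : MP} (hs : P.side = true) (hp : P.p = 3) (e : D.Idx ≃ Fin P.n)
    (e1 : ∀ i, (e (Sum.inl i) : ℕ) = i) (e2 : ∀ s, (e (Sum.inr s) : ℕ) = D.rank + s) (ys : List (ℕ × ℤ)) {X : ℕ}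
    (hX : P.Ok X) (h : red D P ys X = true) : ∃ g ∈ D.group F, (g : Matrix D.Idx D.Idx F) = P.toM F e X := by
  induction ys generalizing X with
  | nil =>
    refine ⟨1, one_mem _, ?_⟩
    rw [Nat.eq_of_beq_eq_true h, MP.toM_one e hs]; rfl
  | cons y ys ih =>
    change Nat.rec false (fun r _ => red D P ys r) (step D P y.1 y.2 X) = true at h
    cases hr : step D P y.1 y.2 X with
    | zero => rw [hr] at h; exact absurd h (by simp)
    | succ r =>
      rw [hr] at h
      replace h : good D y.1 = true ∧ red D P ys r = true := ⟨(step_eq D hr).1, h⟩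
      replace hr := (step_eq D hr).2
      obtain ⟨a1, a2⟩ := sp_spec (K := F) e hs (by rw [hp]; exact_mod_cast h3) hX hr
      obtain ⟨g, hg, eg⟩ := ih a1 h.2
      have hy : y.1 < D.nroots := by
        have := h.1
        simp only [good, Bool.and_eq_true, Nat.blt_eq] at this
        exact this.1
      rw [a2, lM_spl D h3 e e1 e2 ⟨y.1, hy⟩ h.1] at eg
      have hm : D.xMat F ⟨y.1, hy⟩ y.2 * (P.toM F e X * (g⁻¹ : GL D.Idx F)) = 1 := by
        rw [← Matrix.mul_assoc, ← eg]; simp
      let x : GL D.Idx F := ⟨_, _, hm, mul_eq_one_comm.1 hm⟩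
      refine ⟨x⁻¹ * g, mul_mem (inv_mem (Subgroup.subset_closure ⟨⟨y.1, hy⟩, y.2, rfl⟩)) hg, ?_⟩
      rw [Units.val_mul, eg, ← Matrix.mul_assoc]
      exact (congrArg (· * _) x.inv_mul).trans (one_mul _)
end
end CfH3.E8
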