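import Cfsg.Agent.H3.E8d
set_option autoImplicit false
set_option maxRecDepth 100000
set_option Elab.async false
set_option linter.all false
namespace CfH3.T3
open CfH6 Cfsg.Lie CfH3.E8
theorem r0 : ∀ r ∈ (ThB.rels.take 12), evw (evU sem ms ThB.il) r = 1 := U.rels (by decide +kernel)
end CfH3.T3
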