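import Cfsg.Agent.H3.E8w0
set_option autoImplicit false
set_option maxRecDepth 100000
set_option Elab.async false
set_option linter.all false
namespace CfH3.T3
open CfH6 Cfsg.Lie CfH3.E8
theorem g7 : evU sem ms ThB.il 7 ∈ chevE8.group (ZMod 3) := mem 7 (by decide)
  [(120, 1), (122, -1), (125, 1), (129, -1), (134, 1), (146, 1), (155, 1), (158, -1), (160, -1), (161, 1), (227, -1), (228, 1), (230, 1), (231, -1), (232, 1), (233, 1), (234, -1), (238, 1), (0, 1), (239, -1), (0, 1), (123, -1), (127, -1), (144, -1), (149, -1), (153, 1), (156, 1), (159, -1), (80, 1), (159, -1), (80, 1), (131, 1), (137, -1), (143, -1), (148, 1), (152, 1), (156, -1), (83, 1), (156, -1), (83, 1), (126, -1), (131, -1), (137, 1), (143, 1), (152, 1), (87, 1), (152, -1), (87, 1), (113, 1), (126, -1), (113, 1), (135, -1), (103, 1), (136, -1), (103, 1), (135, -1), (141, -1), (98, 1), (141, -1), (98, 1), (104, 1), (135, -1), (104, 1), (122, 1), (117, -1), (122, -1), (117, -1), (122, 1), (235, 1), (4, -1), (235, -1), (4, -1), (235, 1), (120, -1), (126,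 -1), (141, 1), (122, 1), (127, 1), (131, -1), (125, -1), (128, 1), (132, 1), (137, -1), (143, -1), (147, -1), (129, -1), (133, -1), (138, 1), (144, -1), (148, -1), (139, -1), (145, -1), (149, -1), (140, -1), (146, -1), (150, 1), (153, 1), (155, -1), (157, -1), (159, 1), (160, -1), (161, 1), (227, 1), (228, 1), (230, -1), (231, 1), (232, 1), (233, -1), (234, -1), (235, 1), (236, 1), (238, 1)] (by decide +kernel)
theorem g9 : evU sem ms ThB.il 9 ∈ chevE8.group (ZMod 3) := mem 9 (by decide)
  [(121, 1), (124, 1), (125, -1), (129, 1), (139, 1), (154, -1), (157, -1), (158, -1), (159, -1), (160, -1), (161, 1), (238, -1), (0, 1), (239, -1), (0, 1), (78, 1), (161, -1), (78, 1), (123, 1), (132, -1), (138, 1), (153, 1), (156, -1), (159, 1), (13, 1), (226, -1), (13, 1), (80, 1), (159, -1), (80, 1), (136, 1), (142, 1), (152, 1), (86, 1), (153, -1), (86, 1), (130, 1), (136, 1), (147, -1), (152, 1), (87, 1), (152, -1), (87, 1), (130, -1), (136, 1), (142, -1), (92, 1), (147, -1), (92, 1), (109, 1), (130, -1), (109, 1), (135, -1),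 (141, 1), (98, 1), (141, -1), (98, 1), (104, 1), (135, -1), (104, 1), (122, 1), (117, -1), (122, -1), (117, -1), (122, 1), (229, 1), (10, -1), (229, -1), (10, -1), (229, 1), (120, -1), (126, -1), (130, 1), (122, 1), (124, -1), (127, 1), (131, 1), (142, 1), (128, 1), (132, -1), (137, 1), (129, -1), (133, 1), (138, 1), (148, -1), (139, 1), (145, 1), (149, -1), (152, -1), (140, -1), (150, -1), (153, -1), (151, -1), (155, 1), (158, 1), (159, 1), (160, 1), (161, -1), (227, 1), (229, -1), (230, -1), (231, -1), (233, -1), (234, 1), (235, 1), (237, -1), (238, 1)] (by decide +kernel)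
end CfH3.T3
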