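import Cfsg.Agent.H3.E8r0
import Cfsg.Agent.H3.E8r1
import Cfsg.Agent.H3.E8r2
import Cfsg.Agent.H3.E8r3
import Cfsg.Agent.H3.E8w1
import Cfsg.Agent.H3.E8w2
/-! The presented Thompson group maps nontrivially to `E₈(3)`. -/
set_option autoImplicit false
set_option maxRecDepth 100000
namespace CfH3.T3
open CfH6 Cfsg.Lie CfH3.E8

theorem ex : ∃ φ : ThB.G →* Mtˣ, ∀ x < 11, φ (ThB.el x) = evU sem ms ThB.il x :=
  ThB.hhom _ U.inv (forall_split _ 12 r0 (forall_split _ 16 r1 (forall_split _ 5 r2 r3)))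

theorem gens : ∀ x < 11, evU sem ms ThB.il x ∈ chevE8.group (ZMod 3) := by
  intro x hx
  interval_cases x
  exacts [g0, g1, g2, g3, g4, g5, (congrArg (· ∈ _) (U.inv 5 (by decide))).mpr (inv_mem g5), g7,
    (congrArg (· ∈ _) (U.inv 7 (by decide))).mpr (inv_mem g7), g9,
    (congrArg (· ∈ _) (U.inv 9 (by decide))).mpr (inv_mem g9)]

theorem hom : ∃ ψ : ThB.G →* chevE8.group (ZMod 3), ψ (ThB.el 0) ≠ 1 := by
  obtain ⟨φ, hφ⟩ := ex
  have hr : ∀ g, φ g ∈ chevE8.group (ZMod 3) := fun g => by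
    have : φ.range ≤ chevE8.group (ZMod 3) := range_hom hφ ThB.htop ▸ gensub_le gens
    exact this ⟨g, rfl⟩
  refine ⟨φ.codRestrict _ hr, fun h => ?_⟩
  have h1 : φ (ThB.el 0) = 1 := congrArg Subtype.val h
  have h2 : sem (lget ms 0 0) = 1 := by rw [← U.val 0 (by decide), ← hφ 0 (by decide), h1]; rfl
  have h3 := congrFun (congrFun h2 (Sum.inr ⟨162, by decide⟩)) (Sum.inr ⟨162, by decide⟩)
  rw [Matrix.one_apply_eq] at h3
  exact absurd h3 (by decide +kernel)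
end CfH3.T3
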