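import Cfsg.Agent.H3.He2
/-! The normaliser of the four-group generated by `z` and a fused involution. -/
set_option autoImplicit false
set_option maxRecDepth 100000
open Subgroup CfH9
namespace CfH3.He

def rho : ℕ := 17178689
def za : ℕ := 17044049
def lK : List ℕ := [2, 3, 4, 7, 8, 9, 12, 13, 14, 17, 18, 19]
abbrev mK : ℕ := mk lK
def TV : List ℕ := [kc, 17051729, 17052225, 17052241]
def V4 : List ℕ := [cI, cZ, a2, za]
def D8 : List ℕ := [17043521, 17043529, 17043777, 17043785, 17059905, 17059929, 17060673, 17060697]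
def G7 : List ℕ := [cZ, a2, rho, kc, a1, 17043777, 17059905]
def K1g : List ℕ := [kb, kc, kC, kd, 17043525]
def eL : List ℕ := [17043649, 17051713, 17174593, 17567809, 17043653]
def eH : List ℕ := [17043649, 17052225, 17175105, 17568449, 17043653]

theorem K_aux : allC (fun c => !(Nat.beq (bm c a2) (bm a2 c)) || inM mK c) = true := by decide +kernel
theorem K_aux2 : allM lK (fun c => Nat.beq (bm c a2) (bm a2 c)) = true := by decide +kernel
theorem rho_aux : allM lK (fun r => !(Nat.beq (bm r (bm r r)) cI) || Nat.beq r cI ||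
    anyM lK fun k => Nat.beq (bm k r) (bm rho k)) = true := by decide +kernel
theorem tau_aux : allM lK (fun s => !(Nat.beq (bm s s) cI && Nat.beq (bm (bm s rho) (bm s rho)) cI) ||
    [cI, rho, bm rho rho].any fun k => TV.any fun t => Nat.beq (bm k s) (bm t k)) = true := by decide +kernel
theorem y_aux : allM lK (fun y => !(Nat.beq (bm y rho) (bm rho y) && TV.any fun t => Nat.beq (bm y kc) (bm t y)) ||
    V4.elem y) = true := by decide +kernel
noncomputable def dOK (t e : ℕ) : Bool := [[4, 4], [4, 2, 4, 2, 2, 2, 2, 4, 2], [4, 3, 4, 3]].all fun w =>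
  Nat.beq (wd [a2, za, rho, t, e] w) cI
theorem d_aux : allM lK (fun e => !(dOK kc e || dOK 17052241 e) || D8.elem e) = true := by decide +kernel
def dR : List (List ℕ) := [[4, 2, 4, 2, 2, 4, 2, 4, 2, 2], [4, 2, 5, 2, 2, 4, 2, 5, 2, 2], [4, 2, 6, 2, 2, 4, 2, 6, 2, 2, 0],
  [5, 2, 4, 2, 2, 5, 2, 4, 2, 2], [5, 2, 5, 2, 2, 5, 2, 5, 2, 2], [5, 2, 6, 2, 2, 5, 2, 6, 2, 2, 1],
  [6, 2, 4, 2, 2, 6, 2, 4, 2, 2, 0], [6, 2, 5, 2, 2, 6, 2, 5, 2, 2, 1], [6, 2, 6, 2, 2, 6, 2, 6, 2, 2]]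
theorem d_aux2 : ∀ t ∈ [kc, 17052241], ∀ e1 ∈ D8, ∀ e2 ∈ D8, ∀ e3 ∈ D8, (∀ w ∈ dR, wd [a2, za, rho, t, e1, e2, e3] w = cI) →
    e1 = 17043777 ∧ e2 = 17043785 ∧ e3 ∈ [17059905, 17059929, 17060673, 17060697] := by decide +kernel
theorem x_aux : allC (fun c => !(Nat.beq (bm c a1) (bm 17059929 c))) = true := by decide +kernel

variable {G : Type*} [Group G] {z : G} {φ : ℕ → G}

def N0 (φ : ℕ → G) (n : G) : Prop := Cj φ n cZ a2 ∧ Cj φ n a2 za
def PV (φ : ℕ → G) (g : G) : Prop := ∀ t ∈ TV, ∃ t' ∈ TV, Cj φ g t t'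

theorem PV.mul {g h : G} (h1 : PV φ g) (h2 : PV φ h) : PV φ (h * g) := fun t ht => by
  obtain ⟨a, ha, h3⟩ := h1 t ht
  obtain ⟨b, hb, h4⟩ := h2 a ha
  exact ⟨b, hb, h3.comp h4⟩

namespace Mod
variable (M : Mod z φ)
include M

theorem cj_dec {c u v : ℕ} (h : (valB c && valB u && valB v && Nat.beq (bm c u) (bm v c)) = true) : Cj φ (φ c) u v := by
  simp only [Bool.and_eq_true, Nat.beq_eq] at h
  exact M.cj_code h.1.1.1 h.1.1.2 h.1.2 h.2

theorem cj_Z {c : ℕ} (hc : val c) : Cj φ (φ c) cZ cZ := ⟨val_Z, val_Z, by rw [M.hz, M.com hc]; group⟩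
theorem z_cj {c : ℕ} (hc : val c) : Cj φ z c c := ⟨hc, hc, by rw [← M.com hc]; group⟩

theorem sur_cj {g : G} (h : Cj φ g cZ cZ) : ∃ c, val c ∧ φ c = g := M.sur (by have := h.eq; rwa [M.hz] at this)

theorem N0_za {n : G} (h : N0 φ n) : Cj φ n za cZ :=
  M.cj_wd' (L := [cZ, a2]) (L' := [a2, za]) (.cons h.1 (.cons h.2 .nil)) [0, 1] (by decide +kernel)

theorem inK {c : ℕ} (hc : val c) : inM mK c = true ↔ Cj φ (φ c) a2 a2 := by
  constructor
  · exact fun h => M.cj_code hc (by decide) (by decide) (Nat.beq_eq ▸ allM_sound K_aux2 hc h)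
  · intro h
    have := allC_sound K_aux c hc
    rwa [M.cj_code' hc h, Nat.beq_refl, Bool.not_true, Bool.false_or] at this

theorem imgK {n : G} (h : N0 φ n) {k : ℕ} (hk : val k) (h1 : inM mK k = true) : ∃ k', inM mK k' = true ∧ Cj φ n k k' := by
  have h2 := (M.inK hk).1 h1
  have h3 : Cj φ (φ k) za za := M.cj_wd' (L := [cZ, a2]) (L' := [cZ, a2]) (.cons (M.cj_Z hk) (.cons h2 .nil)) [0, 1] (by decide +kernel)
  obtain ⟨c, hc, e⟩ := M.sur_cj (((M.N0_za h).symm.comp h3).comp (M.N0_za h))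
  refine ⟨c, (M.inK hc).2 ?_, hk, hc, by rw [e, mul_assoc]⟩
  rw [e]; exact (h.1.symm.comp (M.cj_Z hk)).comp h.1

theorem N0_adj {n : G} (h : N0 φ n) {k : ℕ} (hk : val k) (h1 : inM mK k = true) : N0 φ (φ k * n) :=
  ⟨h.1.comp ((M.inK hk).1 h1), h.2.comp (M.cj_wd' (L := [cZ, a2]) (L' := [cZ, a2])
    (.cons (M.cj_Z hk) (.cons ((M.inK hk).1 h1) .nil)) [0, 1] (by decide +kernel))⟩

theorem centV {g : G} (h1 : Cj φ g cZ cZ) (h2 : Cj φ g a2 a2) (h3 : Cj φ g rho rho) (h4 : PV φ g) : ∃ v ∈ V4, g = φ v := by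
  obtain ⟨y, hy, rfl⟩ := M.sur_cj h1
  obtain ⟨t, ht, h5⟩ := h4 kc (by decide)
  have := allM_sound y_aux hy ((M.inK hy).2 h2)
  rw [M.cj_code' hy h3, Nat.beq_refl, List.any_eq_true.2 ⟨t, ht, Nat.beq_eq ▸ M.cj_code' hy h5⟩] at this
  exact ⟨y, List.mem_of_elem_eq_true (by simpa using this), rfl⟩

theorem om1 {n : G} (h : N0 φ n) : ∃ n, N0 φ n ∧ Cj φ n rho rho ∧ ∃ t ∈ TV, Cj φ n kc t := by
  obtain ⟨r, hr, h1⟩ := M.imgK h (k := rho) (by decide) (by decide)
  have h2 := allM_sound rho_aux h1.2.1 hr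
  have h3 : bm r (bm r r) = cI := M.cj_uniq (M.cj_mul h1 (M.cj_mul h1 h1))
    (show Cj φ n (bm rho (bm rho rho)) cI from (show cI = bm rho (bm rho rho) by decide +kernel) ▸ M.cj_one n)
  have h4 : r ≠ cI := fun e => absurd (M.cj_uniq (e ▸ h1).symm (M.cj_one _)) (by decide)
  simp only [h3, Nat.beq_refl, Bool.not_true, Bool.false_or, Bool.or_eq_true, Nat.beq_eq, h4, false_or] at h2
  obtain ⟨k, hk, hk', h5⟩ := anyM_sound h2
  have h6 := h1.comp (M.cj_code hk h1.2.1 (by decide) (Nat.beq_eq ▸ h5))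
  have h7 := M.N0_adj h hk hk'
  obtain ⟨s, hs, h8⟩ := M.imgK h7 (k := kc) (by decide) (by decide)
  have h9 := allM_sound tau_aux h8.2.1 hs
  have e1 : bm s s = cI := M.cj_uniq (M.cj_mul h8 h8)
    (show Cj φ _ (bm kc kc) cI from (show cI = bm kc kc by decide +kernel) ▸ M.cj_one _)
  have e2 : bm (bm s rho) (bm s rho) = cI := M.cj_uniq (M.cj_mul (M.cj_mul h8 h6) (M.cj_mul h8 h6))
    (show Cj φ _ (bm (bm kc rho) (bm kc rho)) cI from (show cI = bm (bm kc rho) (bm kc rho) by decide +kernel) ▸ M.cj_one _)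
  simp only [e1, e2, Nat.beq_refl, Bool.and_self, Bool.not_true, Bool.false_or, List.any_eq_true, Nat.beq_eq] at h9
  obtain ⟨k2, hk2, t, ht, h9⟩ := h9
  have : ∀ k ∈ [cI, rho, bm rho rho], val k ∧ inM mK k = true ∧ bm k rho = bm rho k := by decide +kernel
  obtain ⟨f1, f2, f3⟩ := this k2 hk2
  have : ∀ t ∈ TV, val t := by decide
  exact ⟨_, M.N0_adj h7 f1 f2, h6.comp (M.cj_code f1 (by decide) (by decide) f3), t, ht,
    h8.comp (M.cj_code f1 h8.2.1 (this t ht) h9)⟩

theorem om2 {n : G} (h : N0 φ n) : ∃ n, n ^ 3 = 1 ∧ φ ka * n * (φ ka * n) = 1 ∧ ∃ t ∈ [kc, 17052241],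
    List.Forall₂ (Cj φ n) [cZ, a2, rho, kc] [a2, za, rho, t] := by
  obtain ⟨n, h, h1, t, ht, h2⟩ := M.om1 h
  have hL : List.Forall₂ (Cj φ n) [cZ, a2, kc] [a2, za, t] := .cons h.1 (.cons h.2 (.cons h2 .nil))
  have hP : PV φ n := fun s hs => by
    have : ∀ t ∈ TV, ∀ s ∈ TV, ∃ w ∈ [[2], [2, 0], [2, 1], [2, 0, 1]], wd [cZ, a2, kc] w = s ∧ wd [a2, za, t] w ∈ TV := by
      decide +kernel
    obtain ⟨w, -, e, h3⟩ := this t ht s hs
    exact ⟨_, h3, e ▸ M.cj_wd hL w⟩
  have hs : PV φ (φ ka) := fun s hs => by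
    have : ∀ s ∈ TV, ∃ t ∈ TV, (valB ka && valB s && valB t && Nat.beq (bm ka s) (bm t ka)) = true := by decide +kernel
    obtain ⟨t, ht, h3⟩ := this s hs
    exact ⟨t, ht, M.cj_dec h3⟩
  have hza := M.N0_za h
  have s1 : Cj φ (φ ka) a2 za := M.cj_dec (by decide +kernel)
  have s2 : Cj φ (φ ka) za a2 := M.cj_dec (by decide +kernel)
  have s3 : Cj φ (φ ka) rho rho := M.cj_dec (by decide +kernel)
  have s0 : Cj φ (φ ka) cZ cZ := M.cj_Z (by decide)
  have hV : ∀ v ∈ V4, val v := by decide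
  have h3 : n ^ 3 = 1 := by
    obtain ⟨v, hv, e⟩ := M.centV ((h.1.comp h.2).comp hza) ((h.2.comp hza).comp h.1) ((h1.comp h1).comp h1) ((hP.mul hP).mul hP)
    have h4 : Cj φ n v v := ⟨hV v hv, hV v hv, by rw [← e]; group⟩
    simp only [V4, List.mem_cons, List.not_mem_nil, or_false] at hv
    rcases hv with rfl | rfl | rfl | rfl
    · rw [← M.one, ← e, pow_three]
    · exact absurd (M.cj_uniq h4 h.1) (by decide)
    · exact absurd (M.cj_uniq h4 h.2) (by decide)
    · exact absurd (M.cj_uniq h4 hza) (by decide)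
  obtain ⟨v, hv, e⟩ := M.centV (((h.1.comp s1).comp hza).comp s0) (((h.2.comp s2).comp h.2).comp s2)
    (((h1.comp s3).comp h1).comp s3) (((hP.mul hs).mul hP).mul hs)
  have h4 : Cj φ (φ ka * n) v v := ⟨hV v hv, hV v hv, by rw [← e]; group⟩
  have ht' : t ∈ [kc, 17052241] := by
    have h5 : Cj φ (φ v) kc kc := by
      have : ∀ v ∈ V4, (valB v && valB kc && valB kc && Nat.beq (bm v kc) (bm kc v)) = true := by decide +kernel
      exact M.cj_dec (this v hv)
    rw [← e] at h5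
    simp only [TV, List.mem_cons, List.not_mem_nil, or_false] at ht ⊢
    rcases ht with rfl | rfl | rfl | rfl
    · exact Or.inl rfl
    · exact absurd (M.cj_uniq h5 (((h2.comp (M.cj_dec (v := 17051729) (by decide +kernel))).comp
        (M.cj_wd' hL [2, 0] (v := 17052241) (by decide +kernel))).comp (M.cj_dec (v := 17052225) (by decide +kernel)))) (by decide)
    · exact absurd (M.cj_uniq h5 (((h2.comp (M.cj_dec (v := 17052241) (by decide +kernel))).comp
        (M.cj_wd' hL [2, 0, 1] (v := 17052241) (by decide +kernel))).comp (M.cj_dec (v := 17052225) (by decide +kernel)))) (by decide)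
    · exact Or.inr rfl
  simp only [V4, List.mem_cons, List.not_mem_nil, or_false] at hv
  rcases hv with rfl | rfl | rfl | rfl
  · exact ⟨n, h3, by rw [← M.one, ← e]; group, t, ht', .cons h.1 (.cons h.2 (.cons h1 (.cons h2 .nil)))⟩
  · exact absurd (M.cj_uniq h4 (h.1.comp s1)) (by decide)
  · have k : ∀ {u v}, Cj φ n u v → Cj φ (z * n) u v := fun h => h.comp (M.z_cj h.2.1)
    have e1 := h.1.2.2
    have e2 := (h.1.comp h.2).2.2
    have e3 := (h.1.comp s1).2.2
    rw [M.hz] at e1 e2 e3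
    refine ⟨z * n, ?_, ?_, t, ht', .cons (k h.1) (.cons (k h.2) (.cons (k h1) (.cons (k h2) .nil)))⟩
    · calc (z * n) ^ 3 = z * (n * z * n⁻¹) * (n * n * z * (n * n)⁻¹) * n ^ 3 := by simp only [pow_three]; group
        _ = 1 := by
          rw [e1, e2, h3, ← M.hz, ← M.mul val_Z (by decide), mul_one, M.mul_one_iff (by decide +kernel) (by decide)]
          decide +kernel
    · calc φ ka * (z * n) * (φ ka * (z * n)) = (φ ka * z) * n * ((φ ka * z) * n) := by group
        _ = z * (φ ka * n * z * (φ ka * n)⁻¹) * (φ ka * (n * (φ ka * n))) := by rw [M.com (by decide)]; group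
        _ = 1 := by
          rw [e3, e, ← M.hz, ← M.mul val_Z (by decide), M.mul_one_iff (by decide +kernel) (by decide)]
          decide +kernel
  · exact absurd (M.cj_uniq h4 (hza.comp s0)) (by decide)

variable [Finite G]

theorem exists_N0 (h : IsConj z (φ a2)) : ∃ n, N0 φ n := by
  obtain ⟨k, hk, g, h1, h2, h3, -⟩ := M.fus (by decide) h
  rw [show a2 = rep 2 from rfl, rts_u _ (by omega), rts_z _ hk] at h3
  have : k = 1 ∨ k = 2 := by clear h2; revert k; decide
  have s1 : Cj φ (φ ka) a2 za := M.cj_dec (by decide +kernel)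
  have s2 : Cj φ (φ ka) za a2 := M.cj_dec (by decide +kernel)
  rcases this with rfl | rfl
  · have hL : List.Forall₂ (Cj φ g) [a2, cZ] [cZ, a1] := .cons h1 (.cons h2 .nil)
    exact ⟨_, ((h2.comp (M.cj_dec (c := kd) (by decide +kernel))).comp
      (M.cj_wd' hL [1, 0] (u := za) (v := 17043545) (by decide +kernel)).symm).comp s2,
      ((h1.comp (M.cj_Z (by decide))).comp h1.symm).comp s1⟩
  · have hL : List.Forall₂ (Cj φ g) [a2, cZ] [cZ, a2] := .cons h1 (.cons h2 .nil)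
    exact ⟨_, (M.cj_Z (c := ka) (by decide)).comp h2, s1.comp (M.cj_wd' hL [1, 0] (by decide +kernel))⟩

theorem eside (h : IsConj z (φ a2)) : ∃ e, e * e = 1 ∧ (φ ka * e) ^ 3 = 1 ∧
    (List.Forall₂ (Cj φ e) K1g eL ∨ List.Forall₂ (Cj φ e) K1g eH) := by
  obtain ⟨n, h0⟩ := M.exists_N0 h
  obtain ⟨n, h1, h2, t, ht, hL⟩ := M.om2 h0
  have hN : N0 φ n := ⟨M.cj_getD hL 0, M.cj_getD hL 1⟩
  have hd : ∀ d ∈ [a1, 17043777, 17059905], ∃ e ∈ D8, Cj φ n d e := fun d hd => by
    have : ∀ d ∈ [a1, 17043777, 17059905], val d ∧ inM mK d = true ∧ ∀ w ∈ [[4, 4], [4, 2, 4, 2, 2, 2, 2, 4, 2], [4, 3, 4, 3]],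
      wd ([cZ, a2, rho, kc] ++ [d]) w = cI := by decide +kernel
    obtain ⟨f1, f2, f3⟩ := this d hd
    obtain ⟨e, he, h3⟩ := M.imgK hN f1 f2
    have h4 : dOK t e = true := List.all_eq_true.2 fun w hw => Nat.beq_eq ▸
      M.cj_rel (List.rel_append hL (.cons h3 .nil)) w (f3 w hw)
    have h5 := allM_sound d_aux h3.2.1 he
    have h6 : (dOK kc e || dOK 17052241 e) = true := by
      simp only [List.mem_cons, List.not_mem_nil, or_false] at ht
      rcases ht with rfl | rfl <;> simp [h4]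
    rw [h6] at h5
    exact ⟨e, List.mem_of_elem_eq_true h5, h3⟩
  obtain ⟨e1, he1, f1⟩ := hd a1 (by decide)
  obtain ⟨e2, he2, f2⟩ := hd 17043777 (by decide)
  obtain ⟨e3, he3, f3⟩ := hd 17059905 (by decide)
  have hL7 : List.Forall₂ (Cj φ n) G7 [a2, za, rho, t, e1, e2, e3] := List.rel_append hL (.cons f1 (.cons f2 (.cons f3 .nil)))
  obtain ⟨rfl, rfl, h3⟩ := d_aux2 t ht e1 he1 e2 he2 e3 he3 fun w hw => M.cj_rel hL7 w (by revert w; decide +kernel)
  have ka2 : φ ka * φ ka = 1 := (M.mul_one_iff (by decide) (by decide)).2 (by decide +kernel)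
  have fin : ∀ {L}, List.Forall₂ (Cj φ n) K1g L → ∀ L', List.Forall₂ (fun u v =>
      (valB ka && valB u && valB v && Nat.beq (bm ka u) (bm v ka)) = true) L L' → List.Forall₂ (Cj φ (φ ka * n)) K1g L' := by
    intro L h
    generalize K1g = K at h
    induction h with
    | nil => intro L' h; cases h; exact .nil
    | cons h _ ih => intro L' h'; cases h' with | cons h1 h2 => exact .cons (h.comp (M.cj_dec h1)) (ih _ h2)
  refine ⟨φ ka * n, h2, by rw [← mul_assoc, ka2, one_mul, h1], ?_⟩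
  have c2 : IsConj z (φ 17059905) := h.trans (M.cls_conj (k := 2) (by decide +kernel)).symm
  simp only [List.mem_cons, List.not_mem_nil, or_false] at ht h3
  rcases h3 with rfl | rfl | rfl | rfl
  · rcases ht with rfl | rfl
    · exact Or.inl (fin (M.cj_wds hL7 [[2, 5, 2, 2], [3], [3, 2], [2, 6, 2, 2], [2, 4, 2, 2]] (by decide +kernel) rfl) _
        (by decide +kernel))
    · exfalso
      obtain ⟨c, hc, e⟩ := M.sur_cj ((((hN.1.comp (M.cj_dec (c := kB) (v := 17060417) (by decide +kernel))).comp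
        (M.cj_wd' hL7 [1, 6] (v := 17060433) (by decide +kernel))).comp (M.cj_dec (c := kB) (by decide +kernel))).comp (M.N0_za hN))
      have := (((f1.comp (M.cj_dec (c := kB) (v := 17051969) (by decide +kernel))).comp
        (M.cj_wd' hL7 [3, 5] (v := 17052505) (by decide +kernel))).comp (M.cj_dec (c := kB) (v := 17060697) (by decide +kernel))).comp
        (M.cj_wd' hL7 [0, 1, 4, 5, 6] (v := 17059929) (by decide +kernel))
      rw [← e] at this
      have h5 := allC_sound x_aux c hc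
      rw [M.cj_code' hc this, Nat.beq_refl] at h5
      exact absurd h5 (by decide)
  · exact absurd ((c2.trans f3.isConj).trans (M.cls_conj (k := 3) (by decide +kernel))) M.not_t
  · exfalso
    have : ∀ t ∈ [kc, 17052241], (Nat.beq (wd G7 [4, 6]) 17059913 &&
      Nat.beq (wd [a2, za, rho, t, 17043777, 17043785, 17060673] [4, 6]) 17060417) = true := by decide +kernel
    exact M.not_t (((h.trans (M.cls_conj (k := 2) (by decide +kernel)).symm).trans
      (M.cj_wd' hL7 [4, 6] (this t (by simpa using ht))).isConj.symm).trans (M.cls_conj (k := 3) (by decide +kernel)))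
  · rcases ht with rfl | rfl
    · exact absurd (((((c2.trans f3.isConj).trans (M.cls_conj (k := 7) (by decide +kernel))).trans
        (M.cls_conj (k := 7) (by decide +kernel)).symm).trans
        (M.cj_wd' hL7 [0, 3] (u := 17051729) (v := 17052225) (by decide +kernel)).isConj.symm).trans
        (M.cls_conj (k := 5) (by decide +kernel))) M.not_r0
    · exact Or.inr (fin (M.cj_wds hL7 [[2, 5, 2, 2], [3], [3, 2], [2, 6, 2, 2], [2, 4, 2, 2]] (by decide +kernel) rfl) _
        (by decide +kernel))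

end Mod
end CfH3.He
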