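import Cfsg.Agent.H3.He3
import Cfsg.Agent.H6.WP
import Cfsg.Agent.OD.Helper3x2a47a6fbf7
/-! The generators `e`, `f` and their relations. -/
set_option autoImplicit false
set_option maxRecDepth 100000
open Subgroup CfH9 CfH6
namespace CfH3.He

def K2g : List ℕ := [17051713, 17043649, 17045569, 17043523, 17059905]
def fL : List ℕ := [17051713, 17043649, 17045569, 17043523, 17068097]
def fH : List ℕ := [17051713, 17043657, 17045577, 17051723, 17068097]
def lE : List ℕ := [19, 13, 14, 7, 8, 9, 2, 3, 4]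
def lF : List ℕ := [13, 14, 7, 8, 9, 1, 2, 3, 4]
def lU1 : List ℕ := [2, 3, 4, 7, 8, 9]
def lU2 : List ℕ := [3, 4, 8, 9, 13, 14]
def lJ : List ℕ := [2, 3, 4, 7, 8, 9, 13, 14]
abbrev mE : ℕ := mk lE
abbrev mF : ℕ := mk lF
abbrev mU1 : ℕ := mk lU1
abbrev mU2 : ℕ := mk lU2
abbrev mJ : ℕ := mk lJ
def bas (l : List ℕ) : List ℕ := l.map fun p => cI + 2 ^ p
def TE (t : Bool) : List ℕ := cond t [17568449, 17052225, 17060673, 17043649, 17043777, 17044033, 17043653, 17043785, 17044049]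
  [17567809, 17051713, 17059905, 17043649, 17043777, 17044033, 17043653, 17043785, 17044049]
def TF (t : Bool) : List ℕ := cond t [17051713, 17068097, 17043657, 17043777, 17044289, 17051723, 17043789, 17043529, 17043545]
  [17051713, 17068097, 17043649, 17043777, 17044289, 17043523, 17043525, 17043529, 17043545]
noncomputable def me (t : Bool) (c : ℕ) : ℕ := lin lE (TE t) c
noncomputable def mf (t : Bool) (c : ℕ) : ℕ := lin lF (TF t) c
def xC (t : Bool) : ℕ := cond t 17175105 17174593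
def xB (t : Bool) : ℕ := cond t 17045577 17045569
def ww (s t : Bool) : ℕ := cond s 17052377 (cond t 17051713 17043521)
def ww' (s t : Bool) : ℕ := cond s 17052633 (cond t 17051969 17043777)
def wi (s t : Bool) : ℕ := cond s 17052633 (cond t 17051713 17043521)
def ef4 (s t : Bool) : List ℕ := cond s [17043533, 17043529, 17043537, 17043905, 17043777, 17044033, 17051969, 17060417]
  (cond t [17043533, 17043529, 17043537, 17043905, 17043777, 17044033, 17051713, 17059905]
    [17043525, 17043529, 17043537, 17043649, 17043777, 17044033, 17051713, 17059905])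
def lets : List ℕ := [ka, kb, kB, kc, kC, kd]
def lt (i : ℕ) : ℕ := lets.getD i cI

theorem linE : allM lE (fun c => Nat.beq (lin lE (bas lE) c) c) = true := by decide +kernel
theorem linF : allM lF (fun c => Nat.beq (lin lF (bas lF) c) c) = true := by decide +kernel
theorem ef_aux : ∀ s t : Bool, (s = true → t = true) → allC (fun c => !(((bas lJ).zip (ef4 s t)).all fun p =>
    Nat.beq (bm c p.1) (bm p.2 c)) || (inM mE c && inM mF c && (!(Nat.beq (bm (me s c) c) cI && Nat.beq (bm (mf t c) c) cI) ||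
      Nat.beq c (ww s t) || Nat.beq c (ww' s t)))) = true := by decide +kernel
theorem cen1 : allC (fun c => !((bas lU1).all fun u => Nat.beq (bm c u) (bm u c)) || inM mU1 c) = true := by decide +kernel
theorem cen2 : allC (fun c => !((bas lU2).all fun u => Nat.beq (bm c u) (bm u c)) || inM mU2 c) = true := by decide +kernel

noncomputable def Ac (s t : Bool) (i u : ℕ) : ℕ :=
  cond (Nat.blt i 6) (bm (lt i) (bm u (lt i))) (cond (Nat.beq i 6) (me s u) (mf t u))
noncomputable def actW (A : ℕ → ℕ → ℕ) (w : List ℕ) (u : ℕ) : ℕ := List.rec u (fun i _ r => frc r (A i)) w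
noncomputable def trk (A : ℕ → ℕ → ℕ) (j0 j1 : ℕ → ℕ) (fl : ℕ → Bool) (w : List ℕ) : ℕ × Bool :=
  List.rec (cI, false) (fun i _ r => Prod.rec (fun j s => frc (bm (A i j) (cond s (j1 i) (j0 i))) fun x => (x, xor s (fl i))) r) w

theorem U_aux : ∀ s t : Bool, allM lU1 (fun u => inM mE u && inM mF u && [0, 1, 3, 4, 5, 6, 7].all fun i =>
    inM mU1 (Ac s t i u)) = true ∧ allM lU2 (fun u => inM mE u && inM mF u && [0, 1, 2, 3, 5, 6, 7].all fun i =>
    inM mU2 (Ac s t i u)) = true := by decide +kernel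

variable {G : Type*} [Group G] {z : G} {φ : ℕ → G}

def ES (φ : ℕ → G) (e : G) (t : Bool) : Prop :=
  e * e = 1 ∧ (φ ka * e) ^ 3 = 1 ∧ List.Forall₂ (Cj φ e) K1g (cond t eH eL)
def FS (φ : ℕ → G) (f : G) (t : Bool) : Prop :=
  f * f = 1 ∧ (φ kd * f) ^ 3 = 1 ∧ List.Forall₂ (Cj φ f) K2g (cond t fH fL)
def tw (φ : ℕ → G) : ℕ → G := fun c => (φ (dl c))⁻¹
def el (φ : ℕ → G) (e f : G) (i : ℕ) : G := if i < 6 then φ (lt i) else if i = 6 then e else f
def om (ω : G) (s : Bool) : G := cond s ω⁻¹ ω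

theorem Cj.tw {g : G} {u v : ℕ} (h : Cj (tw φ) g u v) : Cj φ g (dl u) (dl v) :=
  ⟨h.1.dl, h.2.1.dl, by rw [← inv_inj, conj_inv]; exact h.2.2⟩

theorem ES.congr {ψ : ℕ → G} {e : G} {t : Bool} (h : ES φ e t) (h1 : ∀ c, val c → φ c = ψ c) : ES ψ e t :=
  ⟨h.1, h1 ka (by decide) ▸ h.2.1, h.2.2.imp fun _ _ h => ⟨h.1, h.2.1, h1 _ h.1 ▸ h1 _ h.2.1 ▸ h.2.2⟩⟩

theorem tw_tw {c : ℕ} (h : val c) : φ c = tw (tw φ) c := by rw [tw, tw, inv_inv, dl_dl h.lt]

theorem val_lt : ∀ i < 6, val (lt i) ∧ bm (lt i) (lt i) = cI := by decide +kernel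

namespace Mod
variable (M : Mod z φ)
include M

theorem tw_inv {u v : ℕ} (h : (valB v && Nat.beq (dl u) v && Nat.beq (bm v v) cI) = true) : tw φ u = φ v := by
  simp only [Bool.and_eq_true, Nat.beq_eq] at h
  rw [tw, h.1.2]
  exact inv_eq_of_mul_eq_one_left ((M.mul_one_iff h.1.1 h.1.1).2 h.2)

theorem fs_of {f : G} {t : Bool} (h : ES (tw φ) f t) : FS φ f t := by
  refine ⟨h.1, M.tw_inv (u := ka) (v := kd) (by decide +kernel) ▸ h.2.1, ?_⟩
  have h1 : List.Forall₂ (Cj φ f) (K1g.map dl) ((cond t eH eL).map dl) :=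
    List.forall₂_map_left_iff.2 (List.forall₂_map_right_iff.2 (h.2.2.imp fun _ _ h => h.tw))
  rwa [show K1g.map dl = K2g by decide +kernel, show (cond t eH eL).map dl = cond t fH fL by cases t <;> decide +kernel] at h1

theorem cj_me {e : G} {s : Bool} (h : ES φ e s) {c : ℕ} (hc : val c) (h1 : inM mE c = true) : Cj φ e c (me s c) := by
  have := M.cj_lin lE (M.cj_wds h.2.2 [[3], [1], [1, 3, 1, 3], [0], [0, 1, 0, 1], [0, 1, 3, 1, 0, 1, 3, 1], [4], [1, 4, 1, 4],
    [1, 3, 1, 4, 1, 3, 1, 4]] (K := bas lE) (K' := TE s) (by decide +kernel) (by cases s <;> decide +kernel)) c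
  rwa [Nat.eq_of_beq_eq_true (allM_sound linE hc h1)] at this

theorem cj_mf {f : G} {s : Bool} (h : FS φ f s) {c : ℕ} (hc : val c) (h1 : inM mF c = true) : Cj φ f c (mf s c) := by
  have := M.cj_lin lF (M.cj_wds h.2.2 [[0], [4], [1], [0, 1, 0, 1], [1, 4, 1, 4], [3], [1, 3, 1, 3], [0, 1, 3, 1, 0, 1, 3, 1],
    [1, 3, 1, 4, 1, 3, 1, 4]] (K := bas lF) (K' := TF s) (by decide +kernel) (by cases s <;> decide +kernel)) c
  rwa [Nat.eq_of_beq_eq_true (allM_sound linF hc h1)] at this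

theorem cj_me' {e : G} {s : Bool} (h : ES φ e s) {c v : ℕ} (h1 : (valB c && inM mE c && Nat.beq (me s c) v) = true) :
    Cj φ e c v := by
  simp only [Bool.and_eq_true, Nat.beq_eq] at h1
  exact h1.2 ▸ M.cj_me h h1.1.1 h1.1.2

theorem cj_mf' {f : G} {s : Bool} (h : FS φ f s) {c v : ℕ} (h1 : (valB c && inM mF c && Nat.beq (mf s c) v) = true) :
    Cj φ f c v := by
  simp only [Bool.and_eq_true, Nat.beq_eq] at h1
  exact h1.2 ▸ M.cj_mf h h1.1.1 h1.1.2

theorem efef {e f : G} {s t : Bool} (hst : s = true → t = true) (he : ES φ e s) (hf : FS φ f t) :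
    ∃ e, ES φ e s ∧ e * f * e * f = φ (ww s t) := by
  have h1 : ∀ p ∈ (bas lJ).zip (ef4 s t), Cj φ (e * f * e * f) p.1 p.2 := fun p hp => by
    have : ∀ s t : Bool, (s = true → t = true) → ∀ p ∈ (bas lJ).zip (ef4 s t), val p.1 ∧ inM mF p.1 = true ∧
      inM mE (mf t p.1) = true ∧ inM mF (me s (mf t p.1)) = true ∧ inM mE (mf t (me s (mf t p.1))) = true ∧
      me s (mf t (me s (mf t p.1))) = p.2 := by decide +kernel
    obtain ⟨f1, f2, f3, f4, f5, f6⟩ := this s t hst p hp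
    have g1 := M.cj_mf hf f1 f2
    have g2 := M.cj_me he g1.2.1 f3
    have g3 := M.cj_mf hf g2.2.1 f4
    have := ((g1.comp g2).comp g3).comp (M.cj_me he g3.2.1 f5)
    rwa [f6, ← mul_assoc, ← mul_assoc] at this
  obtain ⟨c, hc, h2⟩ := M.sur_cj (h1 (cZ, cZ) (by cases s <;> cases t <;> decide))
  have h3 := allC_sound (ef_aux s t hst) c hc
  rw [List.all_eq_true.2 fun p hp => Nat.beq_eq ▸ M.cj_code' hc (h2 ▸ h1 p hp)] at h3
  simp only [Bool.not_true, Bool.false_or, Bool.and_eq_true, Bool.or_eq_true, Nat.beq_eq] at h3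
  have ie : e⁻¹ = e := inv_eq_of_mul_eq_one_left he.1
  have jf : f⁻¹ = f := inv_eq_of_mul_eq_one_left hf.1
  have ee : ∀ x, e * (e * x) = x := fun x => by rw [← mul_assoc, he.1, one_mul]
  have ff : ∀ x, f * (f * x) = x := fun x => by rw [← mul_assoc, hf.1, one_mul]
  have g1 := M.cj_me he hc h3.1.1
  have g2 := M.cj_mf hf hc h3.1.2
  have h4 : bm (me s c) c = cI := (M.mul_one_iff g1.2.1 hc).1 (by
    rw [← g1.2.2, h2]; simp only [mul_assoc, ie, ee, ff, hf.1, one_mul])
  have h5 : bm (mf t c) c = cI := (M.mul_one_iff g2.2.1 hc).1 (by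
    rw [← g2.2.2, h2]; simp only [mul_assoc, jf, ee, ff, hf.1, one_mul])
  simp only [h4, h5, Nat.beq_refl, Bool.and_self, Bool.not_true, Bool.false_eq_true, false_or] at h3
  rcases h3.2 with h3 | h3
  · exact ⟨e, he, by rw [← h2, h3]⟩
  · refine ⟨z * e * z⁻¹, ⟨by rw [conj_mul, he.1]; group, ?_, he.2.2.imp fun _ _ h => ?_⟩, ?_⟩
    · rw [← mul_assoc, ← mul_assoc, M.com (by decide), mul_assoc z, conj_pow, he.2.1]; group
    · have := ((M.z_cj h.1).symm.comp h).comp (M.z_cj h.2.1)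
      rwa [← mul_assoc] at this
    · have k1 := (M.cj_me' he (c := cZ) (v := za) (by cases s <;> decide +kernel)).2.2
      have k2 := M.cj_me he (c := a2) (by decide) (by decide)
      have k3 := M.cj_mf hf (c := a2) (by decide) (by decide)
      have k4 : z * e * z⁻¹ = e * φ a2 := by
        rw [show a2 = bm za cZ by decide +kernel, M.mul (by decide) val_Z, ← k1, M.hz, inv_eq_of_mul_eq_one_left M.zz, ie,
          ← mul_assoc, ← mul_assoc, ← mul_assoc, he.1, one_mul]
      calc _ = (e * φ a2 * e⁻¹) * (e * f * e * f) * (f * φ a2 * f⁻¹) := by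
            rw [k4]; nth_rewrite 2 5 [← jf]; group
        _ = _ := by
          rw [k2.2.2, k3.2.2, ← h2, ← M.mul k2.2.1 hc, M.mul_eq' (k2.2.1.bm hc) k3.2.1 (by cases s <;> cases t <;> decide), h3]
          clear * - hst; revert s t; decide +kernel

theorem chk0 (e f : G) {w : List ℕ} (h : allLt 6 w = true) : val (wd lets w) ∧ evw (el φ e f) w = φ (wd lets w) := by
  induction w with
  | nil => exact ⟨val_I, M.one.symm⟩
  | cons i w ih =>
    have h1 : i < 6 ∧ allLt 6 w = true := by simpa [allLt] using h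
    rw [wd_cons, evw_cons, (ih h1.2).2, el, if_pos h1.1]
    exact ⟨(val_lt i h1.1).1.bm (ih h1.2).1, (M.mul (val_lt i h1.1).1 (ih h1.2).1).symm⟩

section
variable {m : ℕ} {E : ℕ → G} {L : List ℕ} {A : ℕ → ℕ → ℕ}
  (hA : ∀ i ∈ L, ∀ u, val u → inM m u = true → inM m (A i u) = true ∧ Cj φ (E i) u (A i u))
include hA

theorem actW_cj {w : List ℕ} (hw : ∀ i ∈ w, i ∈ L) {u : ℕ} (hu : val u) (h1 : inM m u = true) :
    inM m (actW A w u) = true ∧ Cj φ (evw E w) u (actW A w u) := by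
  induction w with
  | nil => exact ⟨h1, hu, hu, by simp [evw, actW]⟩
  | cons i w ih =>
    have := ih fun j hj => hw j (List.mem_cons_of_mem _ hj)
    rw [show actW A (i :: w) u = A i (actW A w u) from frc_eq _ _, evw_cons]
    have h2 := hA i (hw i List.mem_cons_self) _ this.2.2.1 this.1
    exact ⟨h2.1, this.2.comp h2.2⟩

theorem trk_eq (hm : trM m) {ω : G} {j0 j1 : ℕ → ℕ} {fl : ℕ → Bool}
    (hω : ∀ i ∈ L, ∀ s, val (cond s (j1 i) (j0 i)) ∧ inM m (cond s (j1 i) (j0 i)) = true ∧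
      E i * om ω s * (E i)⁻¹ = φ (cond s (j1 i) (j0 i)) * om ω (xor s (fl i))) {w : List ℕ} (hw : ∀ i ∈ w, i ∈ L) :
    val (trk A j0 j1 fl w).1 ∧ inM m (trk A j0 j1 fl w).1 = true ∧
      evw E w * ω * (evw E w)⁻¹ = φ (trk A j0 j1 fl w).1 * om ω (trk A j0 j1 fl w).2 := by
  induction w with
  | nil => exact ⟨val_I, inM_I _, by simp [evw, trk, M.one, om]⟩
  | cons i w ih =>
    obtain ⟨h1, h2, h3⟩ := ih fun j hj => hw j (List.mem_cons_of_mem _ hj)
    have e : trk A j0 j1 fl (i :: w) = (bm (A i (trk A j0 j1 fl w).1) (cond (trk A j0 j1 fl w).2 (j1 i) (j0 i)),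
      xor (trk A j0 j1 fl w).2 (fl i)) := frc_eq _ fun x => (x, xor (trk A j0 j1 fl w).2 (fl i))
    have hi := hw i List.mem_cons_self
    obtain ⟨h4, h5⟩ := hA i hi _ h1 h2
    obtain ⟨h6, h7, h8⟩ := hω i hi (trk A j0 j1 fl w).2
    rw [e, evw_cons]
    refine ⟨h5.2.1.bm h6, inM_bm hm h5.2.1 h6 h4 h7, ?_⟩
    rw [M.mul h5.2.1 h6, mul_assoc (φ _), ← h8, ← h5.2.2, conj_mul, ← h3]; group

end

theorem fin_aff {l : List ℕ} (hz : cZ ∈ bas l)
    (hc : allC (fun c => !((bas l).all fun u => Nat.beq (bm c u) (bm u c)) || inM (He.mk l) c) = true) {x y : G}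
    (hx : ∀ u ∈ bas l, Cj φ x u u) (hy : y * x = x * y) {W : ℕ → ℕ}
    (hW : ∀ u, val u → inM (He.mk l) u = true → Cj φ y u (W u))
    (hf : allM l (fun u => !(Nat.beq (W u) u) || Nat.beq u cI) = true) : x = 1 := by
  obtain ⟨c, h1, rfl⟩ := M.sur_cj (hx _ hz)
  have h2 := allC_sound hc c h1
  rw [List.all_eq_true.2 fun u hu => Nat.beq_eq ▸ M.cj_code' h1 (hx u hu)] at h2
  have h3 := allM_sound hf h1 h2
  rw [M.cj_uniq (hW c h1 h2) ⟨h1, h1, by rw [hy]; group⟩, Nat.beq_refl] at h3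
  exact (M.eq_one h1).2 (Nat.beq_eq ▸ h3)

theorem cj_lt {i u : ℕ} (hi : i < 6) (hu : val u) : Cj φ (φ (lt i)) u (bm (lt i) (bm u (lt i))) := by
  obtain ⟨h1, h2⟩ := val_lt i hi
  exact ⟨hu, h1.bm (hu.bm h1), by
    rw [M.mul h1 (hu.bm h1), M.mul hu h1, inv_eq_of_mul_eq_one_left ((M.mul_one_iff h1 h1).2 h2), mul_assoc]⟩

theorem cj_Ac {e f : G} {s t : Bool} {i u : ℕ} (he : i = 6 → ES φ e s) (hf : FS φ f t) (hu : val u) (h1 : inM mE u = true)
    (h2 : inM mF u = true) : Cj φ (el φ e f i) u (Ac s t i u) := by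
  unfold el Ac
  by_cases hi : i < 6
  · rw [if_pos hi, Nat.blt_eq.mpr hi]; exact M.cj_lt hi hu
  · rw [if_neg hi, show Nat.blt i 6 = false from Bool.eq_false_iff.2 fun h => hi (Nat.blt_eq ▸ h), cond_false]
    by_cases h6 : i = 6
    · rw [if_pos h6, h6]; exact M.cj_me (he h6) hu h1
    · rw [if_neg h6, show Nat.beq i 6 = false from Bool.eq_false_iff.2 fun h => h6 (Nat.beq_eq ▸ h)]
      exact M.cj_mf hf hu h2

theorem om_both {g ω : G} {j j' : ℕ} (h1 : g * ω * g⁻¹ = φ j * ω) (h2 : Cj φ ω j' j) (h3 : bm j j = cI) (s : Bool) :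
    g * om ω s * g⁻¹ = φ (cond s j' j) * om ω (xor s false) := by
  cases s
  · exact h1
  · show g * ω⁻¹ * g⁻¹ = φ j' * ω⁻¹
    rw [← conj_inv, h1, mul_inv_rev, inv_eq_of_mul_eq_one_left ((M.mul_one_iff h2.2.1 h2.2.1).2 h3), ← h2.2.2]; group

theorem om_flip {g x y : G} (hx : x * x = 1) (hy : y * y = 1) (hg : g = x ∨ g = y) (s : Bool) :
    g * om (x * y) s * g⁻¹ = φ (cond s cI cI) * om (x * y) (xor s true) := by
  have h : g * (x * y) * g⁻¹ = (x * y)⁻¹ := by
    rcases hg with rfl | rfl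
    · rw [← mul_assoc, hx, one_mul, mul_inv_rev, inv_eq_of_mul_eq_one_left hy]
    · rw [mul_inv_rev, inv_eq_of_mul_eq_one_left hy, inv_eq_of_mul_eq_one_left hx, mul_assoc, mul_assoc, hy, mul_one]
  cases s
  · rw [cond_false, M.one, one_mul]; exact h
  · rw [cond_true, M.one, one_mul]
    show g * (x * y)⁻¹ * g⁻¹ = x * y
    rw [← conj_inv, h, inv_inv]

theorem om_let {e : G} {k x s : ℕ} (hs : val s) (h2 : bm s s = cI) (h : Cj φ e k x) (hk : bm k k = cI) :
    φ k * (φ s * e) * (φ k)⁻¹ = φ (bm k (bm s (bm x s))) * (φ s * e) := by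
  rw [M.mul h.1 (hs.bm (h.2.1.bm hs)), M.mul hs (h.2.1.bm hs), M.mul h.2.1 hs, ← h.2.2,
    inv_eq_of_mul_eq_one_left ((M.mul_one_iff h.1 h.1).2 hk)]
  nth_rewrite 4 [← inv_eq_of_mul_eq_one_left ((M.mul_one_iff hs hs).2 h2)]
  group

end Mod

noncomputable def W1 (s : Bool) (u : ℕ) : ℕ := bm ka (bm (me s u) ka)
noncomputable def W2 (t : Bool) (u : ℕ) : ℕ := bm kd (bm (mf t u) kd)
noncomputable def ja (s t : Bool) (i : ℕ) : ℕ := cond (Nat.beq i 0 || Nat.beq i 6) cI (cond (Nat.beq i 7)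
  (bm (mf t ka) (bm (wi s t) ka)) (bm (lt i) (bm ka (bm (cond (Nat.beq i 4) (xC s) (me s (lt i))) ka))))
noncomputable def jb (s t : Bool) (i : ℕ) : ℕ := cond (Nat.beq i 5 || Nat.beq i 7) cI (cond (Nat.beq i 6)
  (bm (me s kd) (bm (ww s t) kd)) (bm (lt i) (bm kd (bm (cond (Nat.beq i 2) (xB t) (mf t (lt i))) kd))))
noncomputable def chk1 (s t : Bool) (w : List ℕ) : Bool := (w.all fun i => [0, 1, 3, 4, 5, 6, 7].elem i) &&
  ((bas lU1).all fun u => Nat.beq (actW (Ac s t) w u) u) &&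
  Prod.rec (fun j b => Nat.beq j cI && !b) (trk (Ac s t) (ja s t) (fun i => W1 s (W1 s (ja s t i)))
    (fun i => Nat.beq i 0 || Nat.beq i 6) w)
noncomputable def chk2 (L : List ℕ) (s t : Bool) (w : List ℕ) : Bool := (w.all fun i => L.elem i) &&
  ((bas lU2).all fun u => Nat.beq (actW (Ac s t) w u) u) &&
  Prod.rec (fun j b => Nat.beq j cI && !b) (trk (Ac s t) (jb s t) (fun i => W2 t (W2 t (jb s t i)))
    (fun i => Nat.beq i 5 || Nat.beq i 7) w)
noncomputable def chk3 (g w : List ℕ) : Bool := (w.all fun i => [0, 1, 3, 4, 5, 7].elem i) &&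
  (g.all fun i => [0, 1, 3, 4, 5, 7].elem i) && ((bas lU1).all fun u => Nat.beq (actW (Ac false false) w u) u) &&
  decide (g ++ w = w ++ g) && allM lU1 fun u => !(Nat.beq (actW (Ac false false) g u) u) || Nat.beq u cI

theorem W_aux : ∀ s : Bool, allM lU1 (fun u => !(Nat.beq (W1 s u) u) || Nat.beq u cI) = true ∧
  allM lU2 (fun u => !(Nat.beq (W2 s u) u) || Nat.beq u cI) = true := by decide +kernel

theorem j_aux : ∀ s t : Bool, (s = true → t = true) → (∀ i ∈ [1, 3, 4, 5, 7], val (W1 s (W1 s (ja s t i))) ∧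
    inM mU1 (W1 s (W1 s (ja s t i))) = true ∧ W1 s (W1 s (W1 s (ja s t i))) = ja s t i ∧ inM mU1 (ja s t i) = true ∧
    bm (ja s t i) (ja s t i) = cI) ∧ ∀ i ∈ [0, 1, 2, 3, 6], val (W2 t (W2 t (jb s t i))) ∧
    inM mU2 (W2 t (W2 t (jb s t i))) = true ∧ W2 t (W2 t (W2 t (jb s t i))) = jb s t i ∧ inM mU2 (jb s t i) = true ∧
    bm (jb s t i) (jb s t i) = cI := by decide +kernel

namespace Mod
variable (M : Mod z φ) {e f : G} {s t : Bool}
include M

theorem hA1 {L : List ℕ} (hL : ∀ i ∈ L, i ∈ [0, 1, 3, 4, 5, 6, 7]) (he : 6 ∈ L → ES φ e s) (hf : FS φ f t) :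
    ∀ i ∈ L, ∀ u, val u → inM mU1 u = true → inM mU1 (Ac s t i u) = true ∧ Cj φ (el φ e f i) u (Ac s t i u) := by
  intro i hi u hu h1
  have := allM_sound (U_aux s t).1 hu h1
  simp only [Bool.and_eq_true, List.all_eq_true] at this
  exact ⟨this.2 i (hL i hi), M.cj_Ac (fun h => he (h ▸ hi)) hf hu this.1.1 this.1.2⟩

theorem hA2 {L : List ℕ} (hL : ∀ i ∈ L, i ∈ [0, 1, 2, 3, 5, 6, 7]) (he : 6 ∈ L → ES φ e s) (hf : FS φ f t) :
    ∀ i ∈ L, ∀ u, val u → inM mU2 u = true → inM mU2 (Ac s t i u) = true ∧ Cj φ (el φ e f i) u (Ac s t i u) := by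
  intro i hi u hu h1
  have := allM_sound (U_aux s t).2 hu h1
  simp only [Bool.and_eq_true, List.all_eq_true] at this
  exact ⟨this.2 i (hL i hi), M.cj_Ac (fun h => he (h ▸ hi)) hf hu this.1.1 this.1.2⟩

theorem cj_W1 (he : ES φ e s) {u : ℕ} (hu : val u) (h1 : inM mU1 u = true) : Cj φ (φ ka * e) u (W1 s u) := by
  have := allM_sound (U_aux s s).1 hu h1
  simp only [Bool.and_eq_true] at this
  have h2 := M.cj_me he hu this.1.1
  exact h2.comp (M.cj_lt (i := 0) (by omega) h2.2.1)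

theorem cj_W2 (hf : FS φ f t) {u : ℕ} (hu : val u) (h1 : inM mU2 u = true) : Cj φ (φ kd * f) u (W2 t u) := by
  have := allM_sound (U_aux t t).2 hu h1
  simp only [Bool.and_eq_true] at this
  have h2 := M.cj_mf hf hu this.1.2
  exact h2.comp (M.cj_lt (i := 5) (by omega) h2.2.1)

theorem chk1_ok (hst : s = true → t = true) (he : ES φ e s) (hf : FS φ f t) (hw : e * f * e * f = φ (ww s t))
    {w : List ℕ} (h : chk1 s t w = true) : evw (el φ e f) w = 1 := by
  simp only [chk1, Bool.and_eq_true, List.all_eq_true, Nat.beq_eq] at h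
  obtain ⟨⟨h1, h2⟩, h3⟩ := h
  have h1' := fun i hi => List.mem_of_elem_eq_true (h1 i hi)
  have hA := M.hA1 (fun _ h => h) (fun _ => he) hf
  have ka2 : φ ka * φ ka = 1 := (M.mul_one_iff (by decide) (by decide)).2 (by decide +kernel)
  have hgen : ∀ i ∈ [1, 3, 4, 5, 7], el φ e f i * (φ ka * e) * (el φ e f i)⁻¹ = φ (ja s t i) * (φ ka * e) := by
    intro i hi
    simp only [List.mem_cons, List.not_mem_nil, or_false] at hi
    rcases hi with rfl | rfl | rfl | rfl | rfl
    · exact M.om_let (by decide) (by decide +kernel) (M.cj_me he (c := kb) (by decide) (by decide)) (by decide +kernel)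
    · exact M.om_let (by decide) (by decide +kernel) (M.cj_me he (c := kc) (by decide) (by decide)) (by decide +kernel)
    · exact M.om_let (by decide) (by decide +kernel) (show Cj φ e kC (xC s) by
        have := M.cj_getD he.2.2 2; cases s <;> exact this) (by decide +kernel)
    · exact M.om_let (by decide) (by decide +kernel) (M.cj_me he (c := kd) (by decide) (by decide)) (by decide +kernel)
    · have k := M.cj_mf hf (c := ka) (by decide) (by decide)
      have v : val (wi s t) ∧ val (ww s t) ∧ bm (wi s t) (ww s t) = cI := by cases s <;> cases t <;> decide +kernel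
      show f * _ * f⁻¹ = φ (bm (mf t ka) (bm (wi s t) ka)) * _
      rw [M.mul k.2.1 (v.1.bm (by decide)), M.mul v.1 (by decide), ← k.2.2,
        eq_inv_of_mul_eq_one_left ((M.mul_one_iff v.1 v.2.1).2 v.2.2), ← hw]
      calc _ = f * φ ka * f⁻¹ * (f * (e * f⁻¹ * e⁻¹) * (φ ka * φ ka) * e) := by rw [ka2]; group
        _ = _ := by
          simp only [mul_inv_rev, inv_eq_of_mul_eq_one_left he.1, inv_eq_of_mul_eq_one_left hf.1, mul_assoc]
  obtain ⟨-, -, h4⟩ := M.trk_eq hA (by decide) (ω := φ ka * e) (j0 := ja s t) (j1 := fun i => W1 s (W1 s (ja s t i)))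
    (fl := fun i => Nat.beq i 0 || Nat.beq i 6) (fun i hi b => by
      by_cases hi' : i ∈ [1, 3, 4, 5, 7]
      · obtain ⟨g1, g2, g3, g4, g5⟩ := (j_aux s t hst).1 i hi'
        have g6 := M.cj_W1 he g1 g2
        rw [g3] at g6
        rw [show (Nat.beq i 0 || Nat.beq i 6) = false by clear * - hi'; revert i; decide]
        exact ⟨by cases b; exacts [g6.2.1, g1], by cases b; exacts [g4, g2], M.om_both (hgen i hi') g6 g5 b⟩
      · have g1 : ja s t i = cI ∧ (Nat.beq i 0 || Nat.beq i 6) = true ∧ (i = 0 ∨ i = 6) := by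
          clear * - hi hi'; revert i s t; decide
        rw [g1.1, g1.2.1, show W1 s (W1 s cI) = cI by cases s <;> decide +kernel]
        refine ⟨by cases b <;> exact val_I, by cases b <;> exact inM_I _, M.om_flip ka2 he.1 ?_ b⟩
        rcases g1.2.2 with rfl | rfl
        · exact Or.inl rfl
        · exact Or.inr rfl) h1'
  generalize trk _ _ _ _ _ = x at h3 h4
  obtain ⟨j, b⟩ := x
  simp only [Bool.and_eq_true, Nat.beq_eq, Bool.not_eq_true'] at h3
  obtain ⟨rfl, rfl⟩ := h3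
  refine M.fin_aff (l := lU1) (by decide) cen1 (fun u hu => ?_) (y := φ ka * e) ?_ (fun u hu h => M.cj_W1 he hu h) (W_aux s).1
  · have : ∀ u ∈ bas lU1, val u ∧ inM mU1 u = true := by decide
    have := (M.actW_cj hA h1' (this u hu).1 (this u hu).2).2
    rwa [h2 u hu] at this
  · rw [M.one, one_mul, mul_inv_eq_iff_eq_mul] at h4
    exact h4.symm

theorem chk2_ok {L : List ℕ} (hL : ∀ i ∈ L, i ∈ [0, 1, 2, 3, 5, 6, 7]) (hst : s = true → t = true)
    (he : 6 ∈ L → ES φ e s ∧ e * f * e * f = φ (ww s t)) (hf : FS φ f t)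
    {w : List ℕ} (h : chk2 L s t w = true) : evw (el φ e f) w = 1 := by
  simp only [chk2, Bool.and_eq_true, List.all_eq_true, Nat.beq_eq] at h
  obtain ⟨⟨h1, h2⟩, h3⟩ := h
  have h1' := fun i hi => List.mem_of_elem_eq_true (h1 i hi)
  have hA := M.hA2 hL (fun h => (he h).1) hf
  have ka2 : φ kd * φ kd = 1 := (M.mul_one_iff (by decide) (by decide)).2 (by decide +kernel)
  have hgen : ∀ i ∈ L, i ∈ [0, 1, 2, 3, 6] → el φ e f i * (φ kd * f) * (el φ e f i)⁻¹ = φ (jb s t i) * (φ kd * f) := by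
    intro i hi0 hi
    simp only [List.mem_cons, List.not_mem_nil, or_false] at hi
    rcases hi with rfl | rfl | rfl | rfl | rfl
    · exact M.om_let (by decide) (by decide +kernel) (M.cj_mf hf (c := ka) (by decide) (by decide)) (by decide +kernel)
    · exact M.om_let (by decide) (by decide +kernel) (M.cj_mf hf (c := kb) (by decide) (by decide)) (by decide +kernel)
    · exact M.om_let (by decide) (by decide +kernel) (show Cj φ f kB (xB t) by
        have := M.cj_getD hf.2.2 2; cases t <;> exact this) (by decide +kernel)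
    · exact M.om_let (by decide) (by decide +kernel) (M.cj_mf hf (c := kc) (by decide) (by decide)) (by decide +kernel)
    · obtain ⟨he, hw⟩ := he hi0
      have k := M.cj_me he (c := kd) (by decide) (by decide)
      have v : val (ww s t) := by cases s <;> cases t <;> decide +kernel
      show e * _ * e⁻¹ = φ (bm (me s kd) (bm (ww s t) kd)) * _
      rw [M.mul k.2.1 (v.bm (by decide)), M.mul v (by decide), ← k.2.2, ← hw]
      calc _ = e * φ kd * e⁻¹ * (e * f * e⁻¹ * f⁻¹ * (φ kd * φ kd) * f) := by rw [ka2]; group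
        _ = _ := by
          simp only [mul_inv_rev, inv_eq_of_mul_eq_one_left he.1, inv_eq_of_mul_eq_one_left hf.1, mul_assoc]
  obtain ⟨-, -, h4⟩ := M.trk_eq hA (by decide) (ω := φ kd * f) (j0 := jb s t) (j1 := fun i => W2 t (W2 t (jb s t i)))
    (fl := fun i => Nat.beq i 5 || Nat.beq i 7) (fun i hi b => by
      by_cases hi' : i ∈ [0, 1, 2, 3, 6]
      · obtain ⟨g1, g2, g3, g4, g5⟩ := (j_aux s t hst).2 i hi'
        have g6 := M.cj_W2 hf g1 g2
        rw [g3] at g6
        rw [show (Nat.beq i 5 || Nat.beq i 7) = false by clear * - hi'; revert i; decide]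
        exact ⟨by cases b; exacts [g6.2.1, g1], by cases b; exacts [g4, g2], M.om_both (hgen i hi hi') g6 g5 b⟩
      · have g1 : jb s t i = cI ∧ (Nat.beq i 5 || Nat.beq i 7) = true ∧ (i = 5 ∨ i = 7) := by
          have := hL i hi
          clear * - this hi'; revert hi'; revert i s t; decide
        rw [g1.1, g1.2.1, show W2 t (W2 t cI) = cI by cases t <;> decide +kernel]
        refine ⟨by cases b <;> exact val_I, by cases b <;> exact inM_I _, M.om_flip ka2 hf.1 ?_ b⟩
        rcases g1.2.2 with rfl | rfl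
        · exact Or.inl rfl
        · exact Or.inr rfl) h1'
  generalize trk _ _ _ _ _ = x at h3 h4
  obtain ⟨j, b⟩ := x
  simp only [Bool.and_eq_true, Nat.beq_eq, Bool.not_eq_true'] at h3
  obtain ⟨rfl, rfl⟩ := h3
  refine M.fin_aff (l := lU2) (by decide) cen2 (fun u hu => ?_) (y := φ kd * f) ?_ (fun u hu h => M.cj_W2 hf hu h) (W_aux t).2
  · have : ∀ u ∈ bas lU2, val u ∧ inM mU2 u = true := by decide
    have := (M.actW_cj hA h1' (this u hu).1 (this u hu).2).2
    rwa [h2 u hu] at this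
  · rw [M.one, one_mul, mul_inv_eq_iff_eq_mul] at h4
    exact h4.symm

theorem chk3_ok (hf : FS φ f false) {g w : List ℕ} (h : chk3 g w = true) : evw (el φ e f) w = 1 := by
  simp only [chk3, Bool.and_eq_true, List.all_eq_true, Nat.beq_eq, decide_eq_true_eq] at h
  obtain ⟨⟨⟨⟨h1, h0⟩, h2⟩, h3⟩, h4⟩ := h
  have h1' := fun i hi => List.mem_of_elem_eq_true (h1 i hi)
  have h0' := fun i hi => List.mem_of_elem_eq_true (h0 i hi)
  have hA := M.hA1 (L := [0, 1, 3, 4, 5, 7]) (e := e) (s := false) (by decide) (fun h => absurd h (by decide)) hf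
  refine M.fin_aff (l := lU1) (by decide) cen1 (fun u hu => ?_) (y := evw (el φ e f) g) ?_
    (fun u hu h => (M.actW_cj hA h0' hu h).2) h4
  · have : ∀ u ∈ bas lU1, val u ∧ inM mU1 u = true := by decide
    have := (M.actW_cj hA h1' (this u hu).1 (this u hu).2).2
    rwa [h2 u hu] at this
  · rw [← evw_append, ← evw_append, h3]

theorem chk0_ok {w : List ℕ} (h : (allLt 6 w && Nat.beq (wd lets w) cI) = true) : evw (el φ e f) w = 1 := by
  rw [Bool.and_eq_true, Nat.beq_eq] at h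
  rw [(M.chk0 e f h.1).2, h.2, M.one]

theorem el_sq (he : e * e = 1) (hf : f * f = 1) (i : ℕ) : el φ e f i = (el φ e f i)⁻¹ := by
  refine eq_inv_of_mul_eq_one_left ?_
  unfold el
  split_ifs with h
  exacts [(M.mul_one_iff (val_lt i h).1 (val_lt i h).1).2 (val_lt i h).2, he, hf]

theorem rels_ok (hst : s = true → t = true) (he : ES φ e s) (hf : FS φ f t) (hw : e * f * e * f = φ (ww s t))
    {R : List (List ℕ)} (h : (R.all fun w => (allLt 6 w && Nat.beq (wd lets w) cI) || chk1 s t w ||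
      chk2 [0, 1, 2, 3, 5, 6, 7] s t w) = true) : ∀ w ∈ R, evw (el φ e f) w = 1 := fun w hw' => by
  have := List.all_eq_true.1 h w hw'
  simp only [Bool.or_eq_true] at this
  rcases this with (h | h) | h
  exacts [M.chk0_ok h, M.chk1_ok hst he hf hw h, M.chk2_ok (fun _ h => h) hst (fun _ => ⟨he, hw⟩) hf h]

end Mod
end CfH3.He
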