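import Cfsg.Agent.H3.He4
import Cfsg.Agent.H3.HxFB
import Cfsg.Agent.H3.HxLB
import Cfsg.Agent.H3.HxMB
import Cfsg.Agent.H3.HxHB
/-! The subgroup generated by the letters. -/
set_option autoImplicit false
set_option maxRecDepth 100000
open Subgroup CfH9 CfH6
namespace CfH3.He

def lS2 : List ℕ := [19, 13, 14, 7, 8, 9, 1, 2, 3, 4]
def levC : List ℕ := [16847105, 16847169, 16847233, 16847297, 16849153, 16849217, 16849281, 16849345, 16851073, 16851137, 16851329, 16851393, 16853121, 16853185, 16853377, 16853441, 16855169, 16855233, 16855297, 16855361, 16857217, 16857281, 16857345, 16857409, 16910593, 16910657, 16910721, 16910785, 16914689, 16914753, 16914817, 16914881, 16916545, 16916673, 16916801, 16916929, 16918593, 16918721, 16918785, 16918913, 16920641, 16920769, 16920897, 16921025, 16922689, 16922817, 16922881, 16923009, 16976129, 16976193, 16976257, 16976321, 16978177, 16978241, 16978305, 16978369,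 16982081, 16982145, 16982337, 16982401, 16984129, 16984193, 16984321, 16984513, 16986177, 16986241, 16986369, 16986561, 16988225, 16988289, 16988481, 16988545, 17041537, 17041601, 17041793, 17041857, 17043521, 17043649, 17043777, 17043905, 17045569, 17045633, 17045825, 17045889, 17049729, 17049793, 17049985, 17050049, 17051713, 17051841, 17051969, 17052097, 17053761, 17053825, 17054017, 17054081, 17107073, 17107137, 17107329, 17107393, 17109057, 17109185, 17109249, 17109377, 17111105, 17111169, 17111297, 17111489, 17113217, 17113281, 17113473, 17113537, 17117249, 17117313, 17117441, 17117633, 17119297, 17119425, 17119489, 17119617, 17172609, 17172673, 17172737, 17172801, 17174593, 17174721, 17174849, 17174977, 17176641, 17176705, 17176833, 17177025, 17178689, 17178817, 17178945, 17179073, 17180737, 17180801, 17180929, 17181121, 17184897, 17184961, 17185025, 17185089, 17238145, 17238209, 17238273,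 17238337, 17240129, 17240257, 17240321, 17240449, 17242177, 17242241, 17242433, 17242497, 17244225, 17244289, 17244481, 17244545, 17246273, 17246401, 17246465, 17246593, 17248385, 17248449, 17248513, 17248577]
def levW : List (List ℕ) := [[1, 2, 3, 1, 4, 2, 3, 1], [1, 2, 4, 2, 3, 1, 3], [2, 3, 1, 4, 2, 3, 1], [2, 4, 2, 3, 1, 3], [1, 4, 2, 3, 1, 4, 3], [4, 2, 1, 4, 3, 1], [2, 1, 4, 2, 3, 1], [4, 2, 3, 1, 4, 3], [3, 4, 2, 3, 1, 2], [3, 4, 2, 3, 1], [3, 1, 4, 2, 3, 1], [1, 3, 4, 2, 3, 1], [4, 2, 3, 1, 2], [4, 2, 3, 1], [1, 4, 2, 3, 1], [4, 2, 3, 1, 3], [4, 2, 3, 1, 4, 2], [2, 4, 2, 3, 1], [1, 4, 2, 3, 1, 4, 2], [1, 2, 4, 2, 3, 1], [2, 4, 2, 3, 1, 2], [4, 2, 3, 1, 4], [1, 4, 2, 3, 1, 4], [4, 2, 3, 1, 3, 4], [1, 2, 1, 3, 4, 3], [2, 1, 3, 4, 3], [1, 2, 1, 4, 3], [2, 1, 4, 3], [1, 2, 3, 1, 4, 3], [2, 1, 4, 3, 1], [1, 2, 1, 4, 3, 1], [2, 3, 1, 4, 3], [3, 4, 3], [3, 4, 3, 1], [1, 3, 4, 3], [3, 1, 4, 3],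 [2, 3, 4, 3], [2, 4, 3, 1], [1, 2, 3, 4, 3], [1, 2, 4, 3, 1], [4, 3], [4, 3, 1], [1, 4, 3, 1], [1, 4, 3], [2, 4, 3], [2, 3, 4, 3, 1], [1, 2, 3, 4, 3, 1], [1, 2, 4, 3], [2, 1, 4, 2, 3, 4], [2, 1, 3, 4, 2, 3], [2, 1, 4, 2, 3], [4, 2, 1, 4, 3], [1, 2, 3, 1, 4, 2, 3], [2, 1, 4, 3, 1, 2], [2, 3, 1, 4, 2, 3], [3, 4, 2, 1, 4, 3], [3, 4, 2, 3], [3, 4, 3, 1, 2], [1, 3, 4, 2, 3], [3, 1, 4, 2, 3], [4, 2, 3, 4], [2, 4, 3, 1, 2], [1, 4, 2, 3, 4], [1, 2, 4, 3, 1, 2], [2, 4, 2, 3], [2, 3, 4, 3, 1, 2], [3, 1, 4, 2, 3, 4], [1, 2, 4, 2, 3], [4, 2, 3], [4, 3, 1, 2], [1, 4, 3, 1, 2], [1, 4, 2, 3], [1, 2, 1], [2, 1], [1, 2, 1, 3], [2, 1, 3], [], [1], [1, 3, 1, 3], [3, 1, 3], [2], [1, 2], [2, 1, 3, 1], [3, 1, 2, 3], [2, 3, 1, 2], [2, 3, 1], [1, 2, 3, 1], [2, 3, 1, 3], [3], [3, 1], [1, 3, 1], [1, 3], [2, 3], [3, 1, 2], [1, 3, 1, 2], [1, 2, 3], [1, 4, 2, 1], [4, 2, 1], [1, 4, 2, 1, 3], [4, 2, 1, 3], [2, 4, 2, 4], [2,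 4, 2, 1], [1, 3, 1, 4, 2, 4, 3], [3, 1, 4, 2, 4, 3], [4, 2, 4], [1, 4, 2, 4], [4, 3, 1, 2, 3, 4], [2, 1, 3, 4, 2, 1], [3, 1, 4, 2, 1], [3, 4, 2, 1], [1, 3, 1, 4, 2, 1], [1, 3, 4, 2, 1], [3, 4, 2, 4], [3, 1, 4, 2, 4], [1, 3, 1, 4, 2, 4], [1, 3, 4, 2, 4], [4, 2, 4, 3], [2, 3, 4, 2, 1], [1, 2, 3, 4, 2, 1], [1, 4, 2, 4, 3], [1, 2, 1, 4], [2, 1, 4], [1, 2, 1, 3, 4], [2, 1, 3, 4], [4], [1, 4], [3, 1, 3, 4], [4, 3, 1, 3], [2, 4], [1, 2, 4], [3, 1, 2, 3, 4], [2, 1, 3, 1, 4], [3, 4], [3, 1, 4], [1, 3, 4], [1, 3, 1, 4], [2, 3, 4], [3, 1, 2, 4], [1, 2, 3, 4], [1, 3, 1, 2, 4], [2, 3, 1, 2, 4], [2, 3, 1, 4], [1, 2, 3, 1, 4], [2, 3, 1, 3, 4], [2, 1, 4, 2], [4, 2, 1, 4], [1, 2, 1, 3, 4, 2], [2, 1, 3, 4, 2], [2, 4, 2], [1, 2, 4, 2], [3, 1, 2, 3, 4, 2], [2, 1, 3, 1, 4, 2], [4, 2], [1, 4, 2], [3, 1, 3, 4, 2], [4, 3, 1, 2, 3], [3, 4, 2], [3, 1, 4, 2], [1, 3, 4, 2], [1, 3, 1, 4, 2], [2, 3, 4, 2], [3, 1, 2, 4, 2],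 [1, 2, 3, 4, 2], [1, 3, 1, 2, 4, 2], [2, 3, 1, 4, 2], [3, 4, 2, 1, 4], [1, 2, 3, 1, 4, 2], [1, 3, 4, 2, 1, 4]]
theorem lev_aux : levW.map (wd lets) = levC := by decide +kernel
theorem bas_aux : ([[5], [3], [3, 5, 3, 5], [1], [1, 3, 1, 3], [1, 3, 5, 3, 1, 3, 5, 3], [0], [0, 1, 0, 1], [0, 1, 3, 1, 0, 1, 3, 1], [0, 1, 3, 5, 3, 1, 0, 1, 3, 5, 3, 1]] : List (List ℕ)).map (wd lets) = bas lS2 := by decide +kernel
theorem linS : allM lS (fun c => Nat.beq (lin lS2 (bas lS2) c) c) = true := by decide +kernel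
theorem dec_aux : allC (fun c => frc (Nat.xor cI (Nat.land c 541184)) fun x => frc (Nat.lor (Nat.land c 473536) 16777217) fun y =>
    frc (Nat.xor cI (Nat.land c 30)) fun w => valB x && inM mS x && valB w && inM mS w && valB y &&
      inM (mk [6, 7, 8, 11, 12, 13, 16, 17, 18]) y && Nat.beq (bm x (bm y w)) c) = true := by decide +kernel
theorem lev_aux2 : allM [6, 7, 8, 11, 12, 13, 16, 17, 18] (fun c => levC.elem c) = true := by decide +kernel

theorem wd_ind {P : ℕ → Prop} (h1 : P cI) (h2 : ∀ a b, P a → P b → P (bm a b)) {L : List ℕ} (hL : ∀ x ∈ L, P x) (w : List ℕ) :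
    P (wd L w) := by
  induction w with
  | nil => exact h1
  | cons i w ih =>
    rw [wd_cons]
    refine h2 _ _ ?_ ih
    rw [List.getD_eq_getElem?_getD]
    cases h : L[i]? with
    | none => exact h1
    | some x => exact hL x (List.mem_of_getElem? h)

theorem lin_ind {P : ℕ → Prop} (h1 : P cI) (h2 : ∀ a b, P a → P b → P (bm a b)) (l : List ℕ) {L : List ℕ}
    (hL : ∀ x ∈ L, P x) (c : ℕ) : P (lin l L c) := by
  induction l generalizing L with
  | nil => exact h1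
  | cons p l ih =>
    rw [lin_cons]
    have := ih (L := L.tail) fun x hx => hL x (List.mem_of_mem_tail hx)
    cases c.testBit p
    · exact this
    · refine h2 _ _ ?_ this
      cases L with
      | nil => exact h1
      | cons x L => exact hL x List.mem_cons_self

theorem rels_L : (HxLB.rels.all fun w => (allLt 6 w && Nat.beq (wd lets w) cI) || chk1 false false w ||
    chk2 [0, 1, 2, 3, 5, 6, 7] false false w) = true := by decide +kernel
theorem rels_M : (HxMB.rels.all fun w => (allLt 6 w && Nat.beq (wd lets w) cI) || chk1 false true w ||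
    chk2 [0, 1, 2, 3, 5, 6, 7] false true w) = true := by decide +kernel
theorem rels_H : (HxHB.rels.all fun w => (allLt 6 w && Nat.beq (wd lets w) cI) || chk1 true true w ||
    chk2 [0, 1, 2, 3, 5, 6, 7] true true w) = true := by decide +kernel
def up (i : ℕ) : ℕ := cond (Nat.beq i 6) 7 i
theorem rels_F : (HxFB.rels.all fun w => (allLt 6 (w.map up) && Nat.beq (wd lets (w.map up)) cI) ||
    chk2 [0, 1, 2, 3, 5, 7] false false (w.map up) || chk3 [4, 3, 5, 7] (w.map up) || chk3 [4, 3, 5, 7, 4, 7] (w.map up)) = true := by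
  decide +kernel

variable {G : Type*} [Group G] {z : G} {φ : ℕ → G}

namespace Mod
variable (M : Mod z φ) {e f : G}
include M

theorem C_le {H : Subgroup G} (h : ∀ i < 6, φ (lt i) ∈ H) {c : ℕ} (hc : val c) : φ c ∈ H := by
  let P := fun c => val c ∧ φ c ∈ H
  have h1 : P cI := ⟨val_I, M.one ▸ H.one_mem⟩
  have h2 : ∀ a b, P a → P b → P (bm a b) := fun a b ha hb => ⟨ha.1.bm hb.1, M.mul ha.1 hb.1 ▸ H.mul_mem ha.2 hb.2⟩
  have h3 : ∀ w, P (wd lets w) := wd_ind h1 h2 fun x hx => by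
    have : ∀ x ∈ lets, ∃ i < 6, x = lt i := by decide
    obtain ⟨i, hi, rfl⟩ := this x hx
    exact ⟨(val_lt i hi).1, h i hi⟩
  have h4 : ∀ c, val c → inM mS c = true → P c := fun c hc hS => by
    rw [← Nat.eq_of_beq_eq_true (allM_sound linS hc hS)]
    refine lin_ind h1 h2 _ (fun x hx => ?_) c
    rw [← bas_aux] at hx
    obtain ⟨w, -, rfl⟩ := List.mem_map.1 hx
    exact h3 w
  have h5 := allC_sound dec_aux c hc
  simp only [frc_eq, Bool.and_eq_true, Nat.beq_eq] at h5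
  obtain ⟨⟨⟨⟨⟨⟨f1, f2⟩, f3⟩, f4⟩, f5⟩, f6⟩, f7⟩ := h5
  rw [← f7]
  refine (h2 _ _ (h4 _ f1 f2) (h2 _ _ ?_ (h4 _ f3 f4))).2
  have := List.mem_of_elem_eq_true (allM_sound lev_aux2 f5 f6)
  rw [← lev_aux] at this
  obtain ⟨w, -, e⟩ := List.mem_map.1 this
  exact e ▸ h3 w

theorem C_le_gen {E : ℕ → G} {k : ℕ} (hk : 6 ≤ k) (hE : ∀ i < 6, E i = φ (lt i)) {g : G} (h : g * z = z * g) : g ∈ gensub E k := by
  obtain ⟨c, hc, rfl⟩ := M.sur h
  exact M.C_le (fun i hi => hE i hi ▸ mem_gensub (by omega)) hc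

theorem hom_L (he : ES φ e false) (hf : FS φ f false) (hw : e * f * e * f = φ (ww false false)) :
    ∃ ρ : HxLB.G →* G, ∀ x < 8, ρ (HxLB.el x) = el φ e f x :=
  HxLB.hhom _ (fun x hx => by rw [show HxLB.il.getD x 0 = x by revert x; decide]; exact M.el_sq he.1 hf.1 x)
    (M.rels_ok id he hf hw rels_L)

theorem hom_M (he : ES φ e false) (hf : FS φ f true) (hw : e * f * e * f = φ (ww false true)) :
    ∃ ρ : HxMB.G →* G, ∀ x < 8, ρ (HxMB.el x) = el φ e f x :=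
  HxMB.hhom _ (fun x hx => by rw [show HxMB.il.getD x 0 = x by revert x; decide]; exact M.el_sq he.1 hf.1 x)
    (M.rels_ok (fun _ => rfl) he hf hw rels_M)

theorem hom_H (he : ES φ e true) (hf : FS φ f true) (hw : e * f * e * f = φ (ww true true)) :
    ∃ ρ : HxHB.G →* G, ∀ x < 8, ρ (HxHB.el x) = el φ e f x :=
  HxHB.hhom _ (fun x hx => by rw [show HxHB.il.getD x 0 = x by revert x; decide]; exact M.el_sq he.1 hf.1 x)
    (M.rels_ok id he hf hw rels_H)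

theorem hom_F (hf : FS φ f false) : ∃ ρ : HxFB.G →* G, ∀ x < 7, ρ (HxFB.el x) = el φ f f x := by
  refine HxFB.hhom _ (fun x hx => by rw [show HxFB.il.getD x 0 = x by revert x; decide]; exact M.el_sq hf.1 hf.1 x) fun w hw => ?_
  have h1 : evw (el φ f f) w = evw (el φ f f) (w.map up) := by
    rw [evw, evw, List.map_map]
    congr 2
    ext i
    by_cases h : i = 6
    · subst h; rfl
    · rw [Function.comp, up, show Nat.beq i 6 = false from Bool.eq_false_iff.2 fun h' => h (Nat.eq_of_beq_eq_true h'), cond_false]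
  have := List.all_eq_true.1 rels_F w hw
  simp only [Bool.or_eq_true] at this
  rw [h1]
  rcases this with ((h | h) | h) | h
  exacts [M.chk0_ok h, M.chk2_ok (by decide) id (fun h => absurd h (by decide)) hf h, M.chk3_ok hf h, M.chk3_ok hf h]

end Mod
end CfH3.He
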