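import Cfsg.Agent.H3.He5
import Cfsg.Agent.OD.Helper3x13090d572f
/-! The subgroup containing the centraliser and both new generators is the whole group. -/
set_option autoImplicit false
set_option maxRecDepth 100000
open Subgroup CfH9 CfH6
namespace CfH3.He

def zc (s t : Bool) (k : ℕ) : Bool := Nat.blt k 3 || Nat.beq k 4 || (Nat.beq k 6 && t) || (Nat.beq k 7 && s)
def iz (s t : Bool) (u : ℕ) : Bool := zc s t (cls u)
def kw : ℕ := 17044305
def VT : List ℕ := [cI, kt, kw, 17043801]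

theorem big_aux : allM lS (fun u => Nat.beq (cls u) 15 || Nat.blt (cls u) 3 || Nat.beq u kt || Nat.beq u 17044057 ||
    (bas lS).any fun g => !(Nat.beq (bm g u) (bm u g)) && (bas lS).any fun h => !(Nat.beq (bm h u) (bm u h)) &&
      !(Nat.beq (bm (bm g h) u) (bm u (bm g h)))) = true := by decide +kernel
theorem ct_aux : allC (fun c => !(Nat.beq (bm c kt) (bm kt c)) || (inM mS c &&
    (!(Nat.beq (bm c kw) (bm kw c)) || inM mJ c))) = true := by decide +kernel
theorem J_aux : allM lJ (fun c => inM mS c && Nat.beq (bm c kt) (bm kt c) && Nat.beq (bm c kw) (bm kw c) &&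
    Nat.beq (bm c 17044297) (bm 17044297 c)) = true := by decide +kernel
theorem cnt_J : cntC (inM mJ) = 256 := by decide +kernel
theorem cnt_St : cntC (fun c => inM mS c && Nat.beq (bm c kt) (bm kt c)) = 512 := by decide +kernel
theorem st1_aux : ∀ s t : Bool, allM lJ (fun c => iz s t (bm c c) || (VT.any fun v => iz s t (bm c v)) || VT.elem c) = true := by
  decide +kernel
theorem st2_aux : ∀ s t : Bool, allM lS (fun c => !(Nat.beq (bm c kt) (bm kt c)) || ((iz s t c || iz s t (bm c kt) ||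
    !(iz s t (bm cZ c)) || !(iz s t (bm (bm cZ c) kt)) || Nat.beq c kw || Nat.beq (bm c kt) kw) &&
    (Nat.beq (bm 17044289 c) (bm c 17044289) || Nat.beq (bm 17044289 c) (bm (bm c kt) 17044289)))) = true := by decide +kernel
theorem hh_aux : ∀ p ∈ [(17044429, [17044061, 17043921]), (17044433, [17044045, 17043933]), (17044053, [17044165, 17043665])],
    allM lJ (fun c => Nat.beq c p.1 || !(Nat.beq (bm c c) cI) || !(Nat.beq (bm c p.1) (bm p.1 c)) || Nat.beq c cI ||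
      iz true true c || iz true true (bm p.1 c) || p.2.elem c) = true := by decide +kernel

variable {G : Type*} [Group G] {z : G} {φ : ℕ → G}

def CG (φ : ℕ → G) (H : Subgroup G) (u v : ℕ) : Prop := ∃ g ∈ H, Cj φ g u v

theorem CG.symm {H : Subgroup G} {u v : ℕ} (h : CG φ H u v) : CG φ H v u := let ⟨g, h1, h2⟩ := h; ⟨g⁻¹, H.inv_mem h1, h2.symm⟩
theorem CG.trans {H : Subgroup G} {u v w : ℕ} (h : CG φ H u v) (h' : CG φ H v w) : CG φ H u w :=
  let ⟨_, h1, h2⟩ := h; let ⟨_, h3, h4⟩ := h'; ⟨_, H.mul_mem h3 h1, h2.comp h4⟩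
theorem CG.isConj {H : Subgroup G} {u v : ℕ} (h : CG φ H u v) : IsConj (φ u) (φ v) := let ⟨_, _, h2⟩ := h; h2.isConj

theorem card_le_of_index [Finite G] {K H : Subgroup G} (h : K ≤ H) {n : ℕ} (h1 : n ≤ K.relIndex H) : Nat.card K * n ≤ Nat.card H :=
  card_mul_relIndex h ▸ Nat.mul_le_mul_left _ h1

namespace Mod
variable (M : Mod z φ) {H : Subgroup G} (hC : ∀ c, val c → φ c ∈ H) {e f : G} {s t : Bool}
include M hC

theorem cg_cls {u : ℕ} (hu : val u) (hS : inM mS u = true) (h : cls u ≠ 15) : CG φ H u (rep (cls u)) := by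
  obtain ⟨-, -, -, c, hc, h1⟩ := M.cls_cj hu hS h
  exact ⟨_, hC c hc, h1⟩

theorem cg_link {g : G} (hg : g ∈ H) {u v j k : ℕ} (h : Cj φ g u v) (h1 : (inM mS u && inM mS v && Nat.beq (cls u) j &&
    Nat.beq (cls v) k && Nat.blt j 8 && Nat.blt k 8) = true) : CG φ H (rep j) (rep k) := by
  simp only [Bool.and_eq_true, Nat.beq_eq, Nat.blt_eq] at h1
  obtain ⟨⟨⟨⟨⟨f1, f2⟩, rfl⟩, rfl⟩, f5⟩, f6⟩ := h1
  exact ((M.cg_cls hC h.1 f1 (by omega)).symm.trans ⟨g, hg, h⟩).trans (M.cg_cls hC h.2.1 f2 (by omega))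

theorem cg_rep (he : ES φ e s) (hf : FS φ f t) (heH : e ∈ H) (hfH : f ∈ H) {k : ℕ} (hk : k < 8) :
    CG φ H (rep k) (cond (zc s t k) cZ kt) := by
  have E : ∀ u j k, val u → (inM mE u && (inM mS u && inM mS (me s u) && Nat.beq (cls u) j && Nat.beq (cls (me s u)) k &&
      Nat.blt j 8 && Nat.blt k 8)) = true → CG φ H (rep j) (rep k) := fun u j k hu h => by
    rw [Bool.and_eq_true] at h
    exact M.cg_link hC heH (M.cj_me he hu h.1) h.2
  have F : ∀ u j k, val u → (inM mF u && (inM mS u && inM mS (mf t u) && Nat.beq (cls u) j && Nat.beq (cls (mf t u)) k &&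
      Nat.blt j 8 && Nat.blt k 8)) = true → CG φ H (rep j) (rep k) := fun u j k hu h => by
    rw [Bool.and_eq_true] at h
    exact M.cg_link hC hfH (M.cj_mf hf hu h.1) h.2
  have h1 := F 17043545 1 0 (by decide) (by cases t <;> decide +kernel)
  have h2 := E 17044049 2 0 (by decide) (by cases s <;> decide +kernel)
  have h5 := E 17043933 5 3 (by decide) (by cases s <;> decide +kernel)
  interval_cases k
  · exact h1.symm.trans h1
  · exact h1
  · exact h2
  · exact h5.symm.trans h5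
  · exact (E 17044181 4 1 (by decide) (by cases s <;> decide +kernel)).trans h1
  · exact h5
  · cases t
    · exact F 17068879 6 3 (by decide) (by decide +kernel)
    · exact (F 17051715 6 1 (by decide) (by decide +kernel)).trans h1
  · cases s
    · cases t <;> exact E 17585101 7 3 (by decide) (by decide +kernel)
    · cases t <;> exact (E 17567937 7 2 (by decide) (by decide +kernel)).trans h2

variable [Finite G]

omit hC in
theorem cls_of_conj {u : ℕ} (hu : val u) (hS : inM mS u = true) (h : IsConj z (φ u)) : cls u ≠ 15 := by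
  obtain ⟨g, hg⟩ := isConj_iff.1 h
  exact cls_ne hu hS ((M.mul_one_iff hu hu).1 (by rw [← hg, conj_mul, M.zz]; simp)) fun e => M.z_ne (by
    rw [e, M.one] at hg; simpa using hg)

theorem conj_in {x : G} (hx : x ∈ H) (h2 : x * x = 1) : ∃ h ∈ H, ∃ u, val u ∧ inM mS u = true ∧ φ u = h * x * h⁻¹ := by
  haveI : Fact (Nat.Prime 2) := ⟨Nat.prime_two⟩
  obtain ⟨h, hh, u, h3⟩ := (M.sylS.mono (K := H) (fun _ ⟨c, hc, _, e⟩ => e ▸ hC c hc) le_top).exists_conj_mem hx (k := 1)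
    (by rwa [pow_one, pow_two])
  exact ⟨h, hh, u, h3⟩

theorem uniq_of (hZ : ∀ u, val u → inM mS u = true → IsConj z (φ u) → CG φ H u cZ) (g : G) (hg : g * z * g⁻¹ ∈ H) : g ∈ H := by
  obtain ⟨h, hh, u, hu, hS, e⟩ := M.conj_in hC hg (by rw [conj_mul, M.zz]; simp)
  obtain ⟨k, hk, h1⟩ := hZ u hu hS (isConj_iff.2 ⟨h * g, by rw [e]; group⟩)
  obtain ⟨c, hc, h2⟩ := M.sur (g := k * h * g) (by
    have := h1.2.2
    rw [e, M.hz] at this
    nth_rewrite 2 [← this]; group)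
  convert H.mul_mem (H.inv_mem (H.mul_mem hk hh)) (hC c hc) using 1
  rw [h2]; group

omit hC in
theorem two_le {Q : Subgroup G} (hQ : IsPGroup 2 Q) {x : G} (hx : x ∈ Q) (h1 : x ≠ 1) (h2 : ¬ IsConj z x) (hc : Q ≤ Cx(x)) :
    Nat.card Q ≤ 512 := by
  haveI : Fact (Nat.Prime 2) := ⟨Nat.prime_two⟩
  obtain ⟨g, -, h⟩ := M.sylS.exists_cj_le hQ le_top
  have h3 : cj g Q ≤ M.S ⊓ Cx(g * x * g⁻¹) := le_inf h (cj_Cx g x ▸ cj_mono g hc)
  have h4 : 2 ≤ (M.S ⊓ Cx(g * x * g⁻¹)).relIndex M.S := by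
    by_contra h5
    have h6 : (M.S ⊓ Cx(g * x * g⁻¹)).relIndex M.S ≠ 0 := index_ne_zero_of_finite
    rcases M.cent_S (h (conj_mem_cj g hx)) (fun y hy => (mem_centralizer_singleton_iff.1
      (relIndex_eq_one.1 (show (M.S ⊓ Cx(g * x * g⁻¹)).relIndex M.S = 1 by omega) hy).2).symm) with h7 | h7
    · exact h1 (by simpa using h7)
    · exact h2 (isConj_iff.2 ⟨g, h7⟩).symm
  have := card_le_of_index inf_le_left h4
  have h8 := card_le_of_le h3
  rw [card_cj, M.card_S] at *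
  omega

omit hC in
theorem four_le {Q : Subgroup G} (hQ : IsPGroup 2 Q) {x y : G} (hx : x ∈ Q) (hy : y ∈ Q) (hc : Q ≤ Cx(x) ⊓ Cx(y))
    (h0 : ∀ k < 3, IsConj z (φ (rep k))) (h1 : ∀ v ∈ [x, y, x * y], v ≠ 1 ∧ v * v = 1 ∧ ¬ IsConj z v) : Nat.card Q ≤ 341 := by
  haveI : Fact (Nat.Prime 2) := ⟨Nat.prime_two⟩
  obtain ⟨g, -, h⟩ := M.sylS.exists_cj_le hQ le_top
  have key : ∀ v ∈ [x, y, x * y], v ∈ Q → Q ≤ Cx(v) → Nat.card Q ≤ 341 ∨ g * v * g⁻¹ = φ kt ∨ g * v * g⁻¹ = φ 17044057 := by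
    intro v hv hvQ hc
    obtain ⟨u, hu, hS, e⟩ := h (conj_mem_cj g hvQ)
    obtain ⟨f1, f2, f3⟩ := h1 v hv
    have f4 := cls_ne hu hS ((M.mul_one_iff hu hu).1 (by rw [e, conj_mul, f2]; simp)) fun e' => f1 (by
      rw [e', M.one] at e; simpa using e.symm)
    have := allM_sound big_aux hu hS
    simp only [Bool.or_eq_true, Nat.beq_eq, Nat.blt_eq, f4, false_or, List.any_eq_true, Bool.and_eq_true, Bool.not_eq_true',
      ← Bool.not_eq_true] at this
    rcases this with ((h2 | rfl) | rfl) | ⟨a, ha, h2, b, hb, h3, h4⟩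
    · obtain ⟨-, -, -, c, -, h3⟩ := M.cls_cj hu hS f4
      exact absurd (((h0 _ h2).trans h3.isConj.symm).trans (isConj_iff.2 ⟨g, e.symm⟩).symm) f3
    · exact Or.inr (Or.inl e.symm)
    · exact Or.inr (Or.inr e.symm)
    · left
      have hv : ∀ a ∈ bas lS, val a ∧ inM mS a = true := by decide
      have h5 : cj g Q ≤ M.S ⊓ Cx(φ u) := le_inf h (e ▸ cj_Cx g v ▸ cj_mono g hc)
      have m : ∀ c, val c → φ c ∈ M.S ⊓ Cx(φ u) → bm c u = bm u c := fun c hc h =>
        (M.comm_iff hc hu).1 (mem_centralizer_singleton_iff.1 h.2)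
      have h6 : 3 ≤ (M.S ⊓ Cx(φ u)).relIndex M.S := by
        by_contra h7
        have h8 : (M.S ⊓ Cx(φ u)).relIndex M.S ≠ 0 := index_ne_zero_of_finite
        have ma : φ a ∈ M.S := ⟨a, (hv a ha).1, (hv a ha).2, rfl⟩
        have mb : φ b ∈ M.S := ⟨b, (hv b hb).1, (hv b hb).2, rfl⟩
        by_cases h9 : (M.S ⊓ Cx(φ u)).relIndex M.S = 1
        · exact h2 (m a (hv a ha).1 (relIndex_eq_one.1 h9 ma))
        · have := (mul_mem_iff_of_index_two (show ((M.S ⊓ Cx(φ u)).subgroupOf M.S).index = 2 by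
            change (M.S ⊓ Cx(φ u)).relIndex M.S = 2; omega) (a := ⟨_, ma⟩) (b := ⟨_, mb⟩)).2
            (iff_of_false (fun h => h2 (m a (hv a ha).1 h)) fun h => h3 (m b (hv b hb).1 h))
          exact h4 (m _ ((hv a ha).1.bm (hv b hb).1) (by rw [M.mul (hv a ha).1 (hv b hb).1]; exact this))
      have := card_le_of_index inf_le_left h6
      have h8 := card_le_of_le h5
      rw [card_cj, M.card_S] at *
      omega
  by_contra hn
  have k1 := (key x (by simp) hx (hc.trans inf_le_left)).resolve_left hn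
  have k2 := (key y (by simp) hy (hc.trans inf_le_right)).resolve_left hn
  have k3 := h1 (x * y) (by simp)
  have e : x * y = g⁻¹ * ((g * x * g⁻¹) * (g * y * g⁻¹)) * g := by group
  have t1 : φ kt * φ kt = 1 := (M.mul_one_iff (by decide) (by decide)).2 (by decide +kernel)
  have t2 : φ 17044057 * φ 17044057 = 1 := (M.mul_one_iff (by decide) (by decide)).2 (by decide +kernel)
  have t3 : φ kt * φ 17044057 = z := M.hz ▸ (M.mul_eq' (by decide) (by decide) val_Z).2 (by decide +kernel)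
  have t4 : φ 17044057 * φ kt = z := M.hz ▸ (M.mul_eq' (by decide) (by decide) val_Z).2 (by decide +kernel)
  rcases k1 with k1 | k1 <;> rcases k2 with k2 | k2 <;> rw [k1, k2] at e
  · exact k3.1 (by rw [e, t1]; group)
  · exact k3.2.2 (isConj_iff.2 ⟨g⁻¹, by rw [e, t3]; group⟩)
  · exact k3.2.2 (isConj_iff.2 ⟨g⁻¹, by rw [e, t4]; group⟩)
  · exact k3.1 (by rw [e, t2]; group)

end Mod

structure Sim (z : G) (φ : ℕ → G) (H : Subgroup G) (s t : Bool) : Prop where
  M : Mod z φ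
  hC : ∀ c, val c → φ c ∈ H
  hr : ∀ k < 8, CG φ H (rep k) (cond (zc s t k) cZ kt)
  hst : s = true → t = true

namespace Sim
variable [Finite G] {H : Subgroup G} {s t : Bool} (D : Sim z φ H s t)
include D

theorem cgz {u : ℕ} (hu : val u) (hS : inM mS u = true) (h : cls u ≠ 15) : CG φ H u (cond (iz s t u) cZ kt) :=
  (D.M.cg_cls D.hC hu hS h).trans (D.hr _ (D.M.cls_cj hu hS h).1)

theorem hiz {u : ℕ} (hu : val u) (hS : inM mS u = true) : IsConj z (φ u) ↔ iz s t u = true := by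
  constructor
  · intro h
    have := D.cgz hu hS (D.M.cls_of_conj hu hS h)
    cases e : iz s t u
    · rw [e] at this; exact absurd (h.trans this.isConj) D.M.not_t
    · rfl
  · intro h
    have := D.cgz hu hS (fun e => by rw [iz, e] at h; revert h; cases s <;> cases t <;> decide)
    rw [h] at this
    exact D.M.hz ▸ this.isConj.symm

theorem hU (g : G) (hg : g * z * g⁻¹ ∈ H) : g ∈ H :=
  D.M.uniq_of D.hC (fun u hu hS h => by
    have := D.cgz hu hS (D.M.cls_of_conj hu hS h)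
    rwa [(D.hiz hu hS).1 h] at this) g hg

theorem stage1 : Cx(φ kt) ⊓ Cx(φ kw) ≤ H := by
  haveI : Fact (Nat.Prime 2) := ⟨Nat.prime_two⟩
  have M := D.M
  by_contra hn
  let J := M.sub mJ (by decide)
  have hJ : ∀ c, val c → inM mJ c = true → inM mS c = true ∧ φ c ∈ Cx(φ kt) ⊓ Cx(φ kw) ∧ φ c * φ 17044297 = φ 17044297 * φ c :=
    fun c hc h => by
      have := allM_sound J_aux hc h
      simp only [Bool.and_eq_true, Nat.beq_eq] at this
      exact ⟨this.1.1.1, ⟨mem_centralizer_singleton_iff.2 ((M.comm_iff hc (by decide)).2 this.1.1.2),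
        mem_centralizer_singleton_iff.2 ((M.comm_iff hc (by decide)).2 this.1.2)⟩, (M.comm_iff hc (by decide)).2 this.2⟩
  have hJ' : ∀ g ∈ Cx(φ kt) ⊓ Cx(φ kw), g * z = z * g → g ∈ J := fun g hg h => by
    obtain ⟨c, hc, rfl⟩ := M.sur h
    have := allC_sound ct_aux c hc
    rw [(M.comm_iff hc (by decide)).1 (mem_centralizer_singleton_iff.1 hg.1),
      (M.comm_iff hc (by decide)).1 (mem_centralizer_singleton_iff.1 hg.2)] at this
    simp only [Nat.beq_refl, Bool.not_true, Bool.false_or, Bool.and_eq_true] at this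
    exact ⟨c, hc, this.2, rfl⟩
  have cJ : Nat.card J = 256 := (M.card_of _ _ fun _ => Iff.rfl).trans cnt_J
  have pJ : IsPGroup 2 J := IsPGroup.of_card (n := 8) cJ
  have hVT : ∀ v ∈ VT, val v ∧ inM mJ v = true ∧ bm v v = cI ∧ iz s t v = false := by cases s <;> cases t <;> decide +kernel
  have hP : SylIn 2 J (Cx(φ kt) ⊓ Cx(φ kw)) := ⟨fun _ ⟨c, h1, h2, e⟩ => e ▸ (hJ c h1 h2).2.1, pJ, fun Q hQ h1 h2 => by
    have h3 := M.four_le hQ (h2 ⟨kt, by decide, by decide, rfl⟩) (h2 ⟨kw, by decide, by decide, rfl⟩) h1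
      (fun k hk => (D.hiz (val_rep k (by omega)) (by revert k; decide)).2 (by revert k; cases s <;> cases t <;> decide +kernel))
      (fun v hv => by
        rw [← M.mul (by decide) (by decide)] at hv
        obtain ⟨c, hc, rfl⟩ := List.mem_map.1 (show v ∈ [kt, kw, bm kt kw].map φ from hv)
        have : ∀ c ∈ [kt, kw, bm kt kw], c ∈ VT ∧ c ≠ cI := by decide +kernel
        obtain ⟨f1, f2, f3, f4⟩ := hVT c (this c hc).1
        exact ⟨fun h => (this c hc).2 ((M.eq_one f1).1 h), (M.mul_one_iff f1 f1).2 f3,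
          by rw [D.hiz f1 (hJ c f1 f2).1, f4]; decide⟩)
    obtain ⟨n, h4⟩ := hQ.exists_card_eq
    have h5 : n ≤ 8 := by
      by_contra h6
      have := Nat.pow_le_pow_right (show 0 < 2 by omega) (show 9 ≤ n by omega)
      omega
    have := Nat.pow_le_pow_right (show 0 < 2 by omega) h5
    exact (eq_of_le_of_card_ge h2 (by omega)).ge⟩
  obtain ⟨T, hVT', hTJ, hTz, -, Dd, hD1, hD2, hD3⟩ := set_lemma (V := closure {φ kt, φ kw}) (P := J) M.zz ⟨cZ, val_Z, by decide, M.hz⟩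
    (by rintro _ ⟨c, hc, -, rfl⟩; exact (M.com hc).symm) hP (fun _ ⟨c, h1, _, e⟩ => e ▸ D.hC c h1)
    ((closure_le _).2 (by rintro _ (rfl | rfl); exacts [⟨kt, by decide, by decide, rfl⟩, ⟨kw, by decide, by decide, rfl⟩]))
    (fun h hh v hv => (mem_centralizer_singleton_iff.1 ((closure_le Cx(h)).2 (by
      rintro _ (rfl | rfl)
      exacts [mem_centralizer_singleton_iff.2 (mem_centralizer_singleton_iff.1 hh.1).symm,
        mem_centralizer_singleton_iff.2 (mem_centralizer_singleton_iff.1 hh.2).symm]) hv)).symm) D.hU hn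
  have mT : ∀ v ∈ VT, φ v ∈ T := fun v hv => by
    have h1 : φ kt ∈ T := hVT' (subset_closure (by simp))
    have h2 : φ kw ∈ T := hVT' (subset_closure (by simp))
    simp only [VT, List.mem_cons, List.not_mem_nil, or_false] at hv
    rcases hv with rfl | rfl | rfl | rfl
    exacts [M.one ▸ T.one_mem, h1, h2, by
      rw [show 17043801 = bm kt kw by decide +kernel, M.mul (by decide) (by decide)]; exact T.mul_mem h1 h2]
  have trJ : trM mJ := by decide
  have hT : ∀ x ∈ T, ∃ v ∈ VT, x = φ v := fun x hx => by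
    obtain ⟨c, hc, h1, rfl⟩ := hTJ hx
    have := allM_sound (st1_aux s t) hc h1
    simp only [Bool.or_eq_true, List.any_eq_true] at this
    have k : ∀ v, val v → inM mJ v = true → φ v ∈ T → iz s t (bm c v) ≠ true := fun v h2 h3 h4 h5 =>
      hTz _ (T.mul_mem hx h4) (M.mul hc h2 ▸ (D.hiz (hc.bm h2) (hJ _ (hc.bm h2) (inM_bm trJ hc h2 h1 h3)).1).2 h5)
    rcases this with (h | ⟨v, hv, h⟩) | h
    · exact absurd h (k c hc h1 hx)
    · exact absurd h (k v (hVT v hv).1 (hVT v hv).2.1 (mT v hv))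
    · exact ⟨c, List.mem_of_elem_eq_true h, rfl⟩
  have hcen : ∀ d ∈ Cx(φ kt) ⊓ Cx(φ kw), ∀ v ∈ VT, Cj φ d v v := fun d hd v hv => by
    have h1 : Cj φ d kt kt := ⟨by decide, by decide, by rw [mem_centralizer_singleton_iff.1 hd.1]; group⟩
    have h2 : Cj φ d kw kw := ⟨by decide, by decide, by rw [mem_centralizer_singleton_iff.1 hd.2]; group⟩
    simp only [VT, List.mem_cons, List.not_mem_nil, or_false] at hv
    rcases hv with rfl | rfl | rfl | rfl
    exacts [M.cj_one d, h1, h2, (show bm kt kw = 17043801 by decide +kernel) ▸ M.cj_mul h1 h2]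
  have hD : ∀ y, val y → inM mJ y = true → y ∉ VT → bm y y = cI → ∃ d ∈ Dd, ∃ x ∈ VT, ∀ v ∈ VT,
      Cj φ d (bm cZ v) (bm (bm y x) v) ∧ iz s t (bm cZ v) = iz s t (bm (bm y x) v) := fun y hy h1 h2 h3 => by
    obtain ⟨d, hd, x, hx, e⟩ := hD2 (φ y) ⟨y, hy, h1, rfl⟩ (Cz_le_Nm T (mem_centralizer_iff.2 fun x hx => by
      obtain ⟨v, hv, rfl⟩ := hT x hx
      exact (hcen _ (hJ y hy h1).2.1 v hv).eq.symm)) (fun h => by
      obtain ⟨v, hv, e⟩ := hT _ h
      exact h2 (M.inj hy (hVT v hv).1 e ▸ hv)) (by rw [(M.mul_one_iff hy hy).2 h3]; exact T.one_mem)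
    obtain ⟨x, hx', rfl⟩ := hT x hx
    refine ⟨d, hd, x, hx', fun v hv => ?_⟩
    have h4 := M.cj_mul (g := d) ⟨val_Z, hy.bm (hVT x hx').1, by rw [M.hz, e, M.mul hy (hVT x hx').1]⟩ (hcen d (hD1 d hd).1 v hv)
    refine ⟨h4, Bool.eq_iff_iff.2 ?_⟩
    rw [← D.hiz h4.1 (hJ _ h4.1 (inM_bm trJ val_Z (hVT v hv).1 (by decide) (hVT v hv).2.1)).1,
      ← D.hiz h4.2.1 (hJ _ h4.2.1 (inM_bm trJ (hy.bm (hVT x hx').1) (hVT v hv).1
        (inM_bm trJ hy (hVT x hx').1 h1 (hVT x hx').2.1) (hVT v hv).2.1)).1]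
    exact ⟨fun h => h.trans h4.isConj, fun h => h.trans h4.isConj.symm⟩
  cases s
  · obtain ⟨d, -, x, hx, h⟩ := hD kc (by decide) (by decide) (by decide) (by decide +kernel)
    have : ∀ t, ∀ x ∈ VT, ∃ v ∈ VT, iz false t (bm cZ v) ≠ iz false t (bm (bm kc x) v) := by decide +kernel
    obtain ⟨v, hv, h1⟩ := this t x hx
    exact h1 (h v hv).2
  obtain rfl := D.hst rfl
  replace hD3 := hD3 fun h hh h1 => by
    obtain ⟨v, hv, e⟩ := hT _ h1
    have h2 := (hcen h hh v hv).2.2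
    have h3 : h * z * h⁻¹ = φ v * z := by rw [← e, mul_assoc _ z z, M.zz, mul_one]
    obtain ⟨n, hn⟩ := pJ ⟨h * h, hJ' _ (mul_mem hh hh) (by
      have : h * h * z * (h * h)⁻¹ = z := by
        calc _ = h * (h * z * h⁻¹) * h⁻¹ := by group
          _ = h * (φ v * z) * h⁻¹ := by rw [h3]
          _ = (h * φ v * h⁻¹) * (h * z * h⁻¹) := by group
          _ = z := by rw [h2, h3, ← mul_assoc, (M.mul_one_iff (hVT v hv).1 (hVT v hv).1).2 (hVT v hv).2.2.1, one_mul]
      nth_rewrite 2 [← this]; group)⟩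
    refine ⟨n + 1, ?_⟩
    have := congrArg Subtype.val hn
    simp only [SubgroupClass.coe_pow, OneMemClass.coe_one] at this
    rw [pow_succ', pow_mul, pow_two, this]; exact T.one_mem
  have hD' : ∀ y ∈ [17044297, 17044429, 17044433, 17044053], ∃ d ∈ Dd, Cj φ d 17044057 y := fun y hy => by
    have : ∀ y ∈ [17044297, 17044429, 17044433, 17044053], val y ∧ inM mJ y = true ∧ y ∉ VT ∧ bm y y = cI ∧ ∀ x ∈ VT,
      iz true true (bm cZ kt) = iz true true (bm (bm y x) kt) → bm (bm y x) kt = y := by decide +kernel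
    obtain ⟨f1, f2, f3, f4, f5⟩ := this y hy
    obtain ⟨d, hd, x, hx, h⟩ := hD y f1 f2 f3 f4
    obtain ⟨h1, h2⟩ := h kt (by decide)
    rw [f5 x hx h2, show bm cZ kt = 17044057 by decide +kernel] at h1
    exact ⟨d, hd, h1⟩
  obtain ⟨δ, hδ, h1⟩ := hD' 17044297 (by decide)
  have hδH := (hD1 δ hδ).1
  have hN : δ⁻¹ ∈ Nm(J) := mem_normalizer_of_conj_mem fun x hx => by
    have h2 : δ⁻¹ * x * δ⁻¹⁻¹ ∈ Cx(φ kt) ⊓ Cx(φ kw) := mul_mem (mul_mem (inv_mem hδH) (hP.le hx)) (inv_mem (inv_mem hδH))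
    refine hJ' _ h2 ?_
    obtain ⟨c, hc, h3, rfl⟩ := hx
    have h4 : Commute (δ⁻¹ * φ c * δ⁻¹⁻¹) (φ 17044057) := h1.symm.2.2 ▸ Commute.conj (hJ c hc h3).2.2 δ⁻¹
    have h5 : Commute (δ⁻¹ * φ c * δ⁻¹⁻¹) (φ kt) := mem_centralizer_singleton_iff.1 h2.1
    have := (h4.mul_right h5).eq
    rwa [(M.mul_eq' (by decide) (by decide) val_Z).2 (by decide +kernel), M.hz] at this
  have key : ∀ p ∈ [(17044429, [17044061, 17043921]), (17044433, [17044045, 17043933]), (17044053, [17044165, 17043665])],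
      ∃ c ∈ p.2, Cj φ δ p.1 c := fun p hp => by
    have : ∀ p ∈ [(17044429, [17044061, 17043921]), (17044433, [17044045, 17043933]), (17044053, [17044165, 17043665])],
      p.1 ∈ [17044297, 17044429, 17044433, 17044053] ∧ inM mJ p.1 = true := by decide
    obtain ⟨ε, hε, h2⟩ := hD' p.1 (this p hp).1
    obtain ⟨c, hc, h3, e⟩ := (mem_normalizer_iff.1 (show δ ∈ Nm(J) by simpa using (Nm(J)).inv_mem hN) (φ p.1)).1 ⟨_, h2.2.1, (this p hp).2, rfl⟩
    have h4 : Cj φ ε 17044297 c := ⟨by decide, hc, by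
      obtain ⟨v, hv, e'⟩ := hT _ (hD3 ε hε δ hδ)
      have h5 := (hcen _ (hJ c hc h3).2.1 v hv).eq
      calc _ = (ε * δ * ε⁻¹ * δ⁻¹) * (δ * (ε * φ 17044057 * ε⁻¹) * δ⁻¹) * (ε * δ * ε⁻¹ * δ⁻¹)⁻¹ := by rw [← h1.2.2]; group
        _ = φ c := by rw [e', h2.2.2, ← e, ← h5]; group⟩
    have h6 := allM_sound (hh_aux p hp) hc h3
    have nz : ∀ {u v}, Cj φ ε u v → inM mS u = true → inM mJ v = true → iz true true u = false → iz true true v = false :=
      fun {u v} h g1 g2 g3 => Bool.eq_false_iff.2 fun g4 => by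
        rw [(D.hiz h.1 g1).1 (((D.hiz h.2.1 (hJ v h.2.1 g2).1).2 g4).trans h.isConj.symm)] at g3
        exact absurd g3 (by decide)
    have q1 : bm c c = cI := M.cj_uniq (M.cj_mul h4 h4)
      (by rw [show bm 17044297 17044297 = cI by decide +kernel]; exact M.cj_one ε)
    have q2 : bm c p.1 = bm p.1 c := M.cj_uniq (M.cj_mul h4 h2)
      (by rw [show bm 17044297 17044057 = bm 17044057 17044297 by decide +kernel]; exact M.cj_mul h2 h4)
    rw [q1, q2,
      nz h4 (by decide) h3 (by decide +kernel), nz (M.cj_mul h2 h4) (by decide +kernel)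
        (inM_bm trJ h2.2.1 hc (this p hp).2 h3) (by decide +kernel)] at h6
    simp only [Nat.beq_refl, Bool.not_true, Bool.or_false, Bool.or_eq_true, Nat.beq_eq] at h6
    rcases h6 with (h6 | h6) | h6
    · exact absurd (M.cj_uniq (h6 ▸ h4).symm h2.symm) (by decide)
    · exact absurd (M.cj_uniq (h6 ▸ h4).symm (M.cj_one _)) (by decide)
    · exact ⟨c, List.mem_of_elem_eq_true h6, h2.2.1, hc, e.symm⟩
  obtain ⟨c1, g1, k1⟩ := key _ List.mem_cons_self
  obtain ⟨c2, g2, k2⟩ := key (17044433, [17044045, 17043933]) (by decide)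
  obtain ⟨c3, g3, k3⟩ := key (17044053, [17044165, 17043665]) (by decide)
  have := M.cj_uniq (M.cj_mul k1 (M.cj_mul k2 k3))
    ((show kt = bm 17044429 (bm 17044433 17044053) by decide +kernel) ▸ hcen δ hδH kt (by decide))
  clear * - g1 g2 g3 this
  revert c1 c2 c3
  decide +kernel

theorem stage2 : Cx(φ kt) ≤ H := by
  haveI : Fact (Nat.Prime 2) := ⟨Nat.prime_two⟩
  have M := D.M
  by_contra hn
  have mP : ∀ g, g ∈ M.S ⊓ Cx(φ kt) ↔ ∃ c, val c ∧ (inM mS c && Nat.beq (bm c kt) (bm kt c)) = true ∧ φ c = g := fun g => by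
    simp only [Bool.and_eq_true, Nat.beq_eq]
    constructor
    · rintro ⟨⟨c, hc, h1, rfl⟩, h2⟩
      exact ⟨c, hc, ⟨h1, (M.comm_iff hc (by decide)).1 (mem_centralizer_singleton_iff.1 h2)⟩, rfl⟩
    · rintro ⟨c, hc, ⟨h1, h2⟩, rfl⟩
      exact ⟨⟨c, hc, h1, rfl⟩, mem_centralizer_singleton_iff.2 ((M.comm_iff hc (by decide)).2 h2)⟩
  have cP := (M.card_of _ _ mP).trans cnt_St
  have tP : φ kt ∈ M.S ⊓ Cx(φ kt) := (mP _).2 ⟨kt, by decide, by decide +kernel, rfl⟩
  have hP : SylIn 2 (M.S ⊓ Cx(φ kt)) Cx(φ kt) := ⟨inf_le_right, M.sylS.pgrp.to_inf_left, fun Q hQ h1 h2 =>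
    (eq_of_le_of_card_ge h2 (cP ▸ M.two_le hQ (h2 tP) (fun h => absurd ((M.eq_one (by decide)).1 h) (by decide)) M.not_t h1)).ge⟩
  obtain ⟨T, hVT, hTP, hTz, ⟨k, hk1, hk2⟩, Dd, hD1, hD2, -⟩ := set_lemma (V := zpowers (φ kt)) M.zz
    ((mP z).2 ⟨cZ, val_Z, by decide +kernel, M.hz⟩) (by rintro _ ⟨⟨c, hc, -, rfl⟩, -⟩; exact (M.com hc).symm) hP
    (fun _ ⟨⟨c, h1, _, e⟩, _⟩ => e ▸ D.hC c h1) (zpowers_le_of_mem tP)
    (by rintro h hh _ ⟨n, rfl⟩; exact (Commute.zpow_right (mem_centralizer_singleton_iff.1 hh) n).eq) D.hU hn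
  have tT : φ kt ∈ T := hVT (mem_zpowers _)
  have wT : φ kw ∉ T := fun h => hk1 (D.stage1 ⟨mem_centralizer_singleton_iff.2 (hk2 _ tT), mem_centralizer_singleton_iff.2 (hk2 _ h)⟩)
  have hc : ∀ x ∈ T, ∃ c, val c ∧ inM mS c = true ∧ φ c = x ∧ ((iz s t c || iz s t (bm c kt) ||
    !(iz s t (bm cZ c)) || !(iz s t (bm (bm cZ c) kt)) || Nat.beq c kw || Nat.beq (bm c kt) kw) &&
    (Nat.beq (bm 17044289 c) (bm c 17044289) || Nat.beq (bm 17044289 c) (bm (bm c kt) 17044289))) = true := fun x hx => by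
    obtain ⟨c, h1, h2, rfl⟩ := (mP x).1 (hTP hx)
    rw [Bool.and_eq_true] at h2
    have := allM_sound (st2_aux s t) h1 h2.1
    rw [h2.2] at this
    exact ⟨c, h1, h2.1, rfl, this⟩
  have yz : IsConj z (φ 17044289) := (D.hiz (by decide) (by decide)).2 (by cases s <;> cases t <;> decide +kernel)
  have yz' : IsConj z (φ 17044289 * φ kt) := M.mul (a := 17044289) (by decide) (b := kt) (by decide) ▸
    (D.hiz (by decide +kernel) (by decide +kernel)).2 (by cases s <;> cases t <;> decide +kernel)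
  obtain ⟨d, hd, x, hx, e⟩ := hD2 (φ 17044289) ((mP _).2 ⟨_, by decide, by decide +kernel, rfl⟩)
    (mem_normalizer_of_conj_mem fun x hx => by
      obtain ⟨c, h1, -, rfl, h3⟩ := hc x hx
      simp only [Bool.and_eq_true, Bool.or_eq_true, Nat.beq_eq] at h3
      rcases h3.2 with h | h
      · rwa [(M.cj_code (by decide) h1 h1 h).2.2]
      · rw [(M.cj_code (by decide) h1 (h1.bm (by decide)) h).2.2, M.mul h1 (by decide)]; exact T.mul_mem hx tT)
    (fun h => hTz _ h yz) (by rw [(M.mul_one_iff (by decide) (by decide)).2 (by decide +kernel)]; exact T.one_mem)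
  have hx' := (mem_normalizer_iff''.1 (hD1 d hd).2 _).1 (T.inv_mem hx)
  obtain ⟨c, h1, h2, e', h3⟩ := hc _ hx'
  have e1 : d * (z * φ c) * d⁻¹ = φ 17044289 := by
    rw [e']
    calc _ = d * z * d⁻¹ * x⁻¹ := by group
      _ = _ := by rw [e]; group
  have e2 : d * φ kt * d⁻¹ = φ kt := by rw [mem_centralizer_singleton_iff.1 (hD1 d hd).1]; group
  have vt : val kt := by decide
  have s1 := inM_bm tr_S val_Z h1 (by decide) h2
  rw [Bool.eq_false_iff.2 fun h => hTz _ hx' (e' ▸ (D.hiz h1 h2).2 h), Bool.eq_false_iff.2 fun h => hTz _ (T.mul_mem hx' tT)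
    (e' ▸ M.mul h1 vt ▸ (D.hiz (h1.bm vt) (inM_bm tr_S h1 vt h2 (by decide))).2 h),
    (D.hiz (val_Z.bm h1) s1).1 (by rw [M.mul val_Z h1, M.hz]; exact yz.trans (isConj_iff.2 ⟨d, e1⟩).symm),
    (D.hiz ((val_Z.bm h1).bm vt) (inM_bm tr_S (val_Z.bm h1) vt s1 (by decide))).1 (by
      rw [M.mul (val_Z.bm h1) vt, M.mul val_Z h1, M.hz]
      exact yz'.trans (isConj_iff.2 ⟨d, by rw [← conj_mul, e1, e2]⟩).symm)] at h3
  simp only [Bool.not_true, Bool.or_false, Bool.false_or, Bool.and_eq_true, Bool.or_eq_true, Nat.beq_eq] at h3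
  rcases h3.1 with h | h
  · exact wT (h ▸ e' ▸ hx')
  · exact wT (h ▸ M.mul h1 vt ▸ e'.symm ▸ T.mul_mem hx' tT)

theorem eq_top : H = ⊤ := by
  have M := D.M
  refine eq_top_of_emb M.zz ((M.mul_one_iff (a := kt) (by decide) (by decide)).2 (by decide +kernel))
    (fun h => absurd ((M.eq_one (by decide)).1 h) (by decide)) (D.hC kt (by decide)) D.hU (fun w hw h1 h2 g hg => ?_) M.not_t
  obtain ⟨h, hh, u, hu, hS, e⟩ := M.conj_in D.hC hw h2
  obtain ⟨k, hk, h3⟩ := D.cgz hu hS (Mod.cls_ne hu hS ((M.mul_one_iff hu hu).1 (by rw [e, conj_mul, h2]; simp)) fun e' => h1 (by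
      rw [e', M.one] at e; simpa using e.symm))
  have h4 : Commute (k * h * g * (k * h)⁻¹) (φ (cond (iz s t u) cZ kt)) := by
    rw [← h3.2.2, e, show k * (h * w * h⁻¹) * k⁻¹ = k * h * w * (k * h)⁻¹ by group]; exact hg.conj _
  have h5 : k * h * g * (k * h)⁻¹ ∈ H := by
    cases e : iz s t u <;> rw [e] at h4
    · exact D.stage2 (mem_centralizer_singleton_iff.2 h4)
    · obtain ⟨c, hc, e⟩ := M.sur (M.hz ▸ h4.eq)
      exact e ▸ D.hC c hc
  convert H.mul_mem (H.mul_mem (H.inv_mem (H.mul_mem hk hh)) h5) (H.mul_mem hk hh) using 1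
  group

end Sim
end CfH3.He
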