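import Cfsg.Agent.H3.He6
import Cfsg.Agent.H9.Basic2
/-! The case where only one class of the extraspecial group is fused to the centre. -/
set_option autoImplicit false
set_option maxRecDepth 100000
open Subgroup CfH9 CfH6
namespace CfH3.He

def lA : List ℕ := [1, 2, 3, 4]
abbrev mA : ℕ := mk lA
theorem A_aux : allM lA (fun u => inM mS u && inM mF u && inM mA (mf false u) && (Nat.beq u cI || Nat.blt (cls u) 2) &&
    ([0, 1, 2, 3, 4, 5].all fun i => inM mA (bm (lt i) (bm u (lt i)))) && Nat.beq (bm u u) cI &&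
    (Nat.beq (bm u a2) (bm a2 u) || Nat.beq (bm u a2) (bm cZ (bm a2 u))) &&
    allM lA fun v => Nat.beq (bm u v) (bm v u)) = true := by decide +kernel
theorem A_aux2 : allM lS (fun u => !(Nat.blt (cls u) 2) || inM mA u) = true := by decide +kernel
theorem p2_aux : allC (fun c => !(Nat.beq (bm c (rep 7)) (bm (rep 7) c)) || inM mS c) = true := by decide +kernel
def z7 (u : ℕ) : Bool := Nat.blt (cls u) 2 || Nat.beq (cls u) 7
noncomputable def cn7 (w : ℕ) : ℕ := cntC fun c => inM mS c && Nat.beq (bm c (rep 7)) (bm (rep 7) c) && z7 c && z7 (bm c w)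
theorem cn7_ne : cn7 (rep 7) ≠ cn7 cZ := by decide +kernel

variable {G : Type*} [Group G] {z : G} {φ : ℕ → G}

structure FD (z : G) (φ : ℕ → G) (f : G) : Prop where
  M : Mod z φ
  hf : FS φ f false
  hn : ¬ IsConj z (φ a2)

namespace FD
variable {f : G} (D : FD z φ f)
include D

def A : Subgroup G := D.M.sub mA (by decide)

theorem hC {c : ℕ} (hc : val c) : φ c ∈ gensub (el φ f f) 7 :=
  D.M.C_le_gen (by omega) (fun i hi => if_pos hi) (D.M.com hc)

theorem hfH : f ∈ gensub (el φ f f) 7 := mem_gensub (el := el φ f f) (x := 6) (by omega)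

theorem link (u j k : ℕ) (h : (valB u && inM mF u && (inM mS u && inM mS (mf false u) && Nat.beq (cls u) j &&
    Nat.beq (cls (mf false u)) k && Nat.blt j 8 && Nat.blt k 8)) = true) : CG φ (gensub (el φ f f) 7) (rep j) (rep k) := by
  rw [Bool.and_eq_true, Bool.and_eq_true] at h
  exact D.M.cg_link (fun _ => D.hC) D.hfH (D.M.cj_mf D.hf h.1.1 h.1.2) h.2

theorem cg1 : CG φ (gensub (el φ f f) 7) (rep 1) cZ := D.link 17043545 1 0 (by decide +kernel)

theorem memA {x : G} (hx : x ∈ D.A) : x * x = 1 ∧ (x * φ a2 = φ a2 * x ∨ x * φ a2 = z * (φ a2 * x)) ∧ (∀ y ∈ D.A, x * y = y * x) ∧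
    (x = 1 ∨ ∃ h ∈ gensub (el φ f f) 7, h * x * h⁻¹ = z) := by
  have M := D.M
  obtain ⟨u, hu, h1, rfl⟩ := hx
  have := allM_sound A_aux hu h1
  simp only [Bool.and_eq_true, Bool.or_eq_true, Nat.beq_eq, Nat.blt_eq] at this
  obtain ⟨⟨⟨⟨⟨⟨⟨f1, -⟩, -⟩, f4⟩, -⟩, f6⟩, f7⟩, f8⟩ := this
  have v2 : val a2 := by decide
  refine ⟨(M.mul_one_iff hu hu).2 f6, f7.imp (M.comm_iff hu v2).2 fun h => ?_, ?_, f4.imp (M.eq_one hu).2 fun h => ?_⟩
  · rw [← M.hz, ← M.mul v2 hu, M.mul_eq hu v2 val_Z (v2.bm hu), h]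
  · rintro _ ⟨v, hv, h2, rfl⟩
    exact (M.comm_iff hu hv).2 (Nat.eq_of_beq_eq_true (allM_sound f8 hv h2))
  · have h2 := M.cg_cls (fun _ => D.hC) hu f1 (by omega)
    obtain ⟨g, hg, h3⟩ : CG φ (gensub (el φ f f) 7) u cZ := by
      rcases (show cls u = 0 ∨ cls u = 1 by omega) with e | e <;> rw [e] at h2
      exacts [h2, h2.trans D.cg1]
    exact ⟨g, hg, h3.2.2.trans M.hz⟩

variable [Finite G]

theorem normA : gensub (el φ f f) 7 ≤ Nm(D.A) := gensub_le fun i hi => mem_normalizer_of_conj_mem (by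
  rintro _ ⟨u, hu, h1, rfl⟩
  have := allM_sound A_aux hu h1
  simp only [Bool.and_eq_true, List.all_eq_true] at this
  obtain ⟨⟨⟨⟨⟨⟨⟨-, f2⟩, f3⟩, -⟩, f5⟩, -⟩, -⟩, -⟩ := this
  by_cases h : i < 6
  · have := D.M.cj_lt h hu
    exact ⟨_, this.2.1, f5 i (by clear * - h; revert i; decide), by rw [el, if_pos h, this.2.2]⟩
  · have := D.M.cj_mf D.hf hu f2
    exact ⟨_, this.2.1, f3, by rw [el, if_neg h, ite_self, this.2.2]⟩)

theorem cls_z7 {u : ℕ} (hu : val u) (hS : inM mS u = true) (h : IsConj z (φ u)) : z7 u = true ∧ IsConj z (φ (rep (cls u))) := by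
  have M := D.M
  obtain ⟨h1, -, -, c, -, h2⟩ := M.cls_cj hu hS (M.cls_of_conj hu hS h)
  have h3 := h.trans h2.isConj
  refine ⟨?_, h3⟩
  unfold z7
  generalize cls u = k at h1 h3
  interval_cases k
  · rfl
  · rfl
  · exact absurd h3 D.hn
  · exact absurd h3 M.not_t
  · exact absurd (h3.trans (D.link 17068121 4 2 (by decide +kernel)).isConj) D.hn
  · exact absurd h3 M.not_r0
  · exact absurd (h3.trans (D.link 17068879 6 3 (by decide +kernel)).isConj) M.not_t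
  · rfl

theorem not_p2 : ¬ IsConj z (φ (rep 7)) := fun h => by
  have M := D.M
  have v7 : val (rep 7) := by decide
  have hz : ∀ u, val u → inM mS u = true → (IsConj z (φ u) ↔ z7 u = true) := fun u hu hS => ⟨fun h => (D.cls_z7 hu hS h).1, fun h1 => by
    simp only [z7, Bool.or_eq_true, Nat.blt_eq, Nat.beq_eq] at h1
    have h2 := (M.cg_cls (fun _ => D.hC) hu hS (by omega)).isConj.symm
    rcases (show cls u = 0 ∨ cls u = 1 ∨ cls u = 7 by omega) with e | e | e <;> rw [e] at h2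
    exacts [M.hz ▸ h2, (M.hz ▸ D.cg1.isConj.symm).trans h2, h.trans h2]⟩
  have hc : ∀ w, val w → inM mS w = true →
      {x | x * z = z * x ∧ x * φ (rep 7) = φ (rep 7) * x ∧ IsConj z x ∧ IsConj z (x * φ w)}.ncard = cn7 w := fun w hw hS => by
    rw [cn7, ← M.ncard]
    congr 1
    ext x
    simp only [Set.mem_setOf_eq, Bool.and_eq_true, Nat.beq_eq]
    constructor
    · rintro ⟨h1, h2, h3, h4⟩
      obtain ⟨c, hc, rfl⟩ := M.sur h1
      have h5 := (M.comm_iff hc v7).1 h2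
      have h6 := allC_sound p2_aux c hc
      rw [h5, Nat.beq_refl] at h6
      exact ⟨c, hc, ⟨⟨⟨h6, h5⟩, (hz c hc h6).1 h3⟩, (hz _ (hc.bm hw) (inM_bm tr_S hc hw h6 hS)).1 (M.mul hc hw ▸ h4)⟩, rfl⟩
    · rintro ⟨c, hc, ⟨⟨⟨h1, h2⟩, h3⟩, h4⟩, rfl⟩
      exact ⟨M.com hc, (M.comm_iff hc v7).2 h2, (hz c hc h1).2 h3, M.mul hc hw ▸ (hz _ (hc.bm hw) (inM_bm tr_S hc hw h1 hS)).2 h4⟩
  obtain ⟨k, hk, g, h1, h2, h3, -⟩ := M.fus v7 h
  rw [rts_u _ (by omega), rts_z _ hk] at h3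
  have h4 := (hz _ (val_rep k hk) (by clear * - hk; revert k; decide)).1 (M.hz ▸ h2.isConj)
  obtain rfl : k = 7 := by clear * - hk h3 h4; revert k; decide +kernel
  refine cn7_ne ?_
  have e1 := h1.2.2
  have e2 := h2.2.2
  rw [M.hz] at e1 e2
  rw [← hc _ v7 (by decide), ← hc _ val_Z (by decide), M.hz]
  refine Eq.trans ?_ (Mod.ncard_conj g _)
  congr 1; ext x
  have k : ∀ y, IsConj z (g * y * g⁻¹) ↔ IsConj z y := fun y =>
    ⟨fun h => h.trans (isConj_iff.2 ⟨g, rfl⟩).symm, fun h => h.trans (isConj_iff.2 ⟨g, rfl⟩)⟩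
  have k1 : g * x * g⁻¹ * z = g * (x * φ (rep 7)) * g⁻¹ := by rw [← conj_mul, e1]
  have k2 : z * (g * x * g⁻¹) = g * (φ (rep 7) * x) * g⁻¹ := by rw [← conj_mul, e1]
  have k3 : g * x * g⁻¹ * φ (rep 7) = g * (x * z) * g⁻¹ := by rw [← conj_mul, e2]
  have k4 : φ (rep 7) * (g * x * g⁻¹) = g * (z * x) * g⁻¹ := by rw [← conj_mul, e2]
  simp only [Set.mem_setOf_eq, k1, k2, k3, k4, k, mul_left_inj, mul_right_inj]
  tauto

theorem inA {u : ℕ} (hu : val u) (hS : inM mS u = true) (h : IsConj z (φ u)) : φ u ∈ D.A := by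
  obtain ⟨h1, h2⟩ := D.cls_z7 hu hS h
  have := allM_sound A_aux2 hu hS
  simp only [z7, Bool.or_eq_true, Nat.beq_eq] at h1
  rw [h1.resolve_right fun e => D.not_p2 (e ▸ h2)] at this
  exact ⟨u, hu, this, rfl⟩

theorem hU (g : G) (hg : g * z * g⁻¹ ∈ gensub (el φ f f) 7) : g ∈ gensub (el φ f f) 7 :=
  D.M.uniq_of (fun _ => D.hC) (fun u hu hS h => by
    rcases (D.memA (D.inA hu hS h)).2.2.2 with e | ⟨k, hk, e⟩
    · exact absurd (by rwa [e, isConj_one_left] at h) D.M.z_ne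
    · exact ⟨k, hk, hu, val_Z, e.trans D.M.hz.symm⟩) g hg

theorem ZA {x : G} (hx : x ∈ gensub (el φ f f) 7) (h : IsConj z x) : x ∈ D.A := by
  obtain ⟨g, rfl⟩ := isConj_iff.1 h
  obtain ⟨k, hk, u, hu, hS, e⟩ := D.M.conj_in (fun _ => D.hC) hx (by rw [conj_mul, D.M.zz]; simp)
  exact (mem_normalizer_iff.1 (D.normA hk) _).2 (e ▸ D.inA hu hS (e ▸ h.trans (isConj_iff.2 ⟨k, rfl⟩)))

theorem CH {g : G} (h : Commute g z) : g ∈ gensub (el φ f f) 7 := D.hU g (by rw [h.eq, mul_inv_cancel_right]; exact D.M.hz ▸ D.hC val_Z)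

theorem uA {x : G} (hx : x ∈ D.A) (h1 : x ≠ 1) (g : G) (hg : g * x * g⁻¹ ∈ gensub (el φ f f) 7) : g ∈ gensub (el φ f f) 7 := by
  obtain ⟨k, hk, e⟩ := (D.memA hx).2.2.2.resolve_left h1
  have := D.hU (g * k⁻¹) (by rw [← e]; convert hg using 1; group)
  simpa using mul_mem this hk

theorem zA : z ∈ D.A := ⟨cZ, val_Z, by decide, D.M.hz⟩
theorem A_le : D.A ≤ gensub (el φ f f) 7 := fun _ ⟨_, hc, _, e⟩ => e ▸ D.hC hc

theorem oddF {y : G} (h : IsConj z y) (hy : y ∉ gensub (el φ f f) 7) : Odd (orderOf (z * y)) := by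
  by_contra ho
  have hy2 : y * y = 1 := by obtain ⟨g, rfl⟩ := isConj_iff.1 h; rw [conj_mul, D.M.zz]; simp
  obtain ⟨m, h1, h2⟩ := exists_inv_pow ho
  obtain ⟨h3, h4⟩ := dih_comm D.M.zz hy2 h2
  have h5 := D.ZA (mul_mem (D.CH h3) (D.A_le D.zA)) (by
    rcases dih_cls D.M.zz hy2 m with h5 | h5
    exacts [h5.2, h.trans h5.2])
  have h6 : (z * y) ^ m ∈ D.A := by simpa using mul_mem h5 (inv_mem D.zA)
  exact hy (D.uA h6 h1 y (by rw [← h4.eq, mul_inv_cancel_right]; exact D.A_le h6))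

theorem uW {α : G} (hα : α ∈ D.A) (h2 : α * φ a2 * (α * φ a2) = 1) (g : G)
    (hg : g * (α * φ a2) * g⁻¹ ∈ gensub (el φ f f) 7) : g ∈ gensub (el φ f f) 7 := by
  classical
  have M := D.M
  by_contra hn
  set H := gensub (el φ f f) 7
  set w := α * φ a2 with hw
  let J : Set Cx(w) := {j | IsConj z (j : G)}
  have ex : ∀ j ∈ J, ∃ k : G, k * z * k⁻¹ = j ∧ ∀ a : G ⧸ H, j • a = a ↔ a = k := fun j hj => by
    obtain ⟨k, hk⟩ := isConj_iff.1 hj
    refine ⟨k, hk, fun a => ?_⟩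
    induction a using QuotientGroup.induction_on with | H a => ?_
    refine (smul_mk_iff (g := (j : G))).trans ?_
    rw [QuotientGroup.eq, ← hk]
    exact ⟨fun h => D.hU _ (by convert h using 1; group), fun h => by
      convert mul_mem (mul_mem h (D.A_le D.zA)) (inv_mem h) using 1; group⟩
  haveI : Nonempty G := ⟨1⟩
  choose! kk hk1 hk2 using ex
  have hO : ∀ x ∈ J, ∀ y ∈ J, (kk x : G ⧸ H) ≠ kk y → Odd (orderOf (x * y)) := fun x hx y hy h => by
    have := D.oddF (y := (kk x)⁻¹ * y * kk x) (IsConj.trans hy (isConj_iff.2 ⟨(kk x)⁻¹, by simp⟩)) fun h1 =>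
      h ((hk2 y hy _).1 (smul_mk_iff.2 h1))
    rw [← orderOf_coe, ← orderOf_conj'' (kk x), Subgroup.coe_mul, ← hk1 x hx]
    convert this using 2; group
  have za : ∀ x ∈ D.A, x * φ a2 = φ a2 * x → x ∈ Cx(w) := fun x hx h => mem_centralizer_singleton_iff.2 (by
    rw [hw, ← mul_assoc, (D.memA hx).2.2.1 α hα, mul_assoc, h, mul_assoc])
  have a1A : φ a1 ∈ D.A := ⟨a1, by decide, by decide, rfl⟩
  have hzw := za z D.zA (M.com (by decide)).symm
  have haw := za _ a1A ((M.comm_iff (by decide) (by decide)).2 (by decide +kernel))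
  have hzJ : ⟨z, hzw⟩ ∈ J := IsConj.refl z
  have haJ : ⟨_, haw⟩ ∈ J := show IsConj z (φ a1) from M.hz ▸ D.cg1.isConj.symm
  obtain ⟨β, hβ, hβ1, hβ2⟩ : ∃ β ∈ D.A, β ≠ 1 ∧ Commute (g * w * g⁻¹) β := by
    have h3 := (mem_normalizer_iff.1 (D.normA hg) z).1 D.zA
    have h4 : g * w * g⁻¹ * (g * w * g⁻¹) = 1 := by rw [conj_mul, h2]; simp
    generalize g * w * g⁻¹ = v at h3 h4
    by_cases h5 : z * (v * z * v⁻¹) = 1
    · refine ⟨z, D.zA, M.z_ne, ?_⟩
      rw [← M.zz, mul_right_inj, mul_inv_eq_iff_eq_mul] at h5; exact h5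
    · refine ⟨_, mul_mem D.zA h3, h5, ?_⟩
      show v * _ = _ * v
      nth_rewrite 1 [(D.memA D.zA).2.2.1 _ h3]
      rw [← mul_assoc, ← mul_assoc, ← mul_assoc, h4, one_mul, inv_eq_of_mul_eq_one_left h4]
      simp only [mul_assoc, h4, mul_one]
  have hsw : g⁻¹ * β * g⁻¹⁻¹ ∈ Cx(w) := mem_centralizer_singleton_iff.2 (by
    have := (hβ2.symm.conj g⁻¹).eq
    convert this using 2 <;> group)
  have hsJ : ⟨_, hsw⟩ ∈ J := by
    obtain ⟨k, -, e⟩ := (D.memA hβ).2.2.2.resolve_left hβ1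
    exact (isConj_iff.2 ⟨k, e⟩).symm.trans (isConj_iff.2 ⟨g⁻¹, rfl⟩)
  have p0 : ∀ j ∈ J, (j : G) ∈ H → (kk j : G ⧸ H) = (1 : G) := fun j hj h => ((hk2 j hj _).1 (smul_mk_iff.2 (by simpa using h))).symm
  obtain ⟨s, -, -, h4⟩ := cnt J (fun j => (kk j : G ⧸ H)) (fun j hj k => IsConj.trans hj (isConj_iff.2 ⟨k, rfl⟩))
    (fun j hj => Subtype.ext (by rw [Subgroup.coe_mul, ← hk1 j hj, conj_mul, M.zz]; simp)) hk2 hO (fun x hx y hy a b hab ha hb => by
      by_cases h : (kk x : G ⧸ H) = kk y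
      · have f1 : (kk x)⁻¹ * x * kk x ∈ D.A := D.ZA (smul_mk_iff.1 ((hk2 x hx _).2 rfl)) (IsConj.trans hx (isConj_iff.2 ⟨(kk x)⁻¹, by simp⟩))
        have f2 : (kk x)⁻¹ * y * kk x ∈ D.A := D.ZA (smul_mk_iff.1 ((hk2 y hy _).2 h)) (IsConj.trans hy (isConj_iff.2 ⟨(kk x)⁻¹, by simp⟩))
        rcases (D.memA (mul_mem f1 f2)).2.2.2 with e | ⟨k, -, e⟩
        · have : x * y = 1 := Subtype.ext (by
            calc ((x * y : Cx(w)) : G) = kk x * ((kk x)⁻¹ * x * kk x * ((kk x)⁻¹ * y * kk x)) * (kk x)⁻¹ := by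
                  rw [Subgroup.coe_mul]; group
              _ = 1 := by rw [e]; group)
          rw [this, orderOf_one]; exact odd_one
        · have : x * y ∈ J := (isConj_iff.2 ⟨k * (kk x)⁻¹, by rw [← e, Subgroup.coe_mul]; group⟩).symm
          exact absurd (((hk2 _ this a).1 ha).trans ((hk2 _ this b).1 hb).symm) hab
      · exact hO x hx y hy h) hzJ hsJ (fun h => hn (by
      have h1 := (hk2 _ hsJ _).2 ((p0 _ hzJ (D.A_le D.zA)).symm.trans h)
      exact inv_inv g ▸ inv_mem (D.uA hβ hβ1 g⁻¹ (by simpa using smul_mk_iff.1 h1))))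
  obtain ⟨s', -, -, h5⟩ := h4 _ haJ ((p0 _ haJ (D.A_le a1A)).trans (p0 _ hzJ (D.A_le D.zA)).symm)
  generalize s * s' = d at h5
  have e : (d : G) * z * (d : G)⁻¹ = φ a1 := congrArg Subtype.val h5
  have h6 := (mem_normalizer_iff.1 (D.normA (D.hU d (e ▸ D.A_le a1A))) (φ ka)).1 ⟨ka, by decide, by decide, rfl⟩
  have cw : ∀ x ∈ D.A, x * w * x⁻¹ * w⁻¹ = x * φ a2 * x⁻¹ * (φ a2)⁻¹ := fun x hx => by
    rcases (D.memA hx).2.1 with h | h
    · rw [mem_centralizer_singleton_iff.1 (za x hx h), h]; group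
    · rw [hw, ← mul_assoc, (D.memA hx).2.2.1 α hα, mul_assoc α, h, ← mul_assoc α, ← (D.memA D.zA).2.2.1 α hα]; group
  have h7 : φ ka * w * (φ ka)⁻¹ * w⁻¹ = z := by
    rw [cw _ ⟨ka, by decide, by decide, rfl⟩, (M.cj_dec (c := ka) (u := a2) (v := He.za) (by decide +kernel)).2.2,
      mul_inv_eq_iff_eq_mul, ← M.hz, eq_comm, M.mul_eq' val_Z (by decide) (by decide)]
    decide +kernel
  have h8 := cw _ h6
  have h9 : (d : G) * w * (d : G)⁻¹ = w := by rw [mem_centralizer_singleton_iff.1 d.2]; group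
  generalize (d : G) = d at h6 h8 h9 e
  nth_rewrite 1 2 [← h9] at h8
  rw [conj_mul, conj_inv, conj_mul, conj_inv, conj_mul, h7, e] at h8
  rcases (D.memA h6).2.1 with h | h <;> rw [h] at h8
  · exact absurd ((M.eq_one (by decide)).1 (h8.trans (by group))) (by decide)
  · exact absurd (M.inj (by decide) val_Z (h8.trans (by rw [M.hz]; group))) (by decide)

theorem eq_top : gensub (el φ f f) 7 = ⊤ := by
  haveI : Fact (Nat.Prime 2) := ⟨Nat.prime_two⟩
  have M := D.M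
  rw [eq_top_iff]
  intro g _
  by_contra hg
  have hs : g * z * g⁻¹ ∉ gensub (el φ f f) 7 := fun h => hg (D.hU g h)
  have hs1 : IsConj z (g * z * g⁻¹) := isConj_iff.2 ⟨g, rfl⟩
  have hs2 : g * z * g⁻¹ * (g * z * g⁻¹) = 1 := by rw [conj_mul, M.zz]; simp
  generalize g * z * g⁻¹ = s at hs hs1 hs2
  have hw : φ a2 * φ a2 = 1 := (M.mul_one_iff (by decide) (by decide)).2 (by decide +kernel)
  have iw := inv_eq_of_mul_eq_one_left hw
  obtain ⟨k, q, hq, hn⟩ := Nat.exists_eq_two_pow_mul_odd (orderOf_pos (φ a2 * s)).ne'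
  have h0 : (φ a2 * s) ^ q ≠ 1 := fun h => by
    obtain ⟨j, -, -, h1, -⟩ := dih_odd hw hs2 (Odd.of_dvd_nat hq (orderOf_dvd_of_pow_eq_one h))
    exact D.hn (hs1.trans (isConj_iff.2 ⟨j, h1⟩).symm)
  have h1 : IsConj z ((φ a2 * s) ^ q * φ a2) := hs1.trans ((dih_cls hw hs2 q).resolve_left fun h =>
    Nat.not_even_iff_odd.2 hq h.1).2
  have h2 := conj_pow_inv hw hs2 q
  have h2' : s * (φ a2 * s) ^ q * s⁻¹ = ((φ a2 * s) ^ q)⁻¹ := by
    rw [← conj_pow, ← inv_pow, mul_inv_rev, iw, ← mul_assoc, mul_inv_cancel_right, inv_eq_of_mul_eq_one_left hs2]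
  have h3 : ((φ a2 * s) ^ q) ^ 2 ^ k = 1 := by rw [← pow_mul, mul_comm q, ← hn, pow_orderOf_eq_one]
  generalize (φ a2 * s) ^ q = r at h0 h1 h2 h2' h3
  have pz : ∀ (x : G) n, x ^ 2 ^ n = 1 → IsPGroup 2 (zpowers x) := fun x n h =>
    IsPGroup.of_card_dvd_pow (n := n) (Nat.card_zpowers x ▸ orderOf_dvd_of_pow_eq_one h)
  have h4 := le_of_uniq M.sylS (fun _ ⟨_, hc, _, e⟩ => e ▸ D.hC hc) ((pz _ 1 (by rwa [pow_one, pow_two])).to_sup_of_normal_right'
    (pz r k h3) (zpowers_le_of_mem (mem_normalizer_of_conj_mem (by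
      rintro _ ⟨n, rfl⟩
      rw [← conj_zpow, h2, mul_inv_cancel_right]; exact zpow_mem (inv_mem (mem_zpowers r)) n))))
    (mem_sup_left (mem_zpowers _)) fun g hg => D.uW D.A.one_mem (by rwa [one_mul]) g (by rwa [one_mul])
  have h5 := h4 (mem_sup_right (mem_zpowers r))
  have h6 := D.ZA (mul_mem h5 (D.hC (c := a2) (by decide))) h1
  have e : r = r * φ a2 * φ a2 := by rw [mul_assoc, hw, mul_one]
  generalize r * φ a2 = α at h6 e
  subst e
  by_cases h7 : α * φ a2 * (α * φ a2) = 1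
  · exact hs (D.uW h6 h7 s (h2' ▸ inv_mem h5))
  · refine hs (D.hU s ?_)
    have h8 : α * φ a2 * (α * φ a2) = z := by
      rcases (D.memA h6).2.1 with h | h
      · refine absurd ?_ h7
        nth_rewrite 1 [h]
        rw [mul_assoc, ← mul_assoc α, (D.memA h6).1, one_mul, hw]
      · nth_rewrite 1 [h]
        rw [mul_assoc, mul_assoc, ← mul_assoc α, (D.memA h6).1, one_mul, hw, mul_one]
    rw [← h8, ← conj_mul, h2']
    exact mul_mem (inv_mem h5) (inv_mem h5)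

end FD
end CfH3.He
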