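import Cfsg.Agent.OD.Pre
import Cfsg.Agent.H3.HxFB
import Cfsg.Agent.H3.HxFT1
import Cfsg.Agent.H3.HxT2
import Cfsg.Agent.H3.HxT3
import Cfsg.Agent.H3.HxT4
import Cfsg.Agent.H3.HxT5
import Cfsg.Agent.H3.HxT6
set_option autoImplicit false
set_option maxRecDepth 100000
set_option linter.all false
namespace CfH6.HxFO
open CfH6
def s0 : List (List ℕ) := [[0], [1], [2], [3], [4], [5], [6]]
def t0 : List (List ℕ) := [[0], [1], [2], [3], [4], [5]]
theorem cov0 : Covers (gensub (byW HxFB.el t0) 6) (gensub (byW HxFB.el s0) 7) 15 :=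
  cov_step HxFB.el HxFB.hinv HxFB.hrel s0 t0 6 4 (fun ev H => HxFT1.covers ev H) (by decide +kernel)
theorem top0 : gensub (byW HxFB.el s0) 7 = ⊤ := (gensub_id HxFB.el (by decide)).trans HxFB.htop
theorem covT0 : Covers (gensub (byW HxFB.el t0) 6) ⊤ 15 := cov0.top top0
def s1 : List (List ℕ) := [[0], [1], [2], [3], [4], [5]]
def t1 : List (List ℕ) := [[0], [1], [2], [3], [5]]
theorem cov1 : Covers (gensub (byW HxFB.el t1) 5) (gensub (byW HxFB.el s1) 6) 7 :=
  cov_step HxFB.el HxFB.hinv HxFB.hrel s1 t1 5 4 (fun ev H => HxT2.covers ev H) (by decide +kernel)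
def s2 : List (List ℕ) := [[0], [1], [2], [3], [5]]
def t2 : List (List ℕ) := [[0], [1], [3], [5]]
theorem cov2 : Covers (gensub (byW HxFB.el t2) 4) (gensub (byW HxFB.el s2) 5) 3 :=
  cov_step HxFB.el HxFB.hinv HxFB.hrel s2 t2 4 4 (fun ev H => HxT3.covers ev H) (by decide +kernel)
def s3 : List (List ℕ) := [[0], [1], [3], [5]]
def t3 : List (List ℕ) := [[0], [1], [3]]
theorem cov3 : Covers (gensub (byW HxFB.el t3) 3) (gensub (byW HxFB.el s3) 4) 16 :=
  cov_step HxFB.el HxFB.hinv HxFB.hrel s3 t3 3 4 (fun ev H => HxT4.covers ev H) (by decide +kernel)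
def s4 : List (List ℕ) := [[0], [1], [3]]
def t4 : List (List ℕ) := [[0], [1]]
theorem cov4 : Covers (gensub (byW HxFB.el t4) 2) (gensub (byW HxFB.el s4) 3) 8 :=
  cov_step HxFB.el HxFB.hinv HxFB.hrel s4 t4 2 4 (fun ev H => HxT5.covers ev H) (by decide +kernel)
def s5 : List (List ℕ) := [[0], [1]]
def t5 : List (List ℕ) := []
theorem cov5 : Covers (gensub (byW HxFB.el t5) 0) (gensub (byW HxFB.el s5) 2) 8 :=
  cov_step HxFB.el HxFB.hinv HxFB.hrel s5 t5 0 4 (fun ev H => HxT6.covers ev H) (by decide +kernel)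
theorem finT5 : Finite (gensub (byW HxFB.el t5) 0) ∧ Nat.card (gensub (byW HxFB.el t5) 0) ≤ 1 := (gensub_zero _)
theorem fin5 : Finite (gensub (byW HxFB.el s5) 2) ∧ Nat.card (gensub (byW HxFB.el s5) 2) ≤ 8 :=
  fin_cast (cov5.card_le finT5) (by decide)
theorem finT4 : Finite (gensub (byW HxFB.el t4) 2) ∧ Nat.card (gensub (byW HxFB.el t4) 2) ≤ 8 := (fin_le (gensub_le_of_subsIn HxFB.el (by decide)) fin5)
theorem fin4 : Finite (gensub (byW HxFB.el s4) 3) ∧ Nat.card (gensub (byW HxFB.el s4) 3) ≤ 64 :=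
  fin_cast (cov4.card_le finT4) (by decide)
theorem finT3 : Finite (gensub (byW HxFB.el t3) 3) ∧ Nat.card (gensub (byW HxFB.el t3) 3) ≤ 64 := (fin_le (gensub_le_of_subsIn HxFB.el (by decide)) fin4)
theorem fin3 : Finite (gensub (byW HxFB.el s3) 4) ∧ Nat.card (gensub (byW HxFB.el s3) 4) ≤ 1024 :=
  fin_cast (cov3.card_le finT3) (by decide)
theorem finT2 : Finite (gensub (byW HxFB.el t2) 4) ∧ Nat.card (gensub (byW HxFB.el t2) 4) ≤ 1024 := (fin_le (gensub_le_of_subsIn HxFB.el (by decide)) fin3)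
theorem fin2 : Finite (gensub (byW HxFB.el s2) 5) ∧ Nat.card (gensub (byW HxFB.el s2) 5) ≤ 3072 :=
  fin_cast (cov2.card_le finT2) (by decide)
theorem finT1 : Finite (gensub (byW HxFB.el t1) 5) ∧ Nat.card (gensub (byW HxFB.el t1) 5) ≤ 3072 := (fin_le (gensub_le_of_subsIn HxFB.el (by decide)) fin2)
theorem fin1 : Finite (gensub (byW HxFB.el s1) 6) ∧ Nat.card (gensub (byW HxFB.el s1) 6) ≤ 21504 :=
  fin_cast (cov1.card_le finT1) (by decide)
theorem finT0 : Finite (gensub (byW HxFB.el t0) 6) ∧ Nat.card (gensub (byW HxFB.el t0) 6) ≤ 21504 := (fin_le (gensub_le_of_subsIn HxFB.el (by decide)) fin1)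
theorem fin0 : Finite (gensub (byW HxFB.el s0) 7) ∧ Nat.card (gensub (byW HxFB.el s0) 7) ≤ 322560 :=
  fin_cast (cov0.card_le finT0) (by decide)
theorem finG : Finite HxFB.G ∧ Nat.card HxFB.G ≤ 322560 := fin_top (top0 ▸ fin0)
end CfH6.HxFO
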