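import Cfsg.Agent.OD.Pre
import Cfsg.Agent.H3.HxLA
import Cfsg.Agent.H3.HxLK
import Cfsg.Agent.H3.HxLO
import Cfsg.Agent.H3.HxLO
/-! An abstract presentation: order and simplicity. -/
set_option autoImplicit false
set_option maxRecDepth 100000
namespace CfH6.HxLG
open CfH6 MulAction
attribute [local instance] HxLA.act

theorem stab : HxLA.H = stabilizer HxLB.G 0 ∧ HxLA.H.index = 31 := HxLA.stab HxLO.covT0

theorem card : Nat.card HxLB.G = 9999360 := (HxLA.top HxLO.finG).1

theorem base : ∀ g : HxLB.G, (∀ b ∈ HxLA.bs, g • b = b) → g = 1 := (HxLA.top HxLO.finG).2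

theorem simple : IsSimpleGroup HxLB.G := by
  have := HxLO.finG.1
  refine simple_of stab.1 (by rw [stab.2]; decide) (HxLA.hmax stab.1 stab.2) base HxLA.hbs fun M hM h => ?_
  exact top_of_index (eq_top_of_collapse HxLB.el (n := 4) HxLB.hinv HxLB.hrel HxLB.htop M
    (pow_words HxLB.el h (by norm_num) (not_dvd_card card stab.2 (by decide)) 1 HxLA.ex (HxLA.hex base))
    (by decide +kernel) 1 fun ev' h1 h2 => HxLK.covers ev' ⊥ h1 h2 forall_nil)

theorem nprime : ¬ (Nat.card HxLB.G).Prime := by rw [card]; norm_num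

end CfH6.HxLG
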