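import Cfsg.Agent.H3.He7
import Cfsg.Agent.H3.M24
import Cfsg.Agent.H3.HxFO
import Cfsg.Agent.H3.HxLG
import Cfsg.Agent.H3.HeI
import Cfsg.Agent.H7.Cores
/-! Identification of the four groups. -/
set_option autoImplicit false
set_option maxRecDepth 100000
open Subgroup CfH9 CfH6
namespace CfH3.He

variable {G : Type*} [Group G] [Finite G] {z : G} {φ : ℕ → G}

theorem Mod.id_simple (M : Mod z φ) {e f : G} {s t : Bool} (hst : s = true → t = true) (he : ES φ e s) (hf : FS φ f t)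
    {P : Type*} [Group P] [IsSimpleGroup P] {E : ℕ → P} (htop : gensub E 8 = ⊤) (h : ∃ ρ : P →* G, ∀ x < 8, ρ (E x) = el φ e f x) :
    Nonempty (P ≃* G) := by
  obtain ⟨ρ, hρ⟩ := h
  have hC : ∀ c, val c → φ c ∈ gensub (el φ e f) 8 := fun c hc => M.C_le_gen (by omega) (fun i hi => if_pos hi) (M.com hc)
  have D : Sim z φ (gensub (el φ e f) 8) s t := ⟨M, hC, fun k hk => M.cg_rep hC he hf (mem_gensub (el := el φ e f) (x := 6) (by omega))
    (mem_gensub (el := el φ e f) (x := 7) (by omega)) hk, hst⟩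
  exact ⟨MulEquiv.ofBijective ρ ⟨inj_of_simple ρ (g := E 0) fun h => absurd ((M.eq_one (a := ka) (by decide)).1
    ((hρ 0 (by omega)).symm.trans h)) (by decide), surj_of_gens hρ htop D.eq_top⟩⟩

theorem Mod.idL (M : Mod z φ) {e f : G} (he : ES φ e false) (hf : FS φ f false) : Nonempty (HxLB.G ≃* G) := by
  obtain ⟨e, he, hw⟩ := M.efef id he hf
  have := HxLG.simple
  exact M.id_simple id he hf HxLB.htop (M.hom_L he hf hw)

theorem Mod.idM (M : Mod z φ) {e f : G} (he : ES φ e false) (hf : FS φ f true) : Nonempty (G ≃* Cfsg.M24) := by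
  obtain ⟨e, he, hw⟩ := M.efef (fun _ => rfl) he hf
  have := HxMG.simple
  obtain ⟨a⟩ := M.id_simple (fun _ => rfl) he hf HxMB.htop (M.hom_M he hf hw)
  obtain ⟨b⟩ := M24.iso
  exact ⟨a.symm.trans b⟩

theorem Mod.idH (M : Mod z φ) {e f : G} (he : ES φ e true) (hf : FS φ f true) : Cfsg.Spor.IsoHe G := by
  obtain ⟨e, he, hw⟩ := M.efef id he hf
  obtain ⟨b⟩ := isoH
  have := HeG.simple
  have := b.isSimpleGroup
  obtain ⟨a⟩ := M.id_simple id he hf HxHB.htop (M.hom_H he hf hw)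
  exact ⟨a.symm.trans b⟩

theorem FD.card_ge {f : G} (D : FD z φ f) : 322560 ≤ Nat.card G := by
  classical
  have h1 : Nat.card D.A = 16 := (D.M.card_of _ _ fun _ => Iff.rfl).trans (by decide +kernel)
  haveI : Nonempty G := ⟨1⟩
  have : ∀ x ∈ D.A, x ≠ 1 → ∃ h, h * x * h⁻¹ = z := fun x hx h =>
    let ⟨k, _, e⟩ := (D.memA hx).2.2.2.resolve_left h; ⟨k, e⟩
  choose! k hk using this
  have h2 := Nat.card_le_card_of_injective (fun x : D.A => if (x : G) = 1 then none else some (((k x)⁻¹ : G) : G ⧸ Cx(z)))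
    fun x y h => Subtype.ext (by
      by_cases hx : (x : G) = 1 <;> by_cases hy : (y : G) = 1 <;> simp only [hx, hy, if_true, if_false, reduceCtorEq] at h ⊢
      have := mem_centralizer_singleton_iff.1 (QuotientGroup.eq.1 (Option.some.inj h))
      calc (x : G) = (k x)⁻¹ * (k x * x * (k x)⁻¹ * ((k x)⁻¹⁻¹ * (k y)⁻¹)) * k y := by group
        _ = (k x)⁻¹ * ((k x)⁻¹⁻¹ * (k y)⁻¹ * (k y * y * (k y)⁻¹)) * k y := by rw [hk x x.2 hx, hk y y.2 hy, this]
        _ = y := by group)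
  rw [h1, Finite.card_option, ← index_eq_card] at h2
  have := Cx(z).card_mul_index
  rw [D.M.card_C] at this
  omega

theorem FD.idF {f : G} (D : FD z φ f) : Nonempty (HxFB.G ≃* G) := by
  obtain ⟨ρ, hρ⟩ := D.M.hom_F D.hf
  exact ⟨MulEquiv.ofBijective ρ ⟨equiv_of_card hρ HxFB.htop HxFO.finG (by rw [D.eq_top, card_top]; exact D.card_ge),
    surj_of_gens hρ HxFB.htop D.eq_top⟩⟩

abbrev SL5 := Matrix.SpecialLinearGroup (Fin 5) (ZMod 2)

section
variable (K : Subgroup SL5) (hK : ∀ c (h : val c), (⟨toM c, (val_det h).1⟩ : SL5) ∈ K)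

noncomputable def phiK (c : ℕ) : K := if h : val c then ⟨_, hK c h⟩ else 1

theorem phiK_val {c : ℕ} (h : val c) : ((phiK K hK c : SL5) : M5) = toM c := by rw [phiK, dif_pos h]

theorem modK : Mod (phiK K hK cZ) (phiK K hK) where
  mul ha hb := Subtype.ext (Subtype.ext (by
    rw [Subgroup.coe_mul, Matrix.SpecialLinearGroup.coe_mul, phiK_val K hK ha, phiK_val K hK hb, phiK_val K hK (ha.bm hb), toM_bm]))
  inj ha hb h := toM_inj ha.lt hb.lt (by rw [← phiK_val K hK ha, h, phiK_val K hK hb])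
  sur {g} h := by
    have h1 : val (enc (g : SL5)) := val_of (enc_lt _) (by rw [toM_enc]; exact (g : SL5).2) (by
      rw [toM_enc, ← phiK_val K hK val_Z]
      exact congrArg (fun x : K => ((x : SL5) : M5)) h)
    exact ⟨_, h1, Subtype.ext (Subtype.ext (by rw [phiK_val K hK h1, toM_enc]))⟩
  hz := rfl

variable {K hK}
theorem cjK {g : K} {x : ℕ} (hg : ((g : SL5) : M5) = toM x) {L L' : List ℕ}
    (h : List.Forall₂ (fun u v => val u ∧ val v ∧ bm x u = bm v x) L L') : List.Forall₂ (Cj (phiK K hK) g) L L' :=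
  h.imp fun u v h => ⟨h.1, h.2.1, mul_inv_eq_iff_eq_mul.2 (Subtype.ext (Subtype.ext (by
    simp only [Subgroup.coe_mul, Matrix.SpecialLinearGroup.coe_mul, phiK_val K hK h.1, phiK_val K hK h.2.1, hg, ← toM_bm, h.2.2])))⟩

theorem invK {g : K} {x k : ℕ} (hg : ((g : SL5) : M5) = toM x) (hk : val k) (h1 : bm x x = cI) (h2 : pw (bm k x) 3 = cI) :
    g * g = 1 ∧ (phiK K hK k * g) ^ 3 = 1 :=
  ⟨Subtype.ext (Subtype.ext (by
    simp only [Subgroup.coe_mul, Matrix.SpecialLinearGroup.coe_mul, hg, ← toM_bm, h1, toM_I]; rfl)),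
   Subtype.ext (Subtype.ext (by
    simp only [Subgroup.coe_mul, Subgroup.coe_pow, Matrix.SpecialLinearGroup.coe_mul, Matrix.SpecialLinearGroup.coe_pow, hg,
      phiK_val K hK hk, ← toM_bm, ← toM_pw, h2, toM_I]; rfl))⟩

theorem fsK {g : K} (hg : ((g : SL5) : M5) = toM 25432129) : FS (phiK K hK) g false :=
  have := invK (hK := hK) hg (k := kd) (by decide) (by decide +kernel) (by decide +kernel)
  ⟨this.1, this.2, cjK hg (by decide +kernel)⟩
end

def sE : SL5 := ⟨toM 17043553, by decide +kernel⟩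
def sF : SL5 := ⟨toM 25432129, by decide +kernel⟩

theorem isoL : Nonempty (HxLB.G ≃* SL5) := by
  have h1 := invK (K := (⊤ : Subgroup SL5)) (hK := fun _ _ => @mem_top SL5 _ _) (g := ⟨sE, mem_top sE⟩) rfl (k := ka)
    (by decide) (by decide +kernel) (by decide +kernel)
  obtain ⟨a⟩ := (modK (⊤ : Subgroup SL5) fun _ _ => @mem_top SL5 _ _).idL ⟨h1.1, h1.2, cjK rfl (by decide +kernel)⟩
    (fsK (g := ⟨sF, mem_top sF⟩) rfl)
  exact ⟨a.trans topEquiv⟩

theorem mem_stab {g : SL5} : g ∈ MulAction.stabilizer SL5 (Pi.single 0 1 : Fin 5 → ZMod 2) ↔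
    ∀ i, (g : M5) i 0 = (Pi.single 0 1 : Fin 5 → ZMod 2) i := by
  rw [MulAction.mem_stabilizer_iff, funext_iff]
  refine forall_congr' fun i => ?_
  show ((g : M5).mulVec (Pi.single 0 1)) i = _ ↔ _
  simp

theorem isoF : Nonempty (HxFB.G ≃* MulAction.stabilizer SL5 (Pi.single 0 1 : Fin 5 → ZMod 2)) := by
  have hK : ∀ c (h : val c), (⟨toM c, (val_det h).1⟩ : SL5) ∈ MulAction.stabilizer SL5 (Pi.single 0 1 : Fin 5 → ZMod 2) :=
    fun c h => mem_stab.2 fun i => by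
      have := (inM_iff' h.lt).1 (allC_sound (show allC (inM 32472030) = true by decide +kernel) c h) i 0 (by revert i; decide)
      rw [Matrix.sub_apply, sub_eq_zero] at this
      show toM c i 0 = _
      rw [this]; clear this; revert i; decide
  refine FD.idF ⟨modK _ hK, fsK (g := ⟨sF, mem_stab.2 (by decide +kernel)⟩) rfl, fun h => ?_⟩
  obtain ⟨g, hg⟩ := isConj_iff.1 h
  have h1 := congrArg (fun x => ((Subtype.val x : SL5) : M5) 0 1) (mul_inv_eq_iff_eq_mul.1 hg)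
  have h2 := mem_stab.1 g.2 0
  simp only [Subgroup.coe_mul, Matrix.SpecialLinearGroup.coe_mul, phiK_val _ hK val_Z, phiK_val _ hK (show val a2 by decide),
    Matrix.mul_apply, Fin.sum_univ_five, h2] at h1
  have e1 : ∀ i, toM cZ i 1 = if i = 0 ∨ i = 1 then 1 else 0 := by decide +kernel
  have e2 : ∀ i, toM a2 0 i = if i = 0 then 1 else 0 := by decide +kernel
  simp [e1, e2] at h1

theorem Mod.main1 (M : Mod z φ) (h : IsConj z (φ a1)) :
    (∃ v : Fin 5 → ZMod 2, v ≠ 0 ∧ Nonempty (G ≃* MulAction.stabilizer SL5 v)) ∨ Nonempty (G ≃* SL5) ∨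
      Nonempty (G ≃* Cfsg.M24) ∨ Cfsg.Spor.IsoHe G := by
  have ex : ∀ {φ : ℕ → G}, Mod z φ → IsConj z (φ a2) → ∃ e s, ES φ e s := fun M h => by
    obtain ⟨e, h1, h2, h3 | h3⟩ := M.eside h
    exacts [⟨e, false, h1, h2, h3⟩, ⟨e, true, h1, h2, h3⟩]
  obtain ⟨f, t, hf⟩ := ex M.twist (show IsConj z (tw φ a2) from M.tw_inv (u := a2) (v := a1) (by decide +kernel) ▸ h)
  by_cases h2 : IsConj z (φ a2)
  · obtain ⟨e, s, he⟩ := ex M h2
    cases s <;> cases t
    · obtain ⟨a⟩ := M.idL he (M.fs_of hf)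
      obtain ⟨b⟩ := isoL
      exact Or.inr (Or.inl ⟨a.symm.trans b⟩)
    · exact Or.inr (Or.inr (Or.inl (M.idM he (M.fs_of hf))))
    · exact Or.inr (Or.inr (Or.inl (M.twist.idM hf (M.twist.fs_of (he.congr fun _ => tw_tw)))))
    · exact Or.inr (Or.inr (Or.inr (M.idH he (M.fs_of hf))))
  · cases t
    · obtain ⟨a⟩ := FD.idF ⟨M, M.fs_of hf, h2⟩
      obtain ⟨b⟩ := isoF
      exact Or.inl ⟨_, by decide, ⟨a.symm.trans b⟩⟩
    · have F : ∀ u j k, val u → (inM mF u && (inM mS u && inM mS (mf true u) && Nat.beq (cls u) j && Nat.beq (cls (mf true u)) k &&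
          Nat.blt j 8 && Nat.blt k 8)) = true → IsConj (φ (rep j)) (φ (rep k)) := fun u j k hu h => by
        rw [Bool.and_eq_true] at h
        exact (M.cg_link (H := ⊤) (fun _ _ => mem_top _) (mem_top f) (M.cj_mf (M.fs_of hf) hu h.1) h.2).isConj
      exact absurd (((h.trans (F 17043539 1 6 (by decide) (by decide +kernel))).trans (F 17044169 6 4 (by decide)
        (by decide +kernel))).trans (F 17068121 4 2 (by decide) (by decide +kernel))) h2

theorem Mod.main (M : Mod z φ) (h : IsConj z (φ a1) ∨ IsConj z (φ a2)) :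
    (∃ v : Fin 5 → ZMod 2, v ≠ 0 ∧ Nonempty (G ≃* MulAction.stabilizer SL5 v)) ∨ Nonempty (G ≃* SL5) ∨
      Nonempty (G ≃* Cfsg.M24) ∨ Cfsg.Spor.IsoHe G :=
  h.elim M.main1 fun h => M.twist.main1 (show IsConj z (tw φ a1) from M.tw_inv (u := a1) (v := a2) (by decide +kernel) ▸ h)

theorem Mod.fused (M : Mod z φ) {x : G} (hx : x ∈ Cx(z)) (h1 : (⟨x, hx⟩ : Cx(z)) ∈ Cfsg.pCore 2 Cx(z)) (h2 : IsConj z x)
    (h3 : x ≠ z) : IsConj z (φ a1) ∨ IsConj z (φ a2) := by
  obtain ⟨g, rfl⟩ := isConj_iff.1 h2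
  obtain ⟨k, hk, h, h4, h5⟩ := M.inv_cls (mem_centralizer_singleton_iff.1 hx) (by rw [conj_mul, M.zz]; simp) (by simpa using M.z_ne)
  have h6 : IsConj z (φ (rep k)) := h2.trans (isConj_iff.2 ⟨h, h5⟩)
  have key : k ∉ [4, 6, 7] := fun hk' => by
    have : ∀ k ∈ [4, 6, 7], ∃ v ∈ [16857345, 16857351, 16873729], (valB 17111105 && valB (rep k) && valB v &&
      Nat.beq (bm 17111105 (rep k)) (bm v 17111105)) = true ∧ pw (bm (rep k) v) 3 = cI ∧ bm (rep k) v ≠ cI := by decide +kernel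
    obtain ⟨v, -, f1, f2, f3⟩ := this k hk'
    have f4 := M.cj_dec f1
    have m1 := (inferInstance : (Cfsg.pCore 2 Cx(z)).Normal).conj_mem _ h1 ⟨h, mem_centralizer_singleton_iff.2 h4⟩
    have m2 := (inferInstance : (Cfsg.pCore 2 Cx(z)).Normal).conj_mem _ m1 ⟨φ 17111105, M.mem_C.2 ⟨_, by decide, rfl⟩⟩
    obtain ⟨n, hn⟩ := CfH7.isPGroup_pCore 2 Cx(z) ⟨_, mul_mem m1 m2⟩
    have e := congrArg (fun x => ((Subtype.val x : Cx(z)) : G)) hn
    simp only [SubgroupClass.coe_pow, Subgroup.coe_mul, Subgroup.coe_inv, h5, f4.2.2, OneMemClass.coe_one,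
      ← M.mul f4.1 f4.2.1] at e
    have e3 := M.pow (f4.1.bm f4.2.1) 3
    rw [f2, M.one] at e3
    exact f3 ((M.eq_one (f4.1.bm f4.2.1)).1 (orderOf_eq_one_iff.1 (Nat.eq_one_of_dvd_coprimes
      (show Nat.Coprime (2 ^ n) 3 from Nat.Coprime.pow_left _ (by norm_num)) (orderOf_dvd_of_pow_eq_one e)
      (orderOf_dvd_of_pow_eq_one e3.symm))))
  interval_cases k
  · refine absurd ?_ h3
    rw [show φ (rep 0) = z from M.hz, mul_inv_eq_iff_eq_mul, ← h4, mul_right_inj] at h5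
    exact h5
  · exact Or.inl h6
  · exact Or.inr h6
  · exact absurd h6 M.not_t
  · exact absurd (by decide) key
  · exact absurd h6 M.not_r0
  · exact absurd (by decide) key
  · exact absurd (by decide) key

theorem mod_of_iso (s : SL5) (hs : (s : M5) = Matrix.transvection 0 1 1) {z : G} (hz : orderOf z = 2)
    (e : Cx(z) ≃* Cx(s)) : ∃ φ, Mod z φ :=
  exists_mod (Cx(s)).subtype Subtype.val_injective (fun x => by
    rw [range_subtype, mem_centralizer_singleton_iff, toM_Z, ← hs]; exact Subtype.ext_iff) z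
    (by rintro rfl; simp at hz) e

end CfH3.He
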