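import Cfsg.Agent.OD.Pre
import Cfsg.Agent.H3.He2
import Cfsg.Agent.H4.Extra2
import Cfsg.Agent.OD.Helper3x4f69990d91
/-! Coordinates for an extraspecial group of order 128 with an automorphism of order seven. -/
set_option autoImplicit false
set_option maxRecDepth 100000
open Subgroup CfH4
namespace CfH3.Hf
open CfH3.He

section
variable {Q : Type*} [Group Q] {z : Q}

theorem csgn_pm (x y : Q) : csgn x y = 1 ∨ csgn x y = -1 := by unfold csgn; split_ifs <;> simp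

theorem csgn_aut (σ : MulAut Q) (x y : Q) : csgn (σ x) (σ y) = csgn x y := by
  classical
  unfold csgn
  exact if_congr (by rw [← map_mul, ← map_mul, σ.injective.eq_iff]) rfl rfl

theorem ssgn_aut (σ : MulAut Q) (x : Q) : ssgn (σ x) = ssgn x := by
  classical
  unfold ssgn
  exact if_congr (by rw [← map_mul, MulEquiv.map_eq_one_iff]) rfl rfl

theorem aut_z (h : ES2 z) (σ : MulAut Q) : σ z = z :=
  (h.center (σ z) fun y => by rw [← σ.apply_symm_apply y, ← map_mul, ← map_mul, h.cent]).resolve_left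
    fun e => h.ne (σ.map_eq_one_iff.1 e)

theorem eq_mod (h : ES2 z) {a b : Q} (e : ∀ c, csgn a c = csgn b c) : a = b ∨ a = z * b := by
  have := h.center (a * b⁻¹) fun y => csgn_eq_one_iff.1 (by
    have h1 := h.csgn_mul_left (a * b⁻¹) b y
    rw [inv_mul_cancel_right, e] at h1
    rcases csgn_pm b y with h2 | h2 <;> rw [h2] at h1 <;> linarith)
  rcases this with h1 | h1
  exacts [Or.inl (mul_inv_eq_one.1 h1), Or.inr (mul_inv_eq_iff_eq_mul.1 h1)]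

/-- killed by `X³+X+1` modulo the centre -/
def K1 (σ : MulAut Q) (w : Q) : Prop := ∀ c, csgn (σ (σ (σ w))) c = csgn w c * csgn (σ w) c

theorem K1.step {σ : MulAut Q} {w : Q} (h : K1 σ w) : K1 σ (σ w) := fun c => by
  rw [← σ.apply_symm_apply c, csgn_aut, csgn_aut, csgn_aut, h]

theorem K1.of (h : ES2 z) {σ : MulAut Q} (h7 : ∀ x, σ (σ (σ (σ (σ (σ (σ x)))))) = x) (v : Q) :
    K1 σ (v * σ v * σ (σ v) * σ (σ (σ (σ v)))) := fun c => by
  simp only [map_mul, h.csgn_mul_left, h7]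
  rcases csgn_pm (σ v) c with h1 | h1 <;> rcases csgn_pm (σ (σ v)) c with h2 | h2 <;> rw [h1, h2] <;> ring

theorem K1.tri (h : ES2 z) {σ : MulAut Q} (h7 : ∀ x, σ (σ (σ (σ (σ (σ (σ x)))))) = x) {w : Q} (k : K1 σ w) :
    ∃ v, (∀ c, csgn v c = csgn w c) ∧ v * v = 1 ∧ v * σ v = σ v * v ∧ v * σ (σ v) = σ (σ v) * v ∧
      σ (σ (σ v)) = v * σ v := by
  have d0 : csgn w w = 1 := csgn_of_comm rfl
  have d3 := k w
  have d4 := k.step w
  have d5 := k.step.step w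
  have d6 := k.step.step.step w
  have s1 : csgn (σ (σ (σ (σ (σ (σ w)))))) w = csgn (σ w) w := by rw [← csgn_aut σ, h7, csgn_comm]
  have s2 : csgn (σ (σ (σ (σ (σ w))))) w = csgn (σ (σ w)) w := by rw [← csgn_aut σ, ← csgn_aut σ, h7, csgn_comm]
  have e : csgn (σ w) w = 1 ∧ csgn (σ (σ w)) w = 1 := by
    rw [s1, d4, d3, d0] at d6
    rw [s2, d3, d0] at d5
    rcases csgn_pm (σ w) w with h1 | h1 <;> rcases csgn_pm (σ (σ w)) w with h2 | h2 <;> rw [h1, h2] at d5 d6 <;> omega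
  have c1 := (csgn_eq_one_iff.1 e.1).symm
  have c2 := (csgn_eq_one_iff.1 e.2).symm
  have hz : ∀ x, ssgn (z * x) = ssgn x := fun x => by
    simp only [ssgn]; rw [mul_assoc, h.left_comm x, h.z_mul_z_mul]
  have hz' : ∀ x c, csgn (z * x) c = csgn x c := fun x c => by rw [h.csgn_mul_left, csgn_of_comm (h.cent c), one_mul]
  have m := eq_mod h (a := σ (σ (σ w))) (b := w * σ w) fun c => by rw [h.csgn_mul_left, k]
  have q : w * w = 1 := by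
    have h1 : ssgn (σ (σ (σ w))) = ssgn (w * σ w) := by rcases m with m | m <;> rw [m]; exact hz _
    rw [ssgn_aut, ssgn_aut, ssgn_aut, h.ssgn_mul, ssgn_aut, csgn_of_comm c1] at h1
    by_contra h2
    rw [ssgn, if_neg h2] at h1
    omega
  rcases m with m | m
  · exact ⟨w, fun _ => rfl, q, c1, c2, m⟩
  · refine ⟨z * w, hz' w, ?_, ?_, ?_, ?_⟩ <;> simp only [map_mul, aut_z h, mul_assoc, h.left_comm _ (σ _), h.left_comm _ w,
      h.z_mul_z_mul, q, c1, c2, m, mul_one, h.sq]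

theorem basis (h : ES2 z) (σ : MulAut Q) (h7 : σ ^ 7 = 1) (hne : σ ≠ 1) : ∃ w u : Q,
    (w * w = 1 ∧ w * σ w = σ w * w ∧ w * σ (σ w) = σ (σ w) * w ∧ σ (σ (σ w)) = w * σ w) ∧
    (u * u = 1 ∧ u * σ⁻¹ u = σ⁻¹ u * u ∧ u * σ⁻¹ (σ⁻¹ u) = σ⁻¹ (σ⁻¹ u) * u ∧ σ⁻¹ (σ⁻¹ (σ⁻¹ u)) = u * σ⁻¹ u) ∧
    csgn w u = -1 ∧ csgn (σ w) u = 1 ∧ csgn (σ (σ w)) u = 1 := by
  have a7 : ∀ x, σ (σ (σ (σ (σ (σ (σ x)))))) = x := fun x => by
    have := congrArg (fun f : MulAut Q => f x) h7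
    simpa [pow_succ] using this
  have i1 : ∀ x, σ⁻¹ x = σ (σ (σ (σ (σ (σ x))))) := fun x => σ.injective (by rw [a7]; exact σ.apply_symm_apply x)
  have b7 : ∀ x, σ⁻¹ (σ⁻¹ (σ⁻¹ (σ⁻¹ (σ⁻¹ (σ⁻¹ (σ⁻¹ x)))))) = x := fun x => by
    nth_rewrite 1 [← a7 x]; simp
  have mv : ∀ x y, csgn x (σ⁻¹ y) = csgn (σ x) y := fun x y => by rw [← csgn_aut σ]; simp
  have ex : ∃ v c, csgn (v * σ v * σ (σ v) * σ (σ (σ (σ v)))) c = -1 := by
    by_contra! hn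
    have r : ∀ v c, csgn v c * csgn (σ v) c * csgn (σ (σ v)) c * csgn (σ (σ (σ (σ v)))) c = 1 := fun v c => by
      have := (csgn_pm _ c).resolve_right (hn v c)
      simpa only [h.csgn_mul_left] using this
    have r' : ∀ v c, csgn v c * csgn (σ⁻¹ v) c * csgn (σ⁻¹ (σ⁻¹ v)) c * csgn (σ⁻¹ (σ⁻¹ (σ⁻¹ (σ⁻¹ v)))) c = 1 := fun v c => by
      have := r c v
      simp only [← mv] at this
      simpa only [csgn_comm c] using this
    have k : ∀ v, σ v = v ∨ σ v = z * v := fun v => eq_mod h fun c => by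
      have h1 := r v c
      have h2 := r (σ v) c
      have h3 := r (σ (σ v)) c
      have h4 := r' (σ (σ (σ (σ v)))) c
      have h5 := r' (σ (σ (σ (σ (σ v))))) c
      simp only [MulAut.inv_apply_self, MulAut.inv_apply, MulEquiv.symm_apply_apply] at h4 h5
      revert h1 h2 h3 h4 h5
      rcases csgn_pm v c with e0 | e0 <;> rcases csgn_pm (σ v) c with e1 | e1 <;> rcases csgn_pm (σ (σ v)) c with e2 | e2 <;>
        rcases csgn_pm (σ (σ (σ v))) c with e3 | e3 <;> rcases csgn_pm (σ (σ (σ (σ v)))) c with e4 | e4 <;>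
        rcases csgn_pm (σ (σ (σ (σ (σ v))))) c with e5 | e5 <;> simp [e0, e1, e2, e3, e4, e5]
    refine hne (MulEquiv.ext fun v => (k v).resolve_right fun e => ?_)
    have := a7 v
    simp only [e, map_mul, aut_z h, h.z_mul_z_mul] at this
    exact h.z_mul_ne v this
  obtain ⟨v, c, e⟩ := ex
  have kw := K1.of h a7 v
  generalize v * σ v * σ (σ v) * σ (σ (σ (σ v))) = w at e kw
  obtain ⟨u, hu, pu⟩ := (K1.of h b7 c).tri h b7
  have e0 : csgn w u = -1 := by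
    rw [csgn_comm, hu]
    simp only [h.csgn_mul_left, csgn_comm _ w, mv]
    rw [kw.step, e]
    rcases csgn_pm (σ w) c with h1 | h1 <;> rcases csgn_pm (σ (σ w)) c with h2 | h2 <;> rw [h1, h2] <;> rfl
  have fin : ∀ w, K1 σ w → csgn w u = -1 → csgn (σ w) u = 1 → csgn (σ (σ w)) u = 1 → ∃ w u : Q,
      (w * w = 1 ∧ w * σ w = σ w * w ∧ w * σ (σ w) = σ (σ w) * w ∧ σ (σ (σ w)) = w * σ w) ∧
      (u * u = 1 ∧ u * σ⁻¹ u = σ⁻¹ u * u ∧ u * σ⁻¹ (σ⁻¹ u) = σ⁻¹ (σ⁻¹ u) * u ∧ σ⁻¹ (σ⁻¹ (σ⁻¹ u)) = u * σ⁻¹ u) ∧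
      csgn w u = -1 ∧ csgn (σ w) u = 1 ∧ csgn (σ (σ w)) u = 1 := fun w k h0 h1 h2 => by
    obtain ⟨w', hw, pw⟩ := k.tri h a7
    exact ⟨w', u, pw, pu, by rw [hw, h0], by rw [← mv, hw, mv, h1], by rw [← mv, ← mv, hw, mv, mv, h2]⟩
  have g3 := kw u
  have g4 := kw.step u
  have g5 := kw.step.step u
  have g6 := kw.step.step.step u
  rcases csgn_pm (σ w) u with h1 | h1 <;> rcases csgn_pm (σ (σ w)) u with h2 | h2
  · exact fin w kw e0 h1 h2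
  · refine fin _ kw.step.step.step.step ?_ ?_ ?_ <;> simp only [g3, g4, g5, g6, e0, h1, h2] <;> rfl
  · refine fin _ kw.step ?_ ?_ ?_ <;> simp only [g3, e0, h1, h2]; rfl
  · refine fin _ kw.step.step ?_ ?_ ?_ <;> simp only [g3, g4, e0, h1, h2] <;> rfl

def p3 (a b c : Q) (i : ℕ) : Q := a ^ (i % 2) * b ^ (i / 2 % 2) * c ^ (i / 4 % 2)

theorem pow_md {a : Q} (h : a * a = 1) {m n : ℕ} (e : m % 2 = n % 2) : a ^ m = a ^ n := by
  rw [pow_eq_pow_mod m (by rwa [pow_two]), e, ← pow_eq_pow_mod n (by rwa [pow_two])]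

theorem p3_mul {a b c : Q} (ha : a * a = 1) (hb : b * b = 1) (hc : c * c = 1) (ab : Commute a b) (ac : Commute a c)
    (bc : Commute b c) (i j : ℕ) : p3 a b c (Nat.xor (Nat.land i 7) (Nat.land j 7)) = p3 a b c (Nat.land i 7) * p3 a b c (Nat.land j 7) := by
  have e : ∀ i < 8, ∀ j < 8, Nat.xor i j % 2 % 2 = (i % 2 + j % 2) % 2 ∧ Nat.xor i j / 2 % 2 % 2 = (i / 2 % 2 + j / 2 % 2) % 2 ∧
      Nat.xor i j / 4 % 2 % 2 = (i / 4 % 2 + j / 4 % 2) % 2 := by decide +kernel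
  replace e := e (Nat.land i 7) (Nat.lt_succ_of_le Nat.and_le_right) (Nat.land j 7) (Nat.lt_succ_of_le Nat.and_le_right)
  unfold p3
  rw [pow_md ha e.1, pow_md hb e.2.1, pow_md hc e.2.2, pow_add, pow_add, pow_add,
    (((ac.pow_pow _ _).mul_left (bc.pow_pow _ _)).symm).mul_mul_mul_comm, (ab.pow_pow _ _).symm.mul_mul_mul_comm]

def Cm (z u w : Q) (s : ℕ) : Prop := u * w = w * u * z ^ s

theorem Cm.mul_left (h : ES2 z) {u u' w : Q} {s s' : ℕ} (h1 : Cm z u w s) (h2 : Cm z u' w s') : Cm z (u * u') w (s + s') := by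
  have c : ∀ x, Commute (z ^ s) x := fun x => Commute.pow_left (h.cent x) s
  unfold Cm at *
  rw [mul_assoc, h2, ← mul_assoc, ← mul_assoc, h1, mul_assoc _ (z ^ s), c u', pow_add]; group

theorem Cm.mul_right (h : ES2 z) {u w w' : Q} {s s' : ℕ} (h1 : Cm z u w s) (h2 : Cm z u w' s') : Cm z u (w * w') (s + s') := by
  have c : ∀ x, Commute (z ^ s) x := fun x => Commute.pow_left (h.cent x) s
  unfold Cm at *
  rw [← mul_assoc, h1, mul_assoc _ (z ^ s), c w', mul_assoc w, ← mul_assoc u, h2, add_comm, pow_add]; group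

theorem Cm.pow (h : ES2 z) {u w : Q} {s : ℕ} (h1 : Cm z u w s) (m n : ℕ) : Cm z (u ^ m) (w ^ n) (m * n * s) := by
  have : ∀ n, Cm z u (w ^ n) (n * s) := fun n => by
    induction n with
    | zero => simp [Cm]
    | succ n ih => rw [pow_succ, add_mul, one_mul]; exact ih.mul_right h h1
  induction m with
  | zero => simp [Cm]
  | succ m ih => rw [pow_succ, add_mul, add_mul, one_mul]; exact ih.mul_left h (this n)

theorem cm0 {u w : Q} (e : csgn w u = 1) : Cm z u w 0 := by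
  rw [Cm, pow_zero, mul_one, csgn_eq_one_iff.1 e]

theorem cm1 (h : ES2 z) {u w : Q} (e : csgn w u = -1) : Cm z u w 1 := by
  rw [Cm, pow_one, ← h.cent]
  exact h.anti fun e' => by rw [csgn_of_comm e'.symm] at e; omega

theorem Cm.p3 (h : ES2 z) {u0 u1 u2 w0 w1 w2 : Q} (h00 : csgn w0 u0 = -1) (h10 : csgn w1 u0 = 1) (h20 : csgn w2 u0 = 1)
    (h01 : csgn w0 u1 = 1) (h11 : csgn w1 u1 = 1) (h21 : csgn w2 u1 = -1) (h02 : csgn w0 u2 = 1) (h12 : csgn w1 u2 = -1)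
    (h22 : csgn w2 u2 = 1) (i j : ℕ) :
    Cm z (p3 u0 u1 u2 i) (p3 w0 w1 w2 j) (i % 2 * (j % 2) + i / 2 % 2 * (j / 4 % 2) + i / 4 % 2 * (j / 2 % 2)) := by
  have := (((((cm1 h h00).pow h (i % 2) (j % 2)).mul_right h ((cm0 h10).pow h _ (j / 2 % 2))).mul_right h
    ((cm0 h20).pow h _ (j / 4 % 2))).mul_left h
    ((((cm0 h01).pow h (i / 2 % 2) _).mul_right h ((cm0 h11).pow h _ _)).mul_right h ((cm1 h h21).pow h _ _))).mul_left h
    ((((cm0 h02).pow h (i / 4 % 2) _).mul_right h ((cm1 h h12).pow h _ _)).mul_right h ((cm0 h22).pow h _ _))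
  simpa only [mul_zero, mul_one, add_zero, zero_add, Hf.p3] using this

theorem Cm.prod (h : ES2 z) {A B : Q} {s : ℕ} (k : Cm z A B s) (W U : Q) (m n : ℕ) :
    W * A * z ^ m * (B * U * z ^ n) = W * B * (A * U) * z ^ (s + (m + n)) := by
  have c : ∀ s x, z ^ s * x = x * z ^ s := fun s x => Commute.pow_left (h.cent x) s
  calc _ = W * A * (z ^ m * (B * U)) * z ^ n := by group
    _ = W * (A * B) * U * z ^ (m + n) := by rw [c]; group
    _ = W * B * A * (z ^ s * U) * z ^ (m + n) := by rw [k]; group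
    _ = _ := by rw [c]; group
end

def bq (a b : ℕ) : ℕ := Nat.land (Nat.shiftRight 0x963c66cc5af0aa00 (Nat.lor (Nat.land a 56) (Nat.land b 7))) 1
/-- multiplication of codes -/
def mq (a b : ℕ) : ℕ := Nat.xor (Nat.xor a b) (Nat.mul 64 (bq a b))
def lk (t c : ℕ) : ℕ := Nat.land (Nat.shiftRight t (Nat.mul 7 c)) 127
def sel (c k v : ℕ) : ℕ := cond (Nat.testBit c k) v 0
def ext (a0 a1 a2 a3 a4 a5 c : ℕ) : ℕ :=
  mq (mq (mq (mq (mq (mq (sel c 0 a0) (sel c 1 a1)) (sel c 2 a2)) (sel c 3 a3)) (sel c 4 a4)) (sel c 5 a5)) (sel c 6 64)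

theorem al2 {p : ℕ → ℕ → Bool} {m n : ℕ} (h : al (fun a => al (p a) n) m = true) {a b : ℕ} (ha : a < m) (hb : b < n) :
    p a b = true := al_iff.1 (al_iff.1 h a ha) b hb

theorem mq_aux : al (fun a => al (fun b => frc (mq a b) fun c => Nat.blt c 128 &&
    Nat.beq (Nat.land c 7) (Nat.xor (Nat.land a 7) (Nat.land b 7)) &&
    Nat.beq (Nat.land (Nat.shiftRight c 3) 7) (Nat.xor (Nat.land (Nat.shiftRight a 3) 7) (Nat.land (Nat.shiftRight b 3) 7)) &&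
    Nat.beq (Nat.mod (Nat.shiftRight c 6) 2) (Nat.mod (Nat.add (bq a b) (Nat.add (Nat.shiftRight a 6) (Nat.shiftRight b 6))) 2) &&
    Nat.beq (bq a b) (bq (Nat.mul 8 (Nat.land (Nat.shiftRight a 3) 7)) (Nat.land b 7)) &&
    Nat.beq (mq a (mq (mq a (mq a a)) b)) b) 128) 128 = true := by decide +kernel
theorem mq_lt {a b : ℕ} (ha : a < 128) (hb : b < 128) : mq a b < 128 := by
  have := al2 mq_aux ha hb
  simp only [frc_eq, Bool.and_eq_true, Nat.blt_eq] at this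
  exact this.1.1.1.1.1
theorem ext_id : ∀ c < 128, ext 1 2 4 8 16 32 c = c := by decide +kernel

variable {G : Type*} [Group G] {z : G} {ψ : ℕ → G}

structure Q0 (z : G) (ψ : ℕ → G) : Prop where
  mul : ∀ {a b}, a < 128 → b < 128 → ψ (mq a b) = ψ a * ψ b
  hz : ψ 64 = z
  ne : z ≠ 1

/-- `g` conjugates code `a` to code `b` -/
def Cq (ψ : ℕ → G) (g : G) (a b : ℕ) : Prop := a < 128 ∧ b < 128 ∧ g * ψ a * g⁻¹ = ψ b
def Act (ψ : ℕ → G) (g : G) (f : ℕ → ℕ) : Prop := ∀ c < 128, Cq ψ g c (f c)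

namespace Q0
variable (D : Q0 z ψ)
include D

theorem one : ψ 0 = 1 := by
  have := D.mul (a := 0) (b := 0) (by omega) (by omega)
  exact mul_left_cancel (a := ψ 0) (by rw [← this, mul_one]; rfl)

theorem ker {c : ℕ} (hc : c < 128) (h : ψ c = 1) : c = 0 := by
  have : ∀ c < 128, c = 0 ∨ c = 64 ∨ ∃ e < 33, mq c e = mq (mq e c) 64 := by decide +kernel
  rcases this c hc with h1 | rfl | ⟨e, he, h1⟩
  · exact h1
  · exact absurd (D.hz.symm.trans h) D.ne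
  · have h2 := congrArg ψ h1
    replace he : e < 128 := by omega
    rw [D.mul (mq_lt he hc) (by omega), D.mul hc he, D.mul he hc, h, D.hz] at h2
    exact absurd (by simpa using h2) D.ne

theorem inj {a b : ℕ} (ha : a < 128) (hb : b < 128) (h : ψ a = ψ b) : a = b := by
  have h0 : ∀ a < 128, mq a 0 = a := by decide +kernel
  have := al2 mq_aux ha hb
  simp only [frc_eq, Bool.and_eq_true, Nat.beq_eq] at this
  have h1 := mq_lt (mq_lt ha (mq_lt ha ha)) hb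
  have h2 := D.mul ha h1
  rw [this.2, h, left_eq_mul] at h2
  rw [← this.2, D.ker h1 h2, h0 a ha]

theorem zz : z * z = 1 := by rw [← D.hz, ← D.mul (by omega) (by omega), ← D.one]; rfl

theorem com {a : ℕ} (ha : a < 128) : ψ a * z = z * ψ a := by
  have : ∀ a < 128, mq a 64 = mq 64 a := by decide +kernel
  rw [← D.hz, ← D.mul ha (by omega), ← D.mul (by omega) ha, this a ha]

theorem cq_mul {g : G} {a b c d : ℕ} (h1 : Cq ψ g a b) (h2 : Cq ψ g c d) : Cq ψ g (mq a c) (mq b d) :=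
  ⟨mq_lt h1.1 h2.1, mq_lt h1.2.1 h2.2.1, by
    rw [D.mul h1.1 h2.1, D.mul h1.2.1 h2.2.1, ← h1.2.2, ← h2.2.2]; group⟩

theorem cq_sel {g : G} {a b : ℕ} (h1 : Cq ψ g a b) (c k : ℕ) : Cq ψ g (sel c k a) (sel c k b) := by
  unfold sel
  cases c.testBit k
  · exact ⟨Nat.zero_lt_succ _, Nat.zero_lt_succ _, by rw [cond_false, cond_false, D.one]; group⟩
  · exact h1

theorem act_ext {g : G} (hg : g * z = z * g) {a0 a1 a2 a3 a4 a5 : ℕ} (h0 : Cq ψ g 1 a0) (h1 : Cq ψ g 2 a1) (h2 : Cq ψ g 4 a2)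
    (h3 : Cq ψ g 8 a3) (h4 : Cq ψ g 16 a4) (h5 : Cq ψ g 32 a5) : Act ψ g (ext a0 a1 a2 a3 a4 a5) := fun c hc => by
  have h6 : Cq ψ g 64 64 := ⟨by omega, by omega, by rw [D.hz, hg]; group⟩
  have := D.cq_mul (D.cq_mul (D.cq_mul (D.cq_mul (D.cq_mul (D.cq_mul (D.cq_sel h0 c 0) (D.cq_sel h1 c 1)) (D.cq_sel h2 c 2))
    (D.cq_sel h3 c 3)) (D.cq_sel h4 c 4)) (D.cq_sel h5 c 5)) (D.cq_sel h6 c 6)
  nth_rewrite 1 [← ext_id c hc]
  exact this

end Q0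

theorem coord [Finite G] (h : ES2 z) (hc : Nat.card G = 128) (σ : MulAut G) (h7 : σ ^ 7 = 1) (hne : σ ≠ 1) :
    ∃ ψ : ℕ → G, Q0 z ψ ∧ (∀ g, ∃ c < 128, ψ c = g) ∧ σ (ψ 1) = ψ 2 ∧ σ (ψ 2) = ψ 4 ∧ σ (ψ 4) = ψ 3 ∧ σ (ψ 8) = ψ 40 ∧
      σ (ψ 16) = ψ 8 ∧ σ (ψ 32) = ψ 16 := by
  obtain ⟨w, u, ⟨w1, w2, w3, w4⟩, ⟨u1, u2, u3, u4⟩, g0, g1, g2⟩ := basis h σ h7 hne
  have mv : ∀ x y, csgn x (σ⁻¹ y) = csgn (σ x) y := fun x y => by rw [← csgn_aut σ]; simp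
  have g3 : csgn (σ (σ (σ w))) u = -1 := by rw [w4, h.csgn_mul_left, g0, g1]; rfl
  have g4 : csgn (σ (σ (σ (σ w)))) u = 1 := by rw [w4, map_mul, h.csgn_mul_left, g1, g2]; rfl
  have sq : ∀ (τ : MulAut G) {x : G}, x * x = 1 → τ x * τ x = 1 := fun τ x e => by rw [← map_mul, e, map_one]
  have cm : ∀ (τ : MulAut G) {x : G}, x * τ x = τ x * x → Commute (τ x) (τ (τ x)) := fun τ x e => by
    rw [Commute, SemiconjBy, ← map_mul, e, map_mul]
  let ψ := fun c => p3 w (σ w) (σ (σ w)) (Nat.land c 7) * p3 u (σ⁻¹ u) (σ⁻¹ (σ⁻¹ u)) (Nat.land (Nat.shiftRight c 3) 7) *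
    z ^ Nat.shiftRight c 6
  have D : Q0 z ψ := ⟨fun {a b} ha hb => by
    have := al2 mq_aux ha hb
    simp only [frc_eq, Bool.and_eq_true, Nat.beq_eq] at this
    obtain ⟨⟨⟨⟨⟨-, e1⟩, e2⟩, e3⟩, e4⟩, -⟩ := this
    have e5 : ∀ i < 8, ∀ j < 8, bq (Nat.mul 8 i) j % 2 =
      (i % 2 * (j % 2) + i / 2 % 2 * (j / 4 % 2) + i / 4 % 2 * (j / 2 % 2)) % 2 := by decide +kernel
    replace e5 := e5 (Nat.land (Nat.shiftRight a 3) 7) (Nat.lt_succ_of_le Nat.and_le_right) (Nat.land b 7)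
      (Nat.lt_succ_of_le Nat.and_le_right)
    simp only [ψ]
    rw [(Cm.p3 h g0 g1 g2 (by rw [mv, g1]) (by rw [mv, g2]) (by rw [mv, g3]) (by rw [mv, mv, g2]) (by rw [mv, mv, g3])
      (by rw [mv, mv, g4]) _ _).prod h, e1, e2, p3_mul w1 (sq σ w1) (sq σ (sq σ w1)) w2 w3 (cm σ w2),
      p3_mul u1 (sq _ u1) (sq _ (sq _ u1)) u2 u3 (cm _ u2)]
    congr 1
    refine pow_md h.sq (e3.trans ?_)
    rw [e4]
    exact (Nat.add_mod _ _ _).trans (by rw [e5, ← Nat.add_mod]; rfl), by simp [ψ, p3, show Nat.land 64 7 = 0 from rfl,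
      show Nat.shiftRight 64 3 = 8 from rfl, show Nat.shiftRight 64 6 = 1 from rfl, show Nat.land 8 7 = 0 from rfl], h.ne⟩
  refine ⟨ψ, D, fun g => ?_, ?_⟩
  · have : Function.Bijective fun c : Fin 128 => ψ c := (Nat.bijective_iff_injective_and_card _).2
      ⟨fun a b e => Fin.ext (D.inj a.2 b.2 e), by rw [hc, Nat.card_fin]⟩
    obtain ⟨c, e⟩ := this.2 g
    exact ⟨c, c.2, e⟩
  · have h2 := congrArg σ u4
    simp only [map_mul, MulAut.apply_inv_self] at h2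
    have k : ∀ c, ψ c = w ^ (Nat.land c 7 % 2) * σ w ^ (Nat.land c 7 / 2 % 2) * σ (σ w) ^ (Nat.land c 7 / 4 % 2) *
      (u ^ (Nat.land (Nat.shiftRight c 3) 7 % 2) * σ⁻¹ u ^ (Nat.land (Nat.shiftRight c 3) 7 / 2 % 2) *
      σ⁻¹ (σ⁻¹ u) ^ (Nat.land (Nat.shiftRight c 3) 7 / 4 % 2)) * z ^ Nat.shiftRight c 6 := fun _ => rfl
    have k1 : ψ 1 = w := (k 1).trans (show w ^ 1 * _ ^ 0 * _ ^ 0 * (_ ^ 0 * _ ^ 0 * _ ^ 0) * _ ^ 0 = _ by simp)
    have k2 : ψ 2 = σ w := (k 2).trans (show w ^ 0 * _ ^ 1 * _ ^ 0 * (_ ^ 0 * _ ^ 0 * _ ^ 0) * _ ^ 0 = _ by simp)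
    have k3 : ψ 3 = w * σ w := (k 3).trans (show w ^ 1 * _ ^ 1 * _ ^ 0 * (_ ^ 0 * _ ^ 0 * _ ^ 0) * _ ^ 0 = _ by simp)
    have k4 : ψ 4 = σ (σ w) := (k 4).trans (show w ^ 0 * _ ^ 0 * _ ^ 1 * (_ ^ 0 * _ ^ 0 * _ ^ 0) * _ ^ 0 = _ by simp)
    have k8 : ψ 8 = u := (k 8).trans (show w ^ 0 * _ ^ 0 * _ ^ 0 * (_ ^ 1 * _ ^ 0 * _ ^ 0) * _ ^ 0 = _ by simp)
    have k16 : ψ 16 = σ⁻¹ u := (k 16).trans (show w ^ 0 * _ ^ 0 * _ ^ 0 * (_ ^ 0 * _ ^ 1 * _ ^ 0) * _ ^ 0 = _ by simp)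
    have k32 : ψ 32 = σ⁻¹ (σ⁻¹ u) := (k 32).trans (show w ^ 0 * _ ^ 0 * _ ^ 0 * (_ ^ 0 * _ ^ 0 * _ ^ 1) * _ ^ 0 = _ by simp)
    have k40 : ψ 40 = u * σ⁻¹ (σ⁻¹ u) := (k 40).trans (show w ^ 0 * _ ^ 0 * _ ^ 0 * (_ ^ 1 * _ ^ 0 * _ ^ 1) * _ ^ 0 = _ by simp)
    rw [k1, k2, k3, k4, k8, k16, k32, k40]
    refine ⟨rfl, rfl, w4, ?_, by simp, by simp⟩
    rw [u3, h2, mul_assoc, u1, mul_one]

end CfH3.Hf
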