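import Cfsg.Agent.H3.Hf3
import Cfsg.Agent.H4.ZStar
import Cfsg.Agent.OD.Helper3x539a045db0
/-! Fusion arguments in the Sylow models. -/
set_option autoImplicit false
set_option maxRecDepth 100000
open Subgroup CfH9 CfH6
namespace CfH3.Hf
open CfH3.He

variable {G : Type*} [Group G] {z x t : G} {ψ φ : ℕ → G}

section
variable [Finite G] {S : Subgroup G}

theorem not_isolated [IsSimpleGroup G] (hz : orderOf z = 2) (h : Nat.card G ≠ 2) :
    ∃ w, IsConj z w ∧ w * z = z * w ∧ w ≠ z := by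
  by_contra hn
  have hi : Cfsg.IsIsolated z := fun g hg => by
    by_contra hne
    exact hn ⟨_, isConj_iff.2 ⟨g, rfl⟩, hg.symm, hne⟩
  have hZ := CfH4.zstar G z hz hi
  rcases (inferInstance : (Cfsg.pPrimeCore 2 G).Normal).eq_bot_or_eq_top with e | e
  · have c : ∀ g : G, g * z * g⁻¹ = z := fun g => mul_inv_eq_one.1 (by have := hZ g; rwa [e] at this)
    have hn : (zpowers z).Normal := normal_of_cj fun g => by rw [cj_zpowers, c]
    rcases hn.eq_bot_or_eq_top with e' | e'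
    · rw [zpowers_eq_bot.1 e', orderOf_one] at hz; omega
    · exact h (by rw [← hz, ← Nat.card_zpowers, e', card_top])
  · have := CfH7.coprime_card_pPrimeCore 2 G
    rw [e, card_top] at this
    exact absurd (Nat.Coprime.coprime_dvd_left (hz ▸ orderOf_dvd_natCard z) this) (by norm_num)

/-- an extremal conjugate -/
theorem extremal {H : Subgroup G} (hS : SylIn 2 S H) {u : G} (hu : u ∈ S) :
    ∃ h ∈ H, h * u * h⁻¹ ∈ S ∧ SylIn 2 (S ⊓ Cx(h * u * h⁻¹)) (H ⊓ Cx(h * u * h⁻¹)) := by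
  haveI : Fact (Nat.Prime 2) := ⟨Nat.prime_two⟩
  obtain ⟨P, hP, h1⟩ := exists_sylIn_ge (Q := S ⊓ Cx(u)) (H := H ⊓ Cx(u)) (hS.pgrp.to_le inf_le_left)
    (inf_le_inf_right _ hS.le)
  obtain ⟨h, hh, h2⟩ := hS.exists_cj_le hP.pgrp (hP.le.trans inf_le_left)
  have h3 := hP.cj h
  rw [cj_inf, cj_Cx, cj_eq_of_mem hh] at h3
  refine ⟨h, hh, h2 (conj_mem_cj h (h1 ⟨hu, mem_Cx.2 rfl⟩)), ?_⟩
  rwa [h3.eq_of_le (T := S ⊓ Cx(h * u * h⁻¹)) (hS.pgrp.to_le inf_le_left) (inf_le_inf_right _ hS.le)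
    (le_inf h2 (h3.le.trans inf_le_right))]

theorem pair (hS : SylIn 2 S Cx(z)) {u : G} (hu : u ∈ S) (hc : IsConj u z) :
    ∃ h ∈ Cx(z), ∃ g, h * u * h⁻¹ ∈ S ∧ g * (h * u * h⁻¹) * g⁻¹ = z ∧ cj g (S ⊓ Cx(h * u * h⁻¹)) = S ⊓ Cx(g * z * g⁻¹) := by
  haveI : Fact (Nat.Prime 2) := ⟨Nat.prime_two⟩
  obtain ⟨h, hh, h1, h2⟩ := extremal hS hu
  obtain ⟨g, hg⟩ := isConj_iff.1 ((isConj_iff.2 ⟨h, rfl⟩ : IsConj u _).symm.trans hc)
  obtain ⟨m, hm, h3⟩ := hS.exists_cj_le (isPGroup_cj h2.pgrp g) (hg ▸ cj_Cx g _ ▸ cj_mono g inf_le_right)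
  have e : m * g * (h * u * h⁻¹) * (m * g)⁻¹ = z := by
    rw [show m * g * (h * u * h⁻¹) * (m * g)⁻¹ = m * (g * (h * u * h⁻¹) * g⁻¹) * m⁻¹ by group, hg, mem_Cx'.1 hm]
  have h4 := h2.cj (m * g)
  rw [cj_inf (m * g) Cx(z), cj_Cx, cj_Cx, e] at h4
  rw [← cj_mul] at h3
  exact ⟨h, hh, m * g, h1, e, (h4.eq_of_le (hS.pgrp.to_le inf_le_left) (fun y hy => ⟨hy.2, hS.le hy.1⟩)
    (le_inf h3 (h4.le.trans inf_le_left))).symm⟩

theorem emb {u v : G} (hS : IsPGroup 2 S) {T : Subgroup G} (hT : SylIn 2 T Cx(v)) (hc : IsConj u v) :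
    ∃ g, g * u * g⁻¹ = v ∧ ∀ y ∈ S, y * u = u * y → g * y * g⁻¹ ∈ T := by
  haveI : Fact (Nat.Prime 2) := ⟨Nat.prime_two⟩
  obtain ⟨g, hg⟩ := isConj_iff.1 hc
  obtain ⟨m, hm, h3⟩ := hT.exists_cj_le (isPGroup_cj (hS.to_le (inf_le_left (b := Cx(u)))) g)
    (by rw [← hg, ← cj_Cx]; exact cj_mono g inf_le_right)
  rw [← cj_mul] at h3
  exact ⟨m * g, by rw [show m * g * u * (m * g)⁻¹ = m * (g * u * g⁻¹) * m⁻¹ by group, hg, mem_Cx'.1 hm],
    fun y hy h => h3 (conj_mem_cj _ ⟨hy, mem_Cx.2 h⟩)⟩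

theorem ncard_le (g : G) {A B : Set G} (h : ∀ y ∈ A, g * y * g⁻¹ ∈ B) : A.ncard ≤ B.ncard :=
  Set.ncard_le_ncard_of_injOn (fun y => g * y * g⁻¹) h fun a _ b _ e => by simpa using e
end

structure SM (z : G) (φ : ℕ → G) (mu : ℕ → ℕ → ℕ) : Prop where
  lt : ∀ {a b}, a < 1024 → b < 1024 → mu a b < 1024
  mul : ∀ {a b}, a < 1024 → b < 1024 → φ (mu a b) = φ a * φ b
  inj : ∀ {a b}, a < 1024 → b < 1024 → φ a = φ b → a = b
  one : φ 0 = 1
  hz : φ 64 = z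
  com : ∀ {a}, a < 1024 → φ a * z = z * φ a

namespace SM
variable [Finite G] {mu : ℕ → ℕ → ℕ} (M : SM z φ mu)
include M

def S : Subgroup G where
  carrier := {g | ∃ c < 1024, φ c = g}
  mul_mem' := by
    rintro _ _ ⟨a, ha, rfl⟩ ⟨b, hb, rfl⟩
    exact ⟨_, M.lt ha hb, M.mul ha hb⟩
  one_mem' := ⟨0, by omega, M.one⟩
  inv_mem' := by
    rintro _ ⟨a, ha, rfl⟩
    have : ∀ n, ∃ c < 1024, φ c = φ a ^ n := fun n => by
      induction n with
      | zero => exact ⟨0, by omega, by rw [M.one, pow_zero]⟩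
      | succ n ih =>
        obtain ⟨c, hc, e⟩ := ih
        exact ⟨_, M.lt hc ha, by rw [M.mul hc ha, e, pow_succ]⟩
    obtain ⟨c, hc, e⟩ := this (orderOf (φ a) - 1)
    refine ⟨c, hc, e.trans (eq_inv_of_mul_eq_one_left ?_)⟩
    rw [← pow_succ, Nat.sub_add_cancel (orderOf_pos _), pow_orderOf_eq_one]

omit [Finite G] in
theorem ncard (p : ℕ → Bool) : {g | ∃ c < 1024, p c = true ∧ φ c = g}.ncard = cnt p := by
  classical
  have : {g | ∃ c < 1024, p c = true ∧ φ c = g} = ↑(((Finset.range 1024).filter fun c => p c = true).image φ) := by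
    ext g; simp [and_assoc]
  rw [this, Set.ncard_coe_finset, Finset.card_image_of_injOn fun a ha b hb =>
    M.inj (by simp at ha; exact ha.1) (by simp at hb; exact hb.1), Finset.card_filter, cnt, ct_eq]
  exact Finset.sum_congr rfl fun c _ => by cases p c <;> rfl

theorem card_S : Nat.card M.S = 1024 := by
  rw [show 1024 = cnt fun _ => true by decide +kernel, ← M.ncard, ← Nat.card_coe_set_eq]
  exact Nat.card_congr (Equiv.subtypeEquivRight fun g => by simp only [Set.mem_setOf_eq, true_and]; rfl)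

theorem S_le : M.S ≤ Cx(z) := by rintro _ ⟨c, h, rfl⟩; exact mem_Cx.2 (M.com h)

theorem syl {H : Subgroup G} (h : M.S ≤ H) (hG : ¬ 2048 ∣ Nat.card H) : SylIn 2 M.S H := by
  haveI : Fact (Nat.Prime 2) := ⟨Nat.prime_two⟩
  refine sylIn_of_not_dvd h (IsPGroup.of_card (n := 10) M.card_S) fun h1 => hG ?_
  rw [← card_mul_relIndex h, M.card_S]
  exact Nat.mul_dvd_mul_left 1024 h1

variable {Q : ℕ} (hq : ∀ c < 1024, mu c c = sq Q c)
include hq

theorem ru_eq {v : ℕ} (hv : v < 1024) : {y | y ∈ M.S ⊓ Cx(φ v) ∧ y * y = φ v}.ncard = ru Q v := by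
  rw [ru, ← M.ncard]
  congr 1
  ext y
  simp only [Set.mem_setOf_eq, Nat.beq_eq]
  constructor
  · rintro ⟨⟨⟨c, hc, rfl⟩, -⟩, h⟩
    exact ⟨c, hc, hq c hc ▸ M.inj (M.lt hc hc) hv ((M.mul hc hc).trans h), rfl⟩
  · rintro ⟨c, hc, rfl, rfl⟩
    rw [← hq c hc, M.mul hc hc]
    exact ⟨⟨⟨c, hc, rfl⟩, mem_Cx.2 (mul_assoc _ _ _).symm⟩, rfl⟩

theorem rc_eq {w v : ℕ} (hw : w < 1024) (hv : v < 1024) : {y | y ∈ M.S ⊓ Cx(φ v) ∧ y * y = φ w}.ncard = rc mu Q w v := by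
  rw [rc, ← M.ncard]
  congr 1
  ext y
  simp only [Set.mem_setOf_eq, Nat.beq_eq, Bool.and_eq_true]
  constructor
  · rintro ⟨⟨⟨c, hc, rfl⟩, h1⟩, h⟩
    exact ⟨c, hc, ⟨hq c hc ▸ M.inj (M.lt hc hc) hw ((M.mul hc hc).trans h), M.inj (M.lt hc hv) (M.lt hv hc)
      (by rw [M.mul hc hv, M.mul hv hc, mem_Cx.1 h1])⟩, rfl⟩
  · rintro ⟨c, hc, ⟨rfl, h⟩, rfl⟩
    exact ⟨⟨⟨c, hc, rfl⟩, mem_Cx.2 (by rw [← M.mul hc hv, h, M.mul hv hc])⟩, by rw [← hq c hc, M.mul hc hc]⟩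

omit [Finite G] in
theorem sq_zero {v : ℕ} (hv : v < 1024) : sq Q v = 0 ↔ φ v * φ v = 1 := by
  rw [← hq v hv, ← M.mul hv hv, ← M.one]
  exact ⟨fun h => by rw [h], M.inj (M.lt hv hv) (by omega)⟩

omit hq in
theorem chk_spec {m : ℕ} (h : chk mu Q m = true) : (∀ c < 1024, mu c c = sq Q c) ∧ ∀ v < 1024, φ v * φ v = 1 → φ v ≠ 1 → φ v ≠ z →
    (ru Q v < rc mu Q 64 v ∨ (inA m v = true ∧ ru Q v ≤ rc mu Q 64 v)) ∧
      (m = 63 ∨ ru Q v = 0 ∨ inA m v = true ∨ rc mu Q 0 v < 56) := by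
  simp only [chk, al_iff, Bool.and_eq_true, Bool.or_eq_true, Nat.beq_eq, frc_eq, Nat.blt_eq, Nat.ble_eq, or_assoc,
    Bool.not_eq_true', ← Bool.not_eq_true] at h
  refine ⟨h.1, fun v hv h1 h2 h3 => ?_⟩
  rcases h.2 v hv with h4 | rfl | rfl | h4
  exacts [absurd ((M.sq_zero h.1 hv).2 h1) h4, absurd M.one h2, absurd M.hz h3, h4]

omit hq in
theorem top {m : ℕ} (h : chk mu Q m = true) (hz : orderOf z = 2) (hS : SylIn 2 M.S Cx(z)) {u : G} (hu : u ∈ M.S) (hc : IsConj u z)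
    (hne : u ≠ z) : ∃ h ∈ Cx(z), ∃ c, inA m c = true ∧ h * u * h⁻¹ = φ c := by
  obtain ⟨hq, k⟩ := M.chk_spec h
  obtain ⟨h, hh, g, ⟨a, ha, e1⟩, e2, e3⟩ := pair hS hu hc
  rw [← e1] at e2 e3
  have m1 : g * z * g⁻¹ ∈ M.S ⊓ Cx(g * z * g⁻¹) := e3 ▸ conj_mem_cj g ⟨⟨64, by omega, M.hz⟩, mem_Cx.2 (M.com ha).symm⟩
  obtain ⟨b, hb, e4⟩ := m1.1
  have z2 : z * z = 1 := by rw [← pow_two, ← hz, pow_orderOf_eq_one]
  have z1 : z ≠ 1 := fun e => by rw [e, orderOf_one] at hz; omega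
  have a3 : φ a ≠ z := fun e => hne (by
    rw [e, eq_mul_inv_iff_mul_eq, ← mem_Cx.1 hh, mul_right_inj] at e1; exact e1.symm)
  have ka := (k a ha (by
    have : g * (φ a * φ a) * g⁻¹ = 1 := by rw [← conj_mul, e2, z2]
    simpa using this) (fun e => z1 (by rw [← e2, e]; simp)) a3).1
  have kb := (k b hb (by rw [e4, conj_mul, z2]; simp) (by rw [e4]; simpa using z1) fun e => a3 (by
    rw [← e, e4] at e2; simpa using e2)).1
  have c1 : ∀ w, {y | y ∈ M.S ⊓ Cx(φ a) ∧ y * y = w}.ncard = {y | y ∈ M.S ⊓ Cx(φ b) ∧ y * y = g * w * g⁻¹}.ncard := fun w => by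
    rw [e4, ← e3, ← Mod.ncard_conj g fun y => y ∈ cj g (M.S ⊓ Cx(φ a)) ∧ y * y = g * w * g⁻¹]
    simp only [conj_mem_cj_iff, conj_mul, mul_left_inj, mul_right_inj]
  have c2 := c1 (φ a)
  have c3 := c1 z
  have c4 := fun v => M.rc_eq hq (w := 64) (v := v) (by omega)
  rw [M.hz] at c4
  rw [e2, M.ru_eq hq ha, c4 b hb] at c2
  rw [← e4, M.ru_eq hq hb, c4 a ha] at c3
  exact ⟨h, hh, a, (ka.resolve_left (by omega)).1, e1.symm⟩

end SM

theorem dd_mul {r y : G} (hy : y * y = 1) (h4 : r ^ 4 = y) (h2 : t * t = y) (h : t * r = r⁻¹ * t) {k l : ℕ} (hk : k < 8) (hl : l < 8) :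
    r ^ (k % 4) * t ^ (k / 4) * (r ^ (l % 4) * t ^ (l / 4)) = y ^ (dt k l / 8) * (r ^ (dt k l % 8 % 4) * t ^ (dt k l % 8 / 4)) := by
  have r8 : r ^ 8 = 1 := by rw [show 8 = 4 + 4 from rfl, pow_add, h4, hy]
  have h7 : ∀ n, t * r ^ n = r ^ (7 * n) * t := fun n => by
    rw [pow_mul, show r ^ 7 = r⁻¹ from eq_inv_of_mul_eq_one_left (by rw [← pow_succ, r8])]
    exact (SemiconjBy.pow_right h n)
  have key : ∀ k < 8, ∀ l < 8, dt k l % 8 / 4 = (k / 4 + l / 4) % 2 ∧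
      (4 * (dt k l / 8) + dt k l % 8 % 4) % 8 = (k % 4 + (6 * (k / 4) + 1) * (l % 4) + 4 * (k / 4) * (l / 4)) % 8 := by decide +kernel
  obtain ⟨k1, k2⟩ := key k hk l hl
  rw [← h4, ← pow_mul, ← mul_assoc (r ^ _) (r ^ _), ← pow_add, pow_eq_pow_mod (4 * _ + _) r8, k1, k2, ← pow_eq_pow_mod _ r8]
  have : (k / 4 = 0 ∨ k / 4 = 1) ∧ (l / 4 = 0 ∨ l / 4 = 1) := by omega
  obtain ⟨e1 | e1, e2 | e2⟩ := this <;> simp only [e1, e2, pow_zero, pow_one, mul_one, mul_zero, add_zero, zero_add, one_mul, pow_add,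
    Nat.reduceMod, Nat.reduceAdd, Nat.reduceMul, mul_assoc, h7]
  rw [← mul_assoc t, h7, mul_assoc, h2, h4]

theorem Act.pow {g : G} {f : ℕ → ℕ} (h : Act ψ g f) (n : ℕ) : Act ψ (g ^ n) f^[n] := by
  induction n with
  | zero => exact fun c hc => ⟨hc, hc, by simp⟩
  | succ n ih => rw [pow_succ]; exact ih.mul h

namespace Dat
variable {T e A : ℕ} (D : Dat z x t ψ T e)
include D

theorem act_eq {g h : G} {f f' : ℕ → ℕ} (h1 : Act ψ g f) (h2 : Act ψ h f') (k : ∀ c < 128, f c = f' c) : g = h ∨ g = h * z := by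
  rcases D.cen (h⁻¹ * g) fun c hc => (by
    have := (h1 c hc).2.2
    rw [k c hc, ← (h2 c hc).2.2] at this
    calc h⁻¹ * g * ψ c = h⁻¹ * (g * ψ c * g⁻¹) * g := by group
      _ = _ := by rw [this]; group) with h3 | h3
  exacts [Or.inl (inv_mul_eq_one.1 h3).symm, Or.inr (inv_mul_eq_iff_eq_mul.1 h3)]

theorem comz (hT : lk T 64 = 64) (w : List ℕ) : Commute (evw (ex x t) w) z := by
  have k : ∀ {g f}, Act ψ g f → f 64 = 64 → Commute g z := fun h e => by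
    have := (h 64 (by omega)).2.2
    rw [e, D.q.hz] at this
    exact mul_inv_eq_iff_eq_mul.1 this
  induction w with
  | nil => exact Commute.one_left _
  | cons i w ih =>
    rw [evw_cons]
    refine Commute.mul_left ?_ ih
    unfold ex
    cases Nat.beq i 0
    exacts [k D.ay hT, k D.ax (by decide +kernel)]

theorem four (hT : lk T 64 = 64) {w g : List ℕ} (h : ∀ c < 128, wa (lk T) (w ++ w ++ g) c = wa (lk T) (g ++ [1]) c) :
    evw (ex x t) w ^ 4 = z ^ e := by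
  have h1 := D.act_eq (D.ax.wa D.ay _) (D.ax.wa D.ay _) h
  have c1 := D.comz hT g
  have c2 : Commute t z := by simpa using D.comz hT [1]
  simp only [evw_append, evw_cons, evw_nil, mul_one, ex1] at h1
  generalize evw (ex x t) w = r at h1 ⊢
  generalize evw (ex x t) g = γ at h1 c1
  have : γ * (t * t) * γ⁻¹ = z ^ e := by rw [D.t2, (c1.pow_right e).eq, mul_inv_cancel_right]
  rw [show 4 = 2 * 2 from rfl, pow_mul, pow_two, pow_two, ← this]
  rcases h1 with h1 | h1 <;> rw [eq_mul_inv_of_mul_eq h1]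
  · rw [conj_mul]
  · rw [mul_assoc γ t, conj_mul, mul_assoc t, ← mul_assoc z, ← c2.eq, mul_assoc t z, D.q.zz, mul_one]

/-- the Sylow model -/
def ph (ψ : ℕ → G) (x t : G) (n : ℕ) : G := ψ (n % 128) * (evw (ex x t) wr ^ (n / 128 % 4) * t ^ (n / 128 / 4))

omit D in
theorem ph_q {n : ℕ} (h : n < 128) : ph ψ x t n = ψ n := by
  rw [ph, Nat.mod_eq_of_lt h, Nat.div_eq_of_lt h]; simp

theorem sm (he : e < 2) (h : chkA T A = true) : SM z (ph ψ x t) (mS A e) := by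
  simp only [chkA, al_iff, an_iff, Bool.and_eq_true, Bool.or_eq_true, Nat.beq_eq, Bool.not_eq_true', ← Bool.not_eq_true] at h
  obtain ⟨⟨⟨⟨h1, h2⟩, h3⟩, hT⟩, -⟩ := h
  have ad : ∀ k < 8, Act ψ (evw (ex x t) wr ^ (k % 4) * t ^ (k / 4)) fun c => lk A (128 * k + c) := fun k hk =>
    (((D.ax.wa D.ay wr).pow _).mul (D.ay.pow _)).congr (h1 k hk)
  have c2 : Commute t z := by simpa using D.comz hT [1]
  have cx : Commute x z := by simpa using D.comz hT [0]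
  have y2 : z ^ e * z ^ e = 1 := by rw [← (Commute.refl z).mul_pow, D.q.zz, one_pow]
  have hr : t * evw (ex x t) wr = (evw (ex x t) wr)⁻¹ * t := by
    have : evw (ex x t) wr = t * (x * t * x⁻¹) := by
      rw [← eq_inv_of_mul_eq_one_left ((pow_succ x 6).symm.trans D.x7)]; simp [wr, pow_succ, mul_assoc]
    have b : x * t * x⁻¹ * (x * t * x⁻¹) = z ^ e := by rw [conj_mul, D.t2, (cx.pow_right e).eq, mul_inv_cancel_right]
    rw [this, ← mul_assoc, D.t2, mul_inv_rev t, inv_mul_cancel_right, eq_inv_iff_mul_eq_one, mul_assoc, b, y2]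
  have ms : ∀ {a b}, a < 1024 → b < 1024 → ∃ c < 128, c = lk A (128 * (a / 128) + b % 128) ∧ ∃ d < 16, d = dt (a / 128) (b / 128) ∧
      ∃ X < 128, ψ X = ψ (a % 128) * ψ c * (z ^ e) ^ (d / 8) ∧ mS A e a b = X + 128 * (d % 8) := fun {a b} ha hb => by
    have hc := (ad (a / 128) (by omega) (b % 128) (by omega)).2.1
    have hd : dt (a / 128) (b / 128) < 16 := Nat.lt_succ_of_le Nat.and_le_right
    have k : ∀ p < 128, ∀ s < 2, Nat.xor p (Nat.mul 64 s) = mq p (64 * s) := by decide +kernel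
    have hs : e * (dt (a / 128) (b / 128) / 8) < 2 := by
      have : dt (a / 128) (b / 128) / 8 < 2 := by omega
      generalize dt (a / 128) (b / 128) / 8 = s at this
      interval_cases e <;> omega
    have hm := mq_lt (show a % 128 < 128 by omega) hc
    refine ⟨_, hc, rfl, _, hd, rfl, _, mq_lt hm (show 64 * (e * (dt (a / 128) (b / 128) / 8)) < 128 by omega), ?_, ?_⟩
    · rw [D.q.mul hm (by omega), D.q.mul (by omega) hc, ← pow_mul]
      generalize e * _ = s at hs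
      interval_cases s
      · rw [D.q.one, pow_zero]
      · rw [D.q.hz, pow_one]
    · rw [← k _ hm _ hs, mS, frc_eq, frc_eq, frc_eq]; rfl
  refine ⟨fun ha hb => ?_, fun {a b} ha hb => ?_, fun {a b} ha hb h => ?_, (ph_q (by omega)).trans D.q.one,
    (ph_q (by omega)).trans D.q.hz, fun {a} ha => ?_⟩
  · obtain ⟨c, -, -, d, hd, -, X, hX, -, e⟩ := ms ha hb
    omega
  · obtain ⟨c, -, rfl, d, hd, rfl, X, hX, e1, e2⟩ := ms ha hb
    rw [e2, ph, ph, ph, show (X + 128 * (dt (a / 128) (b / 128) % 8)) % 128 = X by omega,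
      show (X + 128 * (dt (a / 128) (b / 128) % 8)) / 128 = dt (a / 128) (b / 128) % 8 by omega, e1, mul_assoc,
      ← dd_mul y2 (D.four hT h3) D.t2 hr (by omega) (by omega), ← (ad (a / 128) (by omega) (b % 128) (by omega)).2.2]
    group
  · have k : a / 128 = b / 128 := by
      refine (h2 (a / 128) (by omega) (b / 128) (by omega)).resolve_right ?_
      rintro ⟨c, hc, h4⟩
      unfold ph at h
      have := D.q.act_uniq ((D.q.act_inn (show a % 128 < 128 by omega)).mul (ad (a / 128) (by omega)))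
        (h.symm ▸ (D.q.act_inn (show b % 128 < 128 by omega)).mul (ad (b / 128) (by omega))) hc
      have i1 := al2 inn_aux (show a % 128 < 128 by omega) (ad (a / 128) (by omega) c hc).2.1
      have i2 := al2 inn_aux (show b % 128 < 128 by omega) (ad (b / 128) (by omega) c hc).2.1
      simp only [frc_eq, Bool.and_eq_true, Nat.beq_eq] at i1 i2
      exact h4 (by rw [← i1.1.2, ← i2.1.2, this])
    rw [ph, ph, k, mul_left_inj] at h
    have := D.q.inj (by omega) (by omega) h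
    omega
  · exact Commute.mul_left (D.q.com (by omega)) (((D.comz hT wr).pow_left _).mul_left (c2.pow_left _))

theorem C_le [Finite G] (he : e < 2) (h : chkA T A = true) (hC : Nat.card Cx(z) = 21504) {H : Subgroup G} (hx : x ∈ H) (ht : t ∈ H)
    (hq : ∀ c < 128, ψ c ∈ H) : Cx(z) ≤ H := by
  have M := D.sm he h
  simp only [chkA, Bool.and_eq_true, Nat.beq_eq, Bool.not_eq_true', ← Bool.not_eq_true] at h
  have cx : x ∈ Cx(z) := mem_Cx.2 (by simpa using (D.comz h.1.2 [0]).eq)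
  have ct : t ∈ Cx(z) := mem_Cx.2 (by simpa using (D.comz h.1.2 [1]).eq)
  have h1 : 1024 ∣ Nat.card (H ⊓ Cx(z) : Subgroup G) := M.card_S ▸ card_dvd_of_le (le_inf (by
    rintro _ ⟨c, -, rfl⟩
    refine mul_mem (hq _ (by omega)) (mul_mem (pow_mem ?_ _) (pow_mem ht _))
    simp only [wr, evw_cons, evw_nil, ex0, ex1]
    repeat first | exact one_mem _ | refine mul_mem ‹_› ?_) M.S_le)
  have o : ∀ {g f}, Act ψ g f → f 1 ≠ 1 → g ≠ 1 := fun h e h1 => e (D.q.inj (h 1 (by omega)).2.1 (by omega) (by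
    rw [← (h 1 (by omega)).2.2, h1]; simp))
  haveI : Fact (Nat.Prime 7) := ⟨by norm_num⟩
  haveI : Fact (Nat.Prime 3) := ⟨by norm_num⟩
  have h2 : 7 ∣ Nat.card (H ⊓ Cx(z) : Subgroup G) :=
    orderOf_eq_prime D.x7 (o D.ax (by decide +kernel)) ▸ orderOf_dvd_natCard _ ⟨hx, cx⟩
  have h3 : 3 ∣ Nat.card (H ⊓ Cx(z) : Subgroup G) :=
    orderOf_eq_prime D.xt (by simpa using o (D.ax.wa D.ay [0, 1]) h.2) ▸ orderOf_dvd_natCard _ ⟨mul_mem hx ht, mul_mem cx ct⟩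
  rw [← eq_of_le_of_card_ge (inf_le_right : H ⊓ Cx(z) ≤ _) (hC ▸ Nat.le_of_dvd Nat.card_pos (by omega))]
  exact inf_le_left

variable [Finite G] [IsSimpleGroup G] (he : e < 2) (h : chkA T A = true) (hC : Nat.card Cx(z) = 21504) (hz : orderOf z = 2)
  (hG : Nat.card G = 4030387200) {Q m : ℕ} (hk : chk (mS A e) Q m = true)
include he h hC hz hG hk

theorem fused : ∃ c, inA m c = true ∧ IsConj z (ψ c) := by
  haveI : Fact (Nat.Prime 2) := ⟨Nat.prime_two⟩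
  have M := D.sm he h
  have hS := M.syl M.S_le (by omega)
  obtain ⟨w, h1, h2, h3⟩ := not_isolated hz (by omega)
  obtain ⟨g, hg, h4⟩ := hS.exists_conj_mem (mem_Cx.2 h2) (k := 1) (by
    obtain ⟨g, rfl⟩ := isConj_iff.1 h1
    rw [pow_one, conj_pow, ← hz, pow_orderOf_eq_one]; simp)
  have h5 : IsConj z (g * w * g⁻¹) := h1.trans (isConj_iff.2 ⟨g, rfl⟩)
  obtain ⟨k, -, c, h6, h7⟩ := M.top hk hz hS h4 h5.symm fun e => h3 (by
    rwa [mul_inv_eq_iff_eq_mul, ← mem_Cx.1 hg, mul_right_inj] at e)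
  refine ⟨c, h6, h5.trans (isConj_iff.2 ⟨k, h7.trans (ph_q ?_)⟩)⟩
  simp only [inA, Bool.and_eq_true, Nat.blt_eq] at h6
  exact h6.1.1

theorem exclB (hm : m ≠ 63) {u r : ℕ} (hB : chkB (mS A e) T Q m u r = true)
    (htwo : ∀ a b : G, a * a = 1 → a ≠ 1 → b * b = 1 → b ≠ 1 → ¬ IsConj z a → ¬ IsConj z b → IsConj a b) : False := by
  have M := D.sm he h
  have hS := M.syl M.S_le (by omega)
  have hS' := M.syl le_top (by rw [card_top]; omega)
  obtain ⟨hq, k⟩ := M.chk_spec hk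
  obtain ⟨c0, a0, f0⟩ := D.fused he h hC hz hG hk
  simp only [chkB, al_iff, an_iff, Bool.and_eq_true, Bool.or_eq_true, Nat.beq_eq, Bool.not_eq_true', ← Bool.not_eq_true,
    Nat.blt_eq, Nat.ble_eq] at hB
  obtain ⟨⟨⟨⟨⟨⟨⟨⟨b1, b2⟩, b3⟩, b4⟩, b5⟩, b6⟩, b7⟩, b8⟩, b9⟩ := hB
  have lt : ∀ {c}, inA m c = true → c < 128 := fun h => by
    simp only [inA, Bool.and_eq_true, Nat.blt_eq] at h; exact h.1.1
  replace b1 := fun c hc => (b1 c (lt hc)).resolve_left (not_not.2 hc)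
  have fA : ∀ c, inA m c = true → IsConj z (ph ψ x t c) := fun c hc => by
    obtain ⟨j, -, q, hq, e⟩ := ((b1 c0 a0).2 c (lt hc)).resolve_left (not_not.2 hc)
    rw [ph_q (lt hc), ← e]
    exact f0.trans (isConj_iff.2 ⟨_, ((D.q.act_inn hq).mul (D.ax.pow j) c0 (lt a0)).2.2⟩)
  have nz : ∀ v < 1024, v ≠ 64 → ¬ inA m v = true → ¬ IsConj z (ph ψ x t v) := fun v hv h1 h2 h3 => by
    obtain ⟨g, hg, c, h4, h5⟩ := M.top hk hz hS ⟨v, hv, rfl⟩ h3.symm fun e => h1 (M.inj hv (by omega) (e.trans M.hz.symm))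
    have n : ∀ {g f}, Act ψ g f → (∀ c, inA m c = true → inA m (f c) = true) → g ∈ normalizer {y | ∃ c, inA m c = true ∧ ψ c = y} :=
      fun ha hf => mem_normalizer_fintype (by
        rintro _ ⟨c, hc, rfl⟩
        exact ⟨_, hf c hc, (ha c (lt hc)).2.2.symm⟩)
    have := D.C_le he h hC (n D.ax fun c hc => (b1 c hc).1.1.1) (n D.ay fun c hc => (b1 c hc).1.1.2)
      (fun q hq => n (D.q.act_inn hq) fun c hc => (b1 c hc).1.2 q hq) hg
    obtain ⟨d, h6, h7⟩ := (this (ph ψ x t v)).2 ⟨c, h4, by rw [h5, ph_q (lt h4)]⟩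
    rw [← ph_q (ψ := ψ) (x := x) (t := t) (lt h6)] at h7
    exact h2 (M.inj (by have := lt h6; omega) hv h7 ▸ h6)
  have r1 : sq Q r < 1024 := hq r b7 ▸ M.lt b7 b7
  have n1 := nz u (by omega) (by omega) b4
  have n2 := nz _ r1 (by omega) fun h => by have := lt h; omega
  have i1 := (M.sq_zero hq (show u < 1024 by omega)).1 b6
  have j1 : ph ψ x t u ≠ 1 := fun e => b5 (M.inj (by omega) (by omega) (e.trans M.one.symm))
  have cj := htwo _ _ ((M.sq_zero hq r1).1 b9) (fun e => by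
    have := M.inj r1 (by omega) (e.trans M.one.symm); omega) i1 j1 n2 n1
  obtain ⟨g, -, ⟨v, hv, e1⟩, h2⟩ := extremal hS' ⟨u, by omega, rfl⟩
  rw [top_inf_eq, ← e1] at h2
  have cv : IsConj (ph ψ x t u) (ph ψ x t v) := isConj_iff.2 ⟨g, e1.symm⟩
  obtain ⟨g1, p1, q1⟩ := emb hS.pgrp h2 cv
  obtain ⟨g2, p2, q2⟩ := emb hS.pgrp h2 (cj.trans cv)
  rcases (k v hv (by rw [e1, conj_mul, i1]; simp) (by rw [e1]; simpa using j1) fun e => n1 (e ▸ cv).symm).2 with h3 | h3 | h3 | h3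
  · exact hm h3
  · rw [← M.ru_eq hq hv, Set.ncard_eq_zero] at h3
    have e2 : ph ψ x t r * ph ψ x t r = ph ψ x t (sq Q r) := by rw [← hq r b7, M.mul b7 b7]
    exact Set.eq_empty_iff_forall_notMem.1 h3 (g2 * ph ψ x t r * g2⁻¹) ⟨q2 _ ⟨r, b7, rfl⟩ (by rw [← e2, mul_assoc]),
      by rw [conj_mul, e2, p2]⟩
  · exact n1 ((fA v h3).trans cv.symm)
  · rw [← b2, ← M.rc_eq hq (by omega) hv, ← M.rc_eq hq (by omega) (show u < 1024 by omega)] at h3
    exact not_le.2 h3 (ncard_le g1 fun y hy => ⟨q1 y hy.1.1 (mem_Cx.1 hy.1.2), by rw [conj_mul, hy.2, M.one]; simp⟩)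

end Dat
end CfH3.Hf
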