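import Cfsg.Agent.OD.Pre
import Cfsg.Agent.H6.WP
set_option autoImplicit false
set_option maxRecDepth 100000
set_option Elab.async false
set_option linter.all false
namespace CfH6.HyB
open CfH6 MulAction
def il : List ℕ := [0, 1, 2, 3, 4, 5, 6, 7, 9, 8]
def rels : List (List ℕ) := [[0, 1, 0, 1],
  [0, 2, 0, 2],
  [0, 3, 0, 3, 6],
  [0, 4, 0, 4],
  [0, 5, 0, 5],
  [0, 6, 0, 6],
  [1, 2, 1, 2],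
  [1, 3, 1, 3],
  [1, 4, 1, 4],
  [1, 5, 1, 5, 6],
  [1, 6, 1, 6],
  [2, 3, 2, 3],
  [2, 4, 2, 4, 6],
  [2, 5, 2, 5],
  [2, 6, 2, 6],
  [3, 4, 3, 4],
  [3, 5, 3, 5],
  [3, 6, 3, 6],
  [4, 5, 4, 5],
  [4, 6, 4, 6],
  [5, 6, 5, 6],
  [8, 0, 9, 1],
  [8, 1, 9, 2],
  [8, 2, 9, 1, 0],
  [8, 3, 9, 5, 3],
  [8, 4, 9, 3],
  [8, 5, 9, 4],
  [8, 6, 9, 6],
  [7, 0, 7, 0],
  [7, 1, 7, 1],
  [7, 2, 7, 2, 0],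
  [7, 3, 7, 4, 3],
  [7, 4, 7, 4],
  [7, 5, 7, 5],
  [7, 6, 7, 6],
  [8, 8, 8, 8, 8, 8, 8],
  [8, 7, 8, 7, 8, 7],
  [8, 8, 8, 8, 7, 8, 8, 8, 8, 7, 8, 8, 8, 8, 7, 8, 8, 8, 8, 7]]
abbrev G : Type := WP 10 il rels
def el : ℕ → G := wel 10 il rels
theorem hinv : ∀ x < 10, el (il.getD x 0) = (el x)⁻¹ := wp_inv _ _ _
theorem hrel : ∀ r ∈ rels, evw el r = 1 := wp_rel _ _ _
theorem htop : gensub el 10 = ⊤ := wp_top _ _ _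
theorem hhom {Γ : Type*} [Group Γ] (ev : ℕ → Γ) (h1 : ∀ x < 10, ev (il.getD x 0) = (ev x)⁻¹) (h2 : ∀ r ∈ rels, evw ev r = 1) :
    ∃ ρ : G →* Γ, ∀ x < 10, ρ (el x) = ev x := wp_hom _ _ _ (by decide +kernel) ev h1 h2
end CfH6.HyB
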