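import Cfsg.Agent.OD.Pre
import Cfsg.Agent.H3.HyB
import Cfsg.Agent.H3.HyT1
import Cfsg.Agent.H3.HyT2
import Cfsg.Agent.H3.HyT3
import Cfsg.Agent.H3.HyT4
set_option autoImplicit false
set_option maxRecDepth 100000
set_option linter.all false
namespace CfH6.HyO
open CfH6
def s0 : List (List ℕ) := [[0], [1], [2], [3], [4], [5], [6], [7], [8], [9]]
def t0 : List (List ℕ) := [[0], [1], [2], [3], [4], [5], [6], [8]]
theorem cov0 : Covers (gensub (byW HyB.el t0) 8) (gensub (byW HyB.el s0) 10) 24 :=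
  cov_step HyB.el HyB.hinv HyB.hrel s0 t0 8 4 (fun ev H => HyT1.covers ev H) (by decide +kernel)
theorem top0 : gensub (byW HyB.el s0) 10 = ⊤ := (gensub_id HyB.el (by decide)).trans HyB.htop
theorem covT0 : Covers (gensub (byW HyB.el t0) 8) ⊤ 24 := cov0.top top0
def s1 : List (List ℕ) := [[0], [1], [2], [3], [4], [5], [6], [8], [9]]
def t1 : List (List ℕ) := [[0], [1], [2], [3], [4], [5], [6]]
theorem cov1 : Covers (gensub (byW HyB.el t1) 7) (gensub (byW HyB.el s1) 9) 7 :=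
  cov_step HyB.el HyB.hinv HyB.hrel s1 t1 7 4 (fun ev H => HyT2.covers ev H) (by decide +kernel)
def s2 : List (List ℕ) := [[0], [1], [2], [3], [4], [5], [6]]
def t2 : List (List ℕ) := [[0], [1], [2], [6]]
theorem cov2 : Covers (gensub (byW HyB.el t2) 4) (gensub (byW HyB.el s2) 7) 8 :=
  cov_step HyB.el HyB.hinv HyB.hrel s2 t2 4 4 (fun ev H => HyT3.covers ev H) (by decide +kernel)
def s3 : List (List ℕ) := [[0], [1], [2], [6]]
def t3 : List (List ℕ) := []
theorem cov3 : Covers (gensub (byW HyB.el t3) 0) (gensub (byW HyB.el s3) 4) 16 :=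
  cov_step HyB.el HyB.hinv HyB.hrel s3 t3 0 4 (fun ev H => HyT4.covers ev H) (by decide +kernel)
theorem finT3 : Finite (gensub (byW HyB.el t3) 0) ∧ Nat.card (gensub (byW HyB.el t3) 0) ≤ 1 := (gensub_zero _)
theorem fin3 : Finite (gensub (byW HyB.el s3) 4) ∧ Nat.card (gensub (byW HyB.el s3) 4) ≤ 16 :=
  fin_cast (cov3.card_le finT3) (by decide)
theorem finT2 : Finite (gensub (byW HyB.el t2) 4) ∧ Nat.card (gensub (byW HyB.el t2) 4) ≤ 16 := (fin_le (gensub_le_of_subsIn HyB.el (by decide)) fin3)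
theorem fin2 : Finite (gensub (byW HyB.el s2) 7) ∧ Nat.card (gensub (byW HyB.el s2) 7) ≤ 128 :=
  fin_cast (cov2.card_le finT2) (by decide)
theorem finT1 : Finite (gensub (byW HyB.el t1) 7) ∧ Nat.card (gensub (byW HyB.el t1) 7) ≤ 128 := (fin_le (gensub_le_of_subsIn HyB.el (by decide)) fin2)
theorem fin1 : Finite (gensub (byW HyB.el s1) 9) ∧ Nat.card (gensub (byW HyB.el s1) 9) ≤ 896 :=
  fin_cast (cov1.card_le finT1) (by decide)
theorem finT0 : Finite (gensub (byW HyB.el t0) 8) ∧ Nat.card (gensub (byW HyB.el t0) 8) ≤ 896 := (fin_le (gensub_le_of_subsIn HyB.el (by decide)) fin1)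
theorem fin0 : Finite (gensub (byW HyB.el s0) 10) ∧ Nat.card (gensub (byW HyB.el s0) 10) ≤ 21504 :=
  fin_cast (cov0.card_le finT0) (by decide)
theorem finG : Finite HyB.G ∧ Nat.card HyB.G ≤ 21504 := fin_top (top0 ▸ fin0)
end CfH6.HyO
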