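import Cfsg.Agent.H3.Hf4
import Cfsg.Agent.H3.He8
import Cfsg.Agent.H3.HyO
/-! Identification of the involution centraliser in a group of Held type. -/
set_option autoImplicit false
set_option maxRecDepth 100000
open Subgroup CfH9 CfH6
namespace CfH3.Hf
open CfH3.He

variable {G : Type*} [Group G] {z x t : G} {ψ φ : ℕ → G}

theorem wd_ev (M : Mod z φ) {L : List ℕ} (hL : ∀ c ∈ L, val c) (w : List ℕ) :
    val (wd L w) ∧ evw (fun i => φ (L.getD i cI)) w = φ (wd L w) := by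
  induction w with
  | nil => exact ⟨val_I, M.one.symm⟩
  | cons i w ih =>
    have h1 : val (L.getD i cI) := by
      rw [List.getD_eq_getElem?_getD]
      cases h : L[i]? with
      | none => exact val_I
      | some x => exact hL x (List.mem_of_getElem? h)
    rw [wd_cons, evw_cons, ih.2]
    exact ⟨h1.bm ih.1, (M.mul h1 ih.1).symm⟩

theorem evw_mem (ev : ℕ → G) {n : ℕ} {w : List ℕ} (h : allLt n w = true) : evw ev w ∈ gensub ev n := by
  induction w with
  | nil => exact one_mem _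
  | cons i w ih =>
    have h1 : i < n ∧ allLt n w = true := by simpa [allLt] using h
    rw [evw_cons]
    exact mul_mem (mem_gensub h1.1) (ih h1.2)

theorem iso_C {ev : ℕ → G} (hC : Nat.card Cx(z) = 21504) (h1 : ∀ i < 10, ev (HyB.il.getD i 0) = (ev i)⁻¹)
    (h2 : ∀ r ∈ HyB.rels, evw ev r = 1) (h3 : ∀ i < 10, ev i * z = z * ev i) (h4 : Cx(z) ≤ gensub ev 10) :
    Nonempty (Cx(z) ≃* HyB.G) := by
  obtain ⟨ρ, hρ⟩ := HyB.hhom ev h1 h2
  have e : gensub ev 10 = Cx(z) := le_antisymm ((closure_le _).2 (by rintro _ ⟨i, hi, rfl⟩; exact mem_Cx.2 (h3 i hi))) h4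
  exact ⟨((MonoidHom.ofInjective (equiv_of_card hρ HyB.htop HyO.finG (by rw [e, hC]))).trans
    (MulEquiv.subgroupCongr ((range_hom hρ HyB.htop).trans e))).symm⟩

def LM : List ℕ := [17043523, 17043529, 17043535, 17060417, 17059905, 17584193, 17043537, 17045569, 16849281, 17248513]

theorem iso_mod (M : Mod z φ) : Nonempty (Cx(z) ≃* HyB.G) := by
  have hL : ∀ c ∈ LM, val c := by decide
  have v : ∀ i < 10, val (LM.getD i cI) ∧ val (LM.getD (HyB.il.getD i 0) cI) ∧
    bm (LM.getD (HyB.il.getD i 0) cI) (LM.getD i cI) = cI := by decide +kernel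
  refine iso_C (ev := fun i => φ (LM.getD i cI)) M.card_C (fun i hi => eq_inv_of_mul_eq_one_left
    ((M.mul_one_iff (v i hi).2.1 (v i hi).1).2 (v i hi).2.2)) (fun r hr => ?_) (fun i hi => M.com (v i hi).1) fun g hg => ?_
  · have : (HyB.rels.all fun w => Nat.beq (wd LM w) cI) = true := by decide +kernel
    rw [(wd_ev M hL r).2, Nat.eq_of_beq_eq_true (List.all_eq_true.1 this r hr), M.one]
  · obtain ⟨c, hc, rfl⟩ := M.mem_C.1 hg
    refine M.C_le (fun i hi => ?_) hc
    have : ∀ i < 6, ∃ w ∈ [[0], [9, 9, 7, 8, 8], [7], [7, 8, 7, 9, 7, 8, 7, 9], [7, 9, 9, 9, 7, 8, 8, 8, 7], [4, 5]],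
      allLt 10 w = true ∧ wd LM w = lt i := by decide +kernel
    obtain ⟨w, -, h1, h2⟩ := this i hi
    rw [← h2, ← (wd_ev M hL w).2]
    exact evw_mem _ h1

noncomputable def evq (w : List ℕ) : ℕ := List.rec 0 (fun i _ r => frc r (mq (2 ^ i))) w
def ev (ψ : ℕ → G) (x t : G) (i : ℕ) : G := if i < 7 then ψ (2 ^ i) else if i = 7 then t else if i = 8 then x else x⁻¹
noncomputable def okR (w : List ℕ) : Bool := (allLt 7 w && Nat.beq (evq w) 0) ||
  an (fun k => allLt 7 (w.drop 3) && ((w == 8 :: k :: 9 :: w.drop 3 && Nat.beq (mq (lk XT (2 ^ k)) (evq (w.drop 3))) 0) ||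
    (w == 7 :: k :: 7 :: w.drop 3 && Nat.beq (mq (lk (TT 0) (2 ^ k)) (evq (w.drop 3))) 0))) 7 ||
  w == [8, 8, 8, 8, 8, 8, 8] || w == [8, 7, 8, 7, 8, 7] || w == [8, 8, 8, 8, 7, 8, 8, 8, 8, 7, 8, 8, 8, 8, 7, 8, 8, 8, 8, 7]

theorem Q0.evq_eq (D : Q0 z ψ) {w : List ℕ} (h : allLt 7 w = true) : evq w < 128 ∧ evw (ev ψ x t) w = ψ (evq w) := by
  induction w with
  | nil => exact ⟨by decide, D.one.symm⟩
  | cons i w ih =>
    have h1 : i < 7 ∧ allLt 7 w = true := by simpa [allLt] using h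
    have h2 : 2 ^ i < 128 := Nat.pow_lt_pow_right (by omega) h1.1
    rw [show evq (i :: w) = mq (2 ^ i) (evq w) from frc_eq _ _, evw_cons, (ih h1.2).2, ev, if_pos h1.1]
    exact ⟨mq_lt h2 (ih h1.2).1, (D.mul h2 (ih h1.2).1).symm⟩

theorem Dat.mod [Finite G] (D : Dat z x t ψ (TT 0) 0) (hC : Nat.card Cx(z) = 21504) : ∃ φ, Mod z φ := by
  have t2 : t * t = 1 := D.t2.trans (pow_zero z)
  have hT : lk (TT 0) 64 = 64 := by decide +kernel
  have p : ∀ i < 7, 2 ^ i < 128 ∧ mq (2 ^ i) (2 ^ i) = 0 ∧ HyB.il.getD i 0 = i := by decide +kernel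
  have e7 : ev ψ x t 7 = t := rfl
  have e8 : ev ψ x t 8 = x := rfl
  have e9 : ev ψ x t 9 = x⁻¹ := rfl
  obtain ⟨e⟩ := iso_C (ev := ev ψ x t) hC (fun i hi => by
      by_cases h : i < 7
      · rw [(p i h).2.2, ev, if_pos h]
        exact eq_inv_of_mul_eq_one_left (by rw [← D.q.mul (p i h).1 (p i h).1, (p i h).2.1, D.q.one])
      · have : i = 7 ∨ i = 8 ∨ i = 9 := by omega
        rcases this with rfl | rfl | rfl
        exacts [eq_inv_of_mul_eq_one_left t2, rfl, (inv_inv x).symm]) (fun w hw => by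
      have := List.all_eq_true.1 (show HyB.rels.all okR = true by decide +kernel) w hw
      simp only [okR, Bool.or_eq_true, Bool.and_eq_true, an_iff, Nat.beq_eq, beq_iff_eq] at this
      rcases this with (((h | ⟨k, hk, h1, h | h⟩) | rfl) | rfl) | rfl
      · rw [(D.q.evq_eq h.1).2, h.2, D.q.one]
      · rw [h.1, evw_cons, evw_cons, evw_cons, (D.q.evq_eq h1).2, e8, e9, ev, if_pos hk, ← mul_assoc, ← mul_assoc,
          (D.ax _ (p k hk).1).2.2, ← D.q.mul (D.ax _ (p k hk).1).2.1 (D.q.evq_eq (x := x) (t := t) h1).1, h.2, D.q.one]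
      · rw [h.1, evw_cons, evw_cons, evw_cons, (D.q.evq_eq h1).2, e7, ev, if_pos hk, ← mul_assoc, ← mul_assoc]
        nth_rewrite 2 [eq_inv_of_mul_eq_one_left t2]
        rw [(D.ay _ (p k hk).1).2.2, ← D.q.mul (D.ay _ (p k hk).1).2.1 (D.q.evq_eq (x := x) (t := t) h1).1, h.2, D.q.one]
      · simpa [e8, pow_succ, mul_assoc] using D.x7
      · simpa [e7, e8, pow_succ, mul_assoc] using D.xt
      · simpa [e7, e8, pow_succ, mul_assoc] using D.four hT (w := [0, 0, 0, 0, 1]) (g := [0, 1, 0, 0, 0, 0]) (by decide +kernel))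
    (fun i hi => by
      have cx : Commute x z := by simpa using D.comz hT [0]
      unfold ev
      split_ifs with h
      exacts [D.q.com (p i h).1, by simpa using (D.comz hT [1]).eq, cx, cx.inv_left])
    (D.C_le (by omega) (chkA_ok 0 (by omega)) hC (mem_gensub (el := ev ψ x t) (x := 8) (by omega))
      (mem_gensub (el := ev ψ x t) (x := 7) (by omega)) fun c hc => by
        have : ∀ c < 128, allLt 7 ((List.range 7).filter c.testBit) = true ∧ allLt 10 ((List.range 7).filter c.testBit) = true ∧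
          evq ((List.range 7).filter c.testBit) = c := by decide +kernel
        rw [← (this c hc).2.2, ← (D.q.evq_eq (x := x) (t := t) (this c hc).1).2]
        exact evw_mem _ (this c hc).2.1)
  obtain ⟨e0⟩ := iso_mod (modK (⊤ : Subgroup SL5) fun _ _ => @mem_top SL5 _ _)
  refine exists_mod ((⊤ : Subgroup SL5).subtype.comp (Subgroup.subtype _)) (Subtype.val_injective.comp Subtype.val_injective)
    (fun s => ?_) z D.q.ne (e.trans e0.symm)
  have := phiK_val (⊤ : Subgroup SL5) (fun _ _ => @mem_top SL5 _ _) val_Z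
  generalize phiK (⊤ : Subgroup SL5) (fun _ _ => @mem_top SL5 _ _) cZ = y at this ⊢
  rw [← this]
  constructor
  · rintro ⟨⟨g, hg⟩, rfl⟩
    exact congrArg (fun x : (⊤ : Subgroup SL5) => ((x : SL5) : M5)) (mem_Cx.1 hg)
  · exact fun h => ⟨⟨⟨s, mem_top s⟩, mem_Cx.2 (Subtype.ext (Subtype.ext h))⟩, rfl⟩

theorem mod_two [Finite G] (M : Mod z φ)
    (htwo : ∀ a b : G, a * a = 1 → a ≠ 1 → b * b = 1 → b ≠ 1 → ¬ IsConj z a → ¬ IsConj z b → IsConj a b) : IsConj z (φ a1) := by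
  haveI : Fact (Nat.Prime 2) := ⟨Nat.prime_two⟩
  by_contra hn
  have t1 : φ kt ≠ 1 := fun h => absurd ((M.eq_one (by decide)).1 h) (by decide)
  have cj := htwo _ _ ((M.mul_one_iff (by decide) (by decide)).2 (by decide +kernel))
    (fun h => absurd ((M.eq_one (by decide)).1 h) (by decide)) ((M.mul_one_iff (by decide) (by decide)).2 (by decide +kernel))
    t1 hn M.not_t
  obtain ⟨h, -, h1, h2⟩ := extremal M.sylS (u := φ kt) ⟨kt, by decide, by decide, rfl⟩
  have h3 := h2.cj h⁻¹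
  rw [top_inf_eq, cj_Cx, show h⁻¹ * (h * φ kt * h⁻¹) * h⁻¹⁻¹ = φ kt by group] at h3
  have c1 : Nat.card (M.S ⊓ Cx(φ kt) : Subgroup G) = 512 := (M.card_of _ (fun c => inM He.mS c && Nat.beq (bm c kt) (bm kt c)) fun g => by
    simp only [Bool.and_eq_true, Nat.beq_eq]
    constructor
    · rintro ⟨⟨c, hc, h1, rfl⟩, h2⟩
      exact ⟨c, hc, ⟨h1, (M.comm_iff hc (by decide)).1 (mem_Cx.1 h2)⟩, rfl⟩
    · rintro ⟨c, hc, h1, rfl⟩
      exact ⟨⟨c, hc, h1.1, rfl⟩, mem_Cx.2 ((M.comm_iff hc (by decide)).2 h1.2)⟩).trans (by decide +kernel)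
  have h4 := h3.of_card_le (T := M.S ⊓ Cx(φ kt)) (M.sylS.pgrp.to_le inf_le_left) inf_le_right (by
    rw [card_cj, c1]
    have d := card_mul_relIndex (inf_le_left : M.S ⊓ Cx(h * φ kt * h⁻¹) ≤ _)
    rw [M.card_S] at d
    have : (M.S ⊓ Cx(h * φ kt * h⁻¹)).relIndex M.S ≠ 1 := fun e => by
      rcases M.cent_S h1 fun y hy => (mem_Cx.1 (relIndex_eq_one.1 e hy).2).symm with h5 | h5
      · exact t1 (by simpa using h5)
      · exact M.not_t (isConj_iff.2 ⟨h, h5⟩).symm
    generalize (M.S ⊓ Cx(h * φ kt * h⁻¹)).relIndex M.S = n at d this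
    rcases n with _ | _ | n
    · omega
    · omega
    · nlinarith)
  obtain ⟨g, e1, e2⟩ := emb M.sylS.pgrp h4 cj
  have := ncard_le g (A := {y | ∃ c, val c ∧ (inM He.mS c && Nat.beq (bm c c) a1) = true ∧ φ c = y})
    (B := {y | y * z = z * y ∧ y * φ kt = φ kt * y ∧ y * y = φ kt}) (by
      rintro _ ⟨c, hc, h5, rfl⟩
      rw [Bool.and_eq_true, Nat.beq_eq] at h5
      have e3 : φ c * φ c = φ a1 := (M.mul_eq' hc hc (by decide)).2 h5.2
      have := e2 _ ⟨c, hc, h5.1, rfl⟩ (by rw [← e3, mul_assoc])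
      exact ⟨mem_Cx.1 (M.S_le this.1), mem_Cx.1 this.2, by rw [conj_mul, e3, e1]⟩)
  rw [M.ncard, M.rts_eq (by decide) (by decide), show kt = He.rep 3 from rfl, rts_u _ (by omega)] at this
  exact absurd this (by decide +kernel)

theorem held [Finite G] [IsSimpleGroup G] (hz : orderOf z = 2) (Q : Subgroup Cx(z)) [Q.Normal] (hQ : Cfsg.IsExtraspecial 2 Q)
    (hcard : Nat.card Q = 2 ^ 7) (h2c : Cz(Q) ≤ Q) (e : Cx(z) ⧸ Q ≃* SL3) (hG : Nat.card G = 4030387200)
    (htwo : ∃ x y : G, orderOf x = 2 ∧ orderOf y = 2 ∧ ¬ IsConj x y ∧ ∀ z : G, orderOf z = 2 → IsConj z x ∨ IsConj z y) :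
    Cfsg.Spor.IsoHe G := by
  haveI : Fact (Nat.Prime 2) := ⟨Nat.prime_two⟩
  have two : ∀ a b : G, a * a = 1 → a ≠ 1 → b * b = 1 → b ≠ 1 → ¬ IsConj z a → ¬ IsConj z b → IsConj a b := by
    obtain ⟨x, y, -, -, -, h⟩ := htwo
    intro a b a1 a2 b1 b2 a3 b3
    have ha := h a (orderOf_eq_prime (by rwa [pow_two]) a2)
    have hb := h b (orderOf_eq_prime (by rwa [pow_two]) b2)
    rcases h z hz with h | h
    · exact (ha.resolve_left fun e => a3 (h.trans e.symm)).trans (hb.resolve_left fun e => b3 (h.trans e.symm)).symm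
    · exact (ha.resolve_right fun e => a3 (h.trans e.symm)).trans (hb.resolve_right fun e => b3 (h.trans e.symm)).symm
  obtain ⟨hC, x, t, ψ, i, hi, e, he, D⟩ := exists_dat hz Q hQ hcard h2c e
  have no : ∀ {Q}, ¬ chk (mS (AT i) e) Q 63 = true := fun hk => by
    obtain ⟨c, h, -⟩ := D.fused he (chkA_ok i hi) hC hz hG hk
    simp only [inA, Bool.and_eq_true, Bool.not_eq_true'] at h
    rw [h.1.2] at h
    exact absurd h.2 (by decide)
  interval_cases i <;> interval_cases e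
  · obtain ⟨φ, M⟩ := D.mod hC
    have hL : Nat.card SL5 = 9999360 := by
      obtain ⟨a⟩ := isoL
      rw [← Nat.card_congr a.toEquiv, HxLG.card]
    rcases M.main (Or.inl (mod_two M two)) with ⟨v, -, ⟨a⟩⟩ | ⟨⟨a⟩⟩ | ⟨⟨a⟩⟩ | h
    · have := card_le_card_group (MulAction.stabilizer SL5 v)
      rw [← Nat.card_congr a.toEquiv] at this
      omega
    · have := Nat.card_congr a.toEquiv
      omega
    · have := M24.card_le
      rw [← Nat.card_congr a.toEquiv] at this
      omega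
    · exact h
  · exact absurd chk01 no
  · exact absurd chk10 no
  · exact (D.exclB he (chkA_ok 1 hi) hC hz hG chk11 (by omega) chkB11 two).elim
  · exact (D.exclB he (chkA_ok 2 hi) hC hz hG chk20 (by omega) chkB20 two).elim
  · exact absurd chk21 no

end CfH3.Hf
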