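import Cfsg.Agent.OD.Pre
import Cfsg.Agent.H3.He0
/-! Codes for the six-dimensional module over the field of order four. -/
set_option autoImplicit false
set_option maxRecDepth 100000
namespace CfH3.J4
open CfH3.He

/-- the linear map with the images `l` of the basis -/
noncomputable def ext (l : List ℕ) : ℕ → ℕ :=
  List.rec (fun _ => 0) (fun a _ ih c => Nat.xor (Nat.mul a (Nat.land c 1)) (ih (Nat.shiftRight c 1))) l
def par (x : ℕ) : ℕ := Nat.land (Nat.shiftRight 0x6996966996696996 x) 1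
def lo6 (c : ℕ) : ℕ := Nat.land c 63
def hi6 (c : ℕ) : ℕ := Nat.land (Nat.shiftRight c 6) 63
def qq (c : ℕ) : ℕ := par (Nat.land (lo6 c) (hi6 c))
def bb (a b : ℕ) : ℕ := par (Nat.xor (Nat.land (lo6 a) (hi6 b)) (Nat.land (hi6 a) (lo6 b)))
def mA (x : ℕ) : List ℕ := [[1, 2, 4, 8, 16, 32, 96, 144, 304, 544, 1062, 2077], [1, 2, 4, 8, 16, 32, 80, 176, 304, 544, 1063, 2078],
  [1, 2, 1536, 3328, 798, 551, 2114, 3201, 3080, 1028, 1024, 2048], [44, 52, 41, 62, 61, 22, 1280, 2560, 3776, 1856, 3712, 1984],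
  [1, 2, 36, 56, 16, 32, 80, 176, 304, 544, 1543, 2830]].getD x []
def mR : List ℕ := [2, 3, 8, 12, 32, 48, 192, 64, 768, 256, 3072, 1024]
def mK : List ℕ := [2, 1, 10, 5, 16, 48, 672, 368, 512, 256, 3074, 2051]

theorem ext_nil (c : ℕ) : ext [] c = 0 := rfl
theorem ext_cons (a : ℕ) (l : List ℕ) (c : ℕ) : ext (a :: l) c = (a * (c % 2)) ^^^ ext l (c / 2) := by
  show (a * (c &&& 1)) ^^^ ext l (c >>> 1) = _
  rw [Nat.and_one_is_mod, Nat.shiftRight_one]

theorem ext_xor (l : List ℕ) (a b : ℕ) : ext l (a ^^^ b) = ext l a ^^^ ext l b := by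
  induction l generalizing a b with
  | nil => simp [ext_nil]
  | cons x l ih =>
    rw [ext_cons, ext_cons, ext_cons, Nat.xor_div_two, ih, Nat.xor_mod_two_eq]
    rcases Nat.mod_two_eq_zero_or_one a with h | h <;> rcases Nat.mod_two_eq_zero_or_one b with h' | h' <;>
      simp [Nat.add_mod, h, h', Nat.xor_assoc, Nat.xor_comm, Nat.xor_left_comm]

theorem ext_zero (l : List ℕ) : ext l 0 = 0 := by
  have := ext_xor l 0 0
  rwa [Nat.xor_self, Nat.xor_self] at this

theorem ext_lt {n : ℕ} {l : List ℕ} (h : ∀ a ∈ l, a < 2 ^ n) (c : ℕ) : ext l c < 2 ^ n := by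
  induction l generalizing c with
  | nil => exact Nat.two_pow_pos n
  | cons x l ih =>
    rw [ext_cons]
    refine Nat.xor_lt_two_pow ?_ (ih (fun a ha => h a (List.mem_cons_of_mem _ ha)) _)
    rcases Nat.mod_two_eq_zero_or_one c with e | e <;> rw [e]
    · exact Nat.two_pow_pos n
    · rw [mul_one]; exact h x List.mem_cons_self

end CfH3.J4
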