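import Cfsg.Agent.H3.JvE
import Cfsg.Agent.H3.JvD
import Cfsg.Agent.H9.Basic2
import Cfsg.Agent.OD.Helper3x980d94a12c
/-! The normaliser of the subgroup of order `2 ^ 11` is a split extension by `M₂₄`. -/
set_option autoImplicit false
set_option maxRecDepth 100000
set_option linter.unusedSectionVars false
open Subgroup CfH9 CfH6 CfH5 CfH4.Gol Cfsg
namespace CfH3.J4
open CfH3.He

variable {G : Type*} [Group G] {z k g h n x y : G} {ψ ev φ : ℕ → G} {e1 e2 : ℕ} {S : Subgroup G} {π : Equiv.Perm GolayPt}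

noncomputable def φ1 (z : G) (ψ ev : ℕ → G) (k : G) (c : ℕ) : G := φ0 z ψ ev k (ext Tm c)
theorem tm_lt (c : ℕ) : ext Tm c < 2048 := ext_lt (n := 11) (by decide) c
theorem ti_lt (c : ℕ) : ext Ti c < 2048 := ext_lt (n := 11) (by decide) c
theorem k1_spec {c : ℕ} (hc : c < 2048) : ext Tm (ext Ti c) = c ∧ ext Ti (ext Tm c) = c ∧
    (isD c = true ↔ c ≠ 0 ∧ ib 1 102 (ext Tm c) ≠ 1) ∧ (isD c = true → 3 ≤ ty 1 (ext Tm c)) := by
  have := al_iff.1 k1 c hc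
  simp only [frc_eq, Bool.and_eq_true, Nat.beq_eq, beq_iff_eq, Bool.or_eq_true, Bool.not_eq_true', Nat.ble_eq] at this
  refine ⟨this.1.1, this.1.2, ?_, fun h => this.2.2.resolve_left (by simp [h])⟩
  rw [this.2.1]
  simp only [Bool.and_eq_true, Bool.not_eq_true', Bool.eq_false_iff, Ne, Nat.beq_eq]
theorem VA.cen2 (D : VD φ) {f f' : ℕ → ℕ} (h1 : VA φ g f) (h2 : VA φ h f') (e : ∀ i < 11, f (2 ^ i) = f' (2 ^ i)) : g⁻¹ * h ∈ Cz(D.V) := by
  refine mem_centralizer_iff.2 ?_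
  rintro _ ⟨c, hc, rfl⟩
  exact JV.ind2 (P := fun c => φ c * (g⁻¹ * h) = g⁻¹ * h * φ c) (by rw [D.one]; simp) (fun i hi => by
    have a := (h1 _ (Nat.pow_lt_pow_right one_lt_two hi)).2
    rw [e i hi, ← (h2 _ (Nat.pow_lt_pow_right one_lt_two hi)).2] at a
    calc _ = g⁻¹ * (g * φ (2 ^ i) * g⁻¹) * h := by group
      _ = _ := by rw [a]; group) (fun a ha b hb h1 h2 => by rw [D.mul ha hb, mul_assoc, h2, ← mul_assoc, h1, mul_assoc]) c hc
theorem evw_map (f : ℕ → G) (m : ℕ → ℕ) (w : List ℕ) : evw f (w.map m) = evw (fun i => f (m i)) w := by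
  induction w with
  | nil => rfl
  | cons i w ih => rw [List.map_cons, evw_cons, ih, evw_cons]
theorem mX : M24I.pX ∈ M24 := mem_M24 rfl (by decide +kernel)
theorem mY : M24I.pU * M24I.pV ∈ M24 := mul_mem (mem_M24 rfl (by decide +kernel)) (mem_M24 rfl (by decide +kernel))

local notation "L" => lt z ψ ev k
local notation "φ₀" => φ0 z ψ ev k
local notation "φ₁" => φ1 z ψ ev k
local notation "PP" => Pg z ψ ev k
local notation "Γ" => gl z ψ ev k x y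

theorem GA.ne [Finite G] (A : GA z ψ ev k x y 1) (cz : Cz(A.d.vd.V) ≤ A.d.vd.V) : False := by
  have D := A.d
  have h1 := cz ((A.vw (w := 6 :: sig) (by decide)).cen2 D.vd (A.vw (w := sig ++ [13]) (by decide)) fun i hi => (k2.1 i hi).2.2)
  obtain ⟨c, hc, e⟩ := (mem_normalizer_iff.1 ((A.vw (w := sig) (by decide)).nm D.vd) _).1 h1
  have h2 : Γ 13 * Γ 13 = 1 := by
    rw [gl_c (by decide), show cwd 13 = [256 + 32] from rfl, evw_cons, evw_nil, mul_one, lt_q, ← D.q.mul (by omega) (by omega),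
      show mq 256 256 = 0 by decide +kernel, D.q.one]
  have h3 : Γ 6 * Γ 6 = φ₀ 64 := by
    have := (D.cv_sound k2.2.1 (by omega)).2
    rw [gl_c (by decide), ← evw_append, D.vz]; exact this.trans D.q.hz
  have h4 := A.va (i := 6) (by decide) c hc
  rw [evw_cons, evw_append, evw_cons, evw_nil, mul_one] at e
  generalize evw Γ sig = g at e
  have h5 : φ₀ (ext (gm 6) c ^^^ (64 ^^^ c)) = 1 := by
    rw [D.vd.mul h4.1 (xor_lt (by omega) hc), D.vd.mul (by omega) hc, ← h4.2, ← h3, e]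
    calc _ = g * (Γ 13 * Γ 13) * g⁻¹ := by group
      _ = 1 := by rw [h2]; group
  simpa [xor_eq, D.vd.inj (xor_lt h4.1 (xor_lt (by omega) hc)) h5] using al_iff.1 k2.2.2 c hc

namespace CD
section
variable (D : CD z ψ ev k e1 e2)
include D
theorem vd1 : VD φ₁ := ⟨fun _ _ => by rw [φ1, ext_xor, D.vd.mul (tm_lt _) (tm_lt _)]; rfl, fun {a} ha h => by
  rw [← (k1_spec ha).2.1, D.vd.inj (tm_lt a) h, ext_zero]⟩
theorem V1 : D.vd1.V = D.vd.V := le_antisymm (by rintro _ ⟨c, -, rfl⟩; exact D.vd.mem (tm_lt c)) (by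
  rintro _ ⟨c, hc, rfl⟩
  exact ⟨_, ti_lt c, by rw [φ1, (k1_spec hc).1]⟩)
theorem ind_va (h : Ind φ₁ n π) {M : List ℕ} (hl : ∀ x ∈ M, x < 2048)
    (hM : ∀ i < 11, ext M (ext Tm (2 ^ i)) = ext Tm (dd (π (pt 11)) (π (pt i)))) : VA φ₀ n (ext M) := fun c hc => ⟨ext_lt (n := 11) hl c, by
  rw [← (k1_spec hc).1]
  exact JV.ind2 (P := fun c => n * φ₀ (ext Tm c) * n⁻¹ = φ₀ (ext M (ext Tm c))) (by rw [ext_zero, ext_zero, D.vd.one]; simp)
    (fun i hi => by rw [hM i hi, JV.pow_dd i hi]; exact h _ _) (fun a _ b _ h1 h2 => by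
      rw [ext_xor, ext_xor, D.vd.mul (tm_lt _) (tm_lt _), D.vd.mul (ext_lt (n := 11) hl _) (ext_lt (n := 11) hl _), ← h1, ← h2, conj_mul])
    _ (ti_lt c)⟩
theorem ind_kv {θ : M24 →* G} (hθ : ∀ π, Ind φ₁ (θ π) π) : ∀ g ∈ θ.range, g ∈ D.vd.V → g = 1 := by
  rintro _ ⟨π, rfl⟩ h
  rw [show π = 1 from Subtype.ext ((hθ π).uniq D.vd1 (Ind.of_cen D.vd1 (D.vd1.le_Cz (D.V1 ▸ h)))), map_one]
theorem ind_cj {θ : M24 →* G} (hθ : ∀ π, Ind φ₁ (θ π) π) {v a : ℕ} (hv : v < 2048) (ha : a < 2) :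
    ∃ θ' : M24 →* G, (∀ π, Ind φ₁ (θ' π) π) ∧ ∀ π, θ' π = φ₀ v * (φ₀ (a * ext Tm (dd (pt 2) (π.1 (pt 2)))) * θ π) * (φ₀ v)⁻¹ := by
  have c : ∀ {c}, c < 2048 → Ind φ₁ (φ₀ c) 1 := fun hc => Ind.of_cen D.vd1 (D.vd1.le_Cz (D.V1 ▸ D.vd.mem hc))
  obtain ⟨θ', h1, h2⟩ : ∃ θ' : M24 →* G, (∀ π, Ind φ₁ (θ' π) π) ∧ ∀ π, θ' π = φ₀ (a * ext Tm (dd (pt 2) (π.1 (pt 2)))) * θ π := by
    interval_cases a
    · exact ⟨θ, hθ, fun π => by rw [zero_mul, D.vd.one, one_mul]⟩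
    · refine ⟨MonoidHom.mk' (fun π => φ₁ (dd (pt 2) (π.1 (pt 2))) * θ π) fun π σ => ?_, fun π => ?_, fun π => by rw [one_mul]; rfl⟩
      · rw [map_mul, mul_assoc, ← mul_assoc (θ π), mul_inv_eq_iff_eq_mul.1 (hθ π _ _), ← mul_assoc,
          ← mul_assoc, ← mul_assoc, ← D.vd1.mul (dd_lt _ _) (dd_lt _ _), JV.dd_comm (pt 2) (π.1 _), JV.dd_xor]
        rfl
      · simpa [φ1] using (c (tm_lt _)).mul (hθ π)
  exact ⟨(MulAut.conj (φ₀ v)).toMonoidHom.comp θ', fun π => by simpa using ((c hv).mul (h1 π)).mul (c hv).inv, fun π => by rw [← h2]; rfl⟩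
theorem lt_tw {i : ℕ} (hi : okl i = true) : lt z ψ ev (z * k) i = z ^ cnt (SUB i) * L i := by
  rcases okl_iff.1 hi with hi | hi
  · have f : ∀ l : List ℕ, (∀ x ∈ l, x < 9) → evw (l0 ev (z * k)) l = z ^ cnt l * evw (l0 ev k) l := fun l hl => by
      induction l with
      | nil => simp [cnt]
      | cons i l ih =>
        rw [List.forall_mem_cons] at hl
        have : l0 ev (z * k) i = z ^ dn i * l0 ev k i := by
          have := hl.1
          interval_cases i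
          iterate 5 exact (one_mul _).symm.trans (congrArg (· * _) (pow_zero z).symm)
          · exact congrArg (· * _) (pow_one z).symm
          iterate 2 exact (one_mul _).symm.trans (congrArg (· * _) (pow_zero z).symm)
          · show (z * k)⁻¹ = z ^ 3 * k⁻¹
            rw [D.q.pz, pow_one, mul_inv_rev, inv_eq_of_mul_eq_one_right D.q.zz, mem_Cx.1 (inv_mem D.mk')]
        rw [evw_cons, evw_cons, ih hl.2, this, cnt_cons, pow_add, mul_assoc, mul_assoc, ← mul_assoc (l0 _ _ _), D.zc' _ (D.m0 i), mul_assoc]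
    rw [lt_l (by omega), lt_l (by omega), f _ (sub_aux.1 i hi).1, ← mul_assoc, ← mul_assoc, ← pow_add, ← pow_add, add_comm]
  · obtain ⟨c, rfl⟩ := Nat.exists_eq_add_of_le' hi.1
    rw [lt_q, lt_q, (sub_big hi.1).1]; exact (one_mul _).symm.trans (congrArg (· * _) (pow_zero z).symm)
theorem φ_tw : φ1 z ψ ev (z * k) = φ₁ := funext fun c => by
  rw [φ1, φ1, φ0_eq, φ0_eq, evw_ext (f' := L) fun i hi => ?_]
  have := (by decide +kernel : ∀ j < 16, ∀ i ∈ ew j, okl i = true ∧ cnt (SUB i) = 0) _ (w0_spec (tm_lt c)).2.2.2.2 i hi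
  rw [D.lt_tw this.1, this.2, pow_zero, one_mul]
end
theorem ga (D : CD z ψ ev k 1 e2) (hx : Ind φ₁ x M24I.pX) (hy : Ind φ₁ y (M24I.pU * M24I.pV)) : GA z ψ ev k x y e2 :=
  ⟨D, D.ind_va hx (g1.2.2.1 0 (by omega)) fun i hi => (k2.1 i hi).1, D.ind_va hy (g1.2.2.1 1 (by omega)) fun i hi => (k2.1 i hi).2.1⟩

variable [Finite G]
theorem split6 (D : CD z ψ ev k 1 0) : ∃ K : Subgroup G, D.vd.V ⊓ K = ⊥ ∧ D.vd.V ⊔ K = PP := by
  let e7 := fun i => gl z ψ ev k 1 1 (m7 i)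
  have c1 := (JvT.covers e7 ⊥ (fun i hi => eq_inv_of_mul_eq_one_left (by
    simpa [D.q.one] using D.cg_sound (x := 1) (y := 1) (k3.2.1 i hi).1 (by omega))) (fun r hr => by
      rw [← evw_map, D.cg_sound (k3.1 r hr) (by omega), D.q.one]) fun _ h => nomatch h).card_le (m := 1) ⟨inferInstance, by simp⟩
  let Q6 : Subgroup G := mkSub (fun g => ∃ j < 64, ψ (64 * j) = g) ⟨0, by omega, D.q.one⟩ (by
    rintro _ _ ⟨a, ha, rfl⟩ ⟨b, hb, rfl⟩
    exact ⟨_, Nat.xor_lt_two_pow (n := 6) ha hb, by rw [← k3.2.2.1 a ha b hb, D.q.mul (by omega) (by omega)]⟩)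
  have c2 : Nat.card Q6 ≤ 64 := (Nat.card_le_card_of_surjective (fun j : Fin 64 => (⟨_, j, j.2, rfl⟩ : Q6)) (by
    rintro ⟨_, j, hj, rfl⟩; exact ⟨⟨j, hj⟩, rfl⟩)).trans (by simp)
  have c3 := card_sup_mul_card_inf (A := gensub e7 7) (B := Q6) (gensub_le fun i hi => mem_normalizer_fintype (by
    rintro _ ⟨j, hj, rfl⟩
    obtain ⟨-, h1, h2, -, h3⟩ := k3.2.1 i hi
    obtain ⟨j', hj', e⟩ := h3 j hj
    exact ⟨j', hj', by rw [← e, ← ((D.actw h2).1 _ (by omega)).2, ← gl_c (x := 1) (y := 1) h1]⟩))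
  have c4 : gensub e7 7 ⊔ Q6 ≤ PP := sup_le (gensub_le fun i hi => by
    obtain ⟨-, h1, -, h2, -⟩ := k3.2.1 i hi
    rw [show e7 i = _ from gl_c h1]
    exact D.wP h2) (by rintro _ ⟨j, hj, rfl⟩; exact D.qP (by omega))
  have c5 : D.vd.V ⊔ (gensub e7 7 ⊔ Q6) = PP := le_antisymm (sup_le D.VP c4) (gensub_le fun j hj => by
    rcases (by decide : ∀ j < 23, (∃ i < 7, okc (m7 i) = true ∧ cwd (m7 i) = [gp j]) ∨ (∃ i < 4, w0 (128 * 2 ^ i) = [32, gp j]) ∨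
      (∃ a < 64, gp j = a + 32) ∨ (∃ a < 64, gp j = 64 * a + 32) ∨ gp j = 4096 + 32) j hj with
      ⟨i, hi, h1, e⟩ | ⟨i, hi, e⟩ | ⟨a, ha, e⟩ | ⟨a, ha, e⟩ | e
    · have : e7 i ∈ gensub e7 7 := mem_gensub hi
      simp only [e7, gl_c h1, e, evw_cons, evw_nil, mul_one] at this
      exact mem_sup_right (mem_sup_left this)
    · have := D.vd.mem (a := 128 * 2 ^ i) (by interval_cases i <;> omega)
      rw [φ0, e, evw_cons, evw_cons, evw_nil, mul_one, lt_q (c := 0), D.q.one, one_mul] at this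
      exact mem_sup_left this
    · rw [e, lt_q]; exact mem_sup_left (D.vx ha)
    · rw [e, lt_q]; exact mem_sup_right (mem_sup_right ⟨a, ha, rfl⟩)
    · rw [e, lt_q, D.q.hz]; exact mem_sup_left ⟨64, by omega, D.vz⟩)
  refine ⟨_, ?_, c5⟩
  have c6 := card_sup_mul_card_inf (c4.trans D.PN)
  rw [sup_comm, c5, D.cardP, D.vd.card, inf_comm] at c6
  have p1 : 0 < Nat.card (gensub e7 7 ⊓ Q6 : Subgroup G) := Nat.card_pos
  have c7 : Nat.card (gensub e7 7 ⊔ Q6 : Subgroup G) ≤ 2160 * 64 :=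
    (Nat.le_mul_of_pos_right _ p1).trans (c3 ▸ Nat.mul_le_mul c1.2 c2)
  exact eq_bot_of_card_le _ (by omega)

variable [IsSimpleGroup G] (D : CD z ψ ev k e1 e2) (J : JF D.vd.V S z) (cz : Cz(D.vd.V) ≤ D.vd.V)
include J cz
theorem isD_iff {c : ℕ} (hc : c < 2048) : isD c = true ↔ φ₁ c ≠ 1 ∧ ¬ IsConj z (φ₁ c) := by
  rw [(k1_spec hc).2.2.1, φ1, (D.orb J cz).2.1 _ (tm_lt c)]
  exact and_congr_left' ⟨fun h e => h (D.vd1.inj hc e), fun h e => h (e ▸ D.vd1.one)⟩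
theorem hw : ∀ n ∈ Nm(D.vd1.V), ∃ π ∈ M24, Ind φ₁ n π := fun n hn => whitney D.vd1 fun c hc => by
  obtain ⟨a, ha, e⟩ := (mem_normalizer_iff.1 hn _).1 (D.vd1.mem hc)
  refine ⟨a, ha, e.symm, fun h => ?_⟩
  rw [D.isD_iff J cz hc] at h
  rw [D.isD_iff J cz ha, e]
  exact ⟨fun e => h.1 (conj_eq_one_iff.1 e), fun e => h.2 (e.trans (isConj_iff.2 ⟨n, rfl⟩).symm)⟩
theorem hs : ∀ π ∈ M24, ∃ n ∈ Nm(D.vd1.V), Ind φ₁ n π := surj D.vd1 (D.V1 ▸ cz) (D.hw J cz) (by rw [D.V1, (D.orb J cz).2.2])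
theorem dec {θ : M24 →* G} (hθ : ∀ π, Ind φ₁ (θ π) π) (hn : n ∈ Nm(D.vd.V)) : ∃ c < 2048, ∃ π, φ₀ c * n = θ π := by
  obtain ⟨π, h1, h2⟩ := D.hw J cz n (D.V1 ▸ hn)
  obtain ⟨c, hc, e⟩ := cz (D.V1 ▸ Ind.cen D.vd1 (by simpa using (hθ ⟨π, h1⟩).mul h2.inv))
  exact ⟨c, hc, ⟨π, h1⟩, by rw [e, inv_mul_cancel_right]⟩
theorem e20 : e2 = 0 := by
  obtain rfl := (D.orb J cz).1
  by_contra h
  obtain rfl : e2 = 1 := by have := D.h2; omega
  obtain ⟨x, -, hx⟩ := D.hs J cz _ mX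
  obtain ⟨y, -, hy⟩ := D.hs J cz _ mY
  exact (D.ga hx hy).ne cz
end CD

theorem dw_cons (d : ℕ → ℕ) (i : ℕ) (w : List ℕ) : dw d (i :: w) = d i ^^^ ext (gm i) (dw d w) :=
  frc_eq (dw d w) fun r => Nat.xor (d i) (ext (gm i) r)
theorem dw_congr {d d' : ℕ → ℕ} {w : List ℕ} (h : ∀ i ∈ w, d i = d' i) : dw d w = dw d' w := by
  induction w with
  | nil => rfl
  | cons i w ih => rw [List.forall_mem_cons] at h; rw [dw_cons, dw_cons, h.1, ih h.2]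
theorem GA.cj (A : GA z ψ ev k x y e2) {i v d : ℕ} (hi : okn i = true) (hv : v < 2048) (hd : d < 2048) :
    φ₀ v * (φ₀ d * Γ i) * (φ₀ v)⁻¹ = φ₀ (v ^^^ d ^^^ ext (gm i) v) * Γ i := by
  rw [A.d.vd.mul (xor_lt hv hd) (A.va hi v hv).1, A.d.vd.mul hv hd, ← (A.va hi v hv).2, ← eq_inv_of_mul_eq_one_left (A.d.vd.sq hv)]
  group
theorem GA.dw0 (A : GA z ψ ev k x y 0) {K : Subgroup G} (kv : ∀ g ∈ K, g ∈ A.d.vd.V → g = 1) {d : ℕ → ℕ} {w : List ℕ}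
    (h : ∀ i ∈ w, okn i = true ∧ d i < 2048 ∧ φ₀ (d i) * Γ i ∈ K) (c : cg w = 0) : dw d w = 0 := by
  have : dw d w < 2048 ∧ φ₀ (dw d w) * evw Γ w ∈ K := by
    clear c
    induction w with
    | nil => exact ⟨show 0 < 2048 by omega, by simp [dw, A.d.vd.one]⟩
    | cons i w ih =>
      rw [List.forall_mem_cons] at h
      obtain ⟨h1, h2⟩ := ih h.2
      have a := A.va h.1.1 _ h1
      rw [dw_cons, A.d.vd.mul h.1.2.1 a.1, ← a.2, evw_cons]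
      exact ⟨xor_lt h.1.2.1 a.1, by simpa only [mul_assoc, inv_mul_cancel_left] using mul_mem h.1.2.2 h2⟩
  rw [A.d.cg_sound c (by omega), A.d.q.one, mul_one] at this
  exact A.d.vd.inj this.1 (kv _ this.2 (A.d.vd.mem this.1))

structure FD (z : G) (ψ ev : ℕ → G) (k : G) (θ : M24 →* G) : Prop where
  d : CD z ψ ev k 1 0
  ind : ∀ π, Ind (φ1 z ψ ev k) (θ π) π
  hk : ∀ i ∈ K7, evw (lt z ψ ev k) (cwd i) ∈ θ.range

theorem GA.fd (A : GA z ψ ev k x y 0) {θ : M24 →* G} (hθ : ∀ π, Ind φ₁ (θ π) π)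
    (dec : ∀ i, okn i = true → ∃ c < 2048, ∃ π, φ₀ c * Γ i = θ π) (h4 : Γ 4 ∈ θ.range) : ∃ k θ, FD z ψ ev k θ := by
  have D := A.d
  have h5 : Γ 5 ∈ θ.range := by
    rw [show Γ 5 = (Γ 4)⁻¹ from eq_inv_of_mul_eq_one_left (by
      simpa [D.q.one, gil] using D.cg_sound (x := x) (y := y) (g1.2.2.2.2 4 (by omega) rfl) (by omega))]
    exact inv_mem h4
  choose! δ hδ using dec
  let F := [δ 6, δ 7, δ 8, δ 9, δ 10, δ 11]
  have hF : ∀ i, 4 ≤ i → i ≤ 11 → okn i = true ∧ dl F i < 2048 ∧ φ₀ (dl F i) * Γ i ∈ θ.range := fun i h1 h2 => by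
    interval_cases i
    · exact ⟨rfl, show 0 < 2048 by omega, by rw [show dl F 4 = 0 from rfl, D.vd.one, one_mul]; exact h4⟩
    · exact ⟨rfl, show 0 < 2048 by omega, by rw [show dl F 5 = 0 from rfl, D.vd.one, one_mul]; exact h5⟩
    all_goals exact ⟨rfl, (hδ _ rfl).1, (hδ _ rfl).2.imp fun _ => Eq.symm⟩
  have z0 : ∀ w, cg w = 0 → (∀ i ∈ w, 4 ≤ i ∧ i ≤ 11) → dw (dl F) w = 0 := fun w c h =>
    A.dw0 (D.ind_kv hθ) (fun i hi => hF i (h i hi).1 (h i hi).2) c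
  have c6 : ∀ j < 6, dl F (6 + j) ∈ C6.getD j [] := fun j hj => by
    have := al_iff.1 (Bool.and_eq_true_iff.1 (al_iff.1 k4 _ (hF (6 + j) (by omega) (by omega)).2.1)).2 j hj
    simp only [Bool.or_eq_true, List.contains_iff_mem, List.any_eq_true, Bool.not_eq_true', Bool.eq_false_iff, Ne, Nat.beq_eq] at this
    refine this.resolve_right fun ⟨w, hw, e⟩ => e ?_
    obtain ⟨h1, h2⟩ := (k3.2.2.2.2.2 j hj).1 w hw
    refine (dw_congr fun i hi => ?_).trans (z0 w h1 fun i hi => by have := h2 i hi; omega)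
    rcases h2 i hi with rfl | rfl | rfl
    exacts [rfl, rfl, by rw [blt_f (by omega)]; rfl]
  have lj : ∀ j < 6, lv (F.take (j + 1)) j = true := fun j hj => List.all_eq_true.2 fun w hw => by
    obtain ⟨h1, h2⟩ := (k3.2.2.2.2.2 j hj).2 w hw
    rw [Nat.beq_eq]
    refine (dw_congr fun i hi => ?_).trans (z0 w h1 fun i hi => by have := h2 i hi; omega)
    have := h2 i hi
    rw [dl, dl, List.getD_eq_getElem?_getD, List.getD_eq_getElem?_getD, List.getElem?_take_of_lt (show i.sub 6 < j + 1 from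
      show i - 6 < j + 1 by omega)]
  have := k5 _ (c6 0 (by omega)) _ (c6 1 (by omega)) (lj 1 (by omega)) _ (c6 2 (by omega)) (lj 2 (by omega)) _ (c6 3 (by omega))
    (lj 3 (by omega)) _ (c6 4 (by omega)) (lj 4 (by omega)) _ (c6 5 (by omega)) (lj 5 (by omega))
  change fin F = true at this
  simp only [fin, an_iff, List.all_eq_true, Nat.beq_eq, xor_eq, Nat.mul_eq] at this
  obtain ⟨m, hm, a, ha, b, hb, e⟩ := this
  obtain ⟨θ', h1, h2⟩ := D.ind_cj hθ (v := 64 * m) (by omega) ha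
  have h3 : ∀ i ∈ K7, z ^ (b * o7 i) * evw L (cwd i) ∈ θ'.range := fun i hi => by
    obtain ⟨i1, i2, i3, i4, i5⟩ := (by decide : ∀ i ∈ K7, 4 ≤ i ∧ i ≤ 11 ∧ okc i = true ∧ pc i < 2048 ∧ o7 i < 2) i hi
    obtain ⟨f1, f2, π, f3⟩ := hF i i1 i2
    have f4 : ∀ p, ∃ q, ext Tm (dd (π.1 (pt 2)) q) = ext (gm i) (ext Tm (dd (pt 2) p)) := fun p => ⟨_, D.vd.eq (tm_lt _) (A.va f1 _ (tm_lt _)).1 (by
      have := hθ π (pt 2) p
      rw [f3, mul_inv_rev, show ∀ a b c d e : G, a * b * c * (d * e) = a * (b * c * d) * e from fun _ _ _ _ _ => by group, φ1,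
        (A.va f1 _ (tm_lt _)).2, D.vd.comm (D.vd.mem f2) (D.vd.mem (A.va f1 _ (tm_lt _)).1), mul_inv_cancel_right] at this
      exact this.symm)⟩
    have a2 : a * pc i < 2048 := by interval_cases a <;> omega
    refine ⟨π, ?_⟩
    rw [h2, k6 i hi _ (f4 _) (f4 _), f3, ← mul_assoc (φ₀ (a * _)), ← D.vd.mul a2 f2, A.cj f1 (by omega) (xor_lt a2 f2), e i hi, gl_c i3]
    congr 1
    have : b * o7 i < 2 := by nlinarith
    interval_cases b * o7 i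
    exacts [D.vd.one.trans (pow_zero _).symm, D.vz.trans (pow_one _).symm]
  interval_cases b
  · exact ⟨k, θ', D, h1, by simpa using h3⟩
  · refine ⟨z * k, θ', D.twist, D.φ_tw ▸ h1, fun i hi => ?_⟩
    obtain ⟨l, -, l1, l2, l3⟩ := (by decide +kernel : ∀ i ∈ K7, ∃ l ∈ cwd i, okl l = true ∧ cwd i = [l] ∧ cnt (SUB l) % 2 = o7 i) i hi
    have := h3 i hi
    rw [l2, evw_cons, evw_nil, mul_one] at this ⊢
    rwa [one_mul, ← l3, ← D.q.pz, ← D.lt_tw l1] at this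

theorem CD.fd [Finite G] [IsSimpleGroup G] (D : CD z ψ ev k e1 e2) (J : JF D.vd.V S z) (cz : Cz(D.vd.V) ≤ D.vd.V) : ∃ k θ, FD z ψ ev k θ := by
  obtain rfl := (D.orb J cz).1
  obtain rfl := D.e20 J cz
  obtain ⟨K, h1, h2⟩ := D.split6
  have c := card_mul_relIndex D.PN
  rw [D.cardP, (D.orb J cz).2.2] at c
  obtain ⟨θ, hθ, -⟩ := split D.vd1 (D.V1 ▸ cz) (D.hw J cz) (D.hs J cz) (T := PP) (K := K) (by rw [D.V1]; exact D.PN)
    (by rw [D.V1, show relIndex _ _ = 1771 by omega]; decide) (by rw [D.V1, h1]) (by rw [D.V1, h2])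
  have A := D.ga (hθ ⟨_, mX⟩) (hθ ⟨_, mY⟩)
  obtain ⟨c, hc, π, e⟩ := D.dec J cz hθ ((A.va (i := 4) rfl).nm D.vd)
  have := A.dw0 (D.ind_kv hθ) (d := fun _ => c) (w := [4, 4, 4]) (fun i hi => by
    rw [show i = 4 by simpa using hi]; exact ⟨rfl, hc, π, e.symm⟩) k3.2.2.2.2.1
  have h4 := (Bool.and_eq_true_iff.1 (al_iff.1 J4.k4 c hc)).1
  rw [this] at h4
  obtain ⟨θ', h1, h2⟩ := D.ind_cj hθ (A.va (i := 4) rfl c hc).1 (a := 0) (by omega)
  exact A.fd h1 (fun i hi => D.dec J cz h1 ((A.va hi).nm D.vd)) ⟨π, by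
    rw [h2, zero_mul, D.vd.one, one_mul, ← e, A.cj rfl (A.va (i := 4) rfl c hc).1 hc, show _ ^^^ c ^^^ _ = 0 from Nat.eq_of_beq_eq_true h4,
      D.vd.one, one_mul]⟩

end CfH3.J4
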