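import Cfsg.Agent.H3.Jv10
import Cfsg.Agent.H6.M24G
/-! The relations and the classes of involutions. -/
set_option autoImplicit false
set_option maxRecDepth 100000
set_option linter.unusedSectionVars false
open Subgroup CfH9 CfH6 CfH5 CfH4.Gol Cfsg
namespace CfH3.J4
open CfH3.He

variable {G : Type*} [Group G] {z k g n s : G} {ψ ev : ℕ → G} {S H : Subgroup G} {θ : M24 →* G}

abbrev xx : M24 := ⟨M24I.pX, mX⟩
abbrev yy : M24 := ⟨M24I.pU * M24I.pV, mY⟩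
theorem evw_mem' {f : ℕ → G} {w : List ℕ} (h : ∀ i ∈ w, f i ∈ H) : evw f w ∈ H := by
  induction w with
  | nil => exact one_mem _
  | cons i w ih => rw [List.forall_mem_cons] at h; exact mul_mem h.1 (ih h.2)
theorem fix3 {π : Equiv.Perm GolayPt} {a b c : GolayPt} (h : a ≠ b ∧ a ≠ c ∧ b ≠ c) (h1 : dd a b = dd (π a) (π b)) (h2 : dd a c = dd (π a) (π c)) :
    π a = a ∧ π b = b ∧ π c = c := by
  rcases JV.dd_inj h.1 h1 with e | e <;> rcases JV.dd_inj h.2.1 h2 with e' | e'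
  · exact ⟨e.1.symm, e.2.symm, e'.2.symm⟩
  · exact absurd (e.1.trans e'.2.symm) h.2.1
  · exact absurd (e'.1.trans e.2.symm) h.1
  · exact absurd (e.2.trans e'.2.symm) h.2.2
theorem d4 : (∀ p ∈ [(0, 1), (0, 3), (2, 5), (2, 6), (4, 7), (4, 9)], ∃ a ∈ dG, a.1 = [ext Tm (dd (pt p.1) (pt p.2)) + 64]) ∧
    (∀ w ∈ [[64 + 64], [730 + 64], [6, 8], [6, 10], [11, 13]], ∃ a ∈ dG, a.1 = w) ∧ 3 ≤ ty 1 730 ∧ ib 1 102 128 = 0 ∧ isD (ext Ti 128) = true ∧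
    (∀ i < 11, ext mpA (ext Tm (2 ^ i)) = ext Tm (dd (pA (pt 11)) (pA (pt i)))) ∧ (∀ r ∈ J4B.rels, ∃ j < 10, J4B.rels.getD j [] = r) ∧
    (∀ r ∈ M24B.rels, r ∈ J4B.rels) ∧ (∀ i < 25, okn i = true ∨ (okc i = true ∧ (cwd i).all okl = true)) ∧ ext (gm 0) 1 = 96 := by decide +kernel

local notation "L" => lt z ψ ev k
local notation "φ₀" => φ0 z ψ ev k
local notation "φ₁" => φ1 z ψ ev k
local notation "Γ" => gl z ψ ev k (θ xx) (θ yy)

namespace FD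
variable (F : FD z ψ ev k θ) (J : JF F.d.vd.V S z) (cz : Cz(F.d.vd.V) ≤ F.d.vd.V)
include F cz

theorem gb : GB z ψ ev k (θ xx) (θ yy) θ.range := by
  have h3 : ∀ i < 3, g3 (θ xx) (θ yy) i ∈ θ.range := fun i hi => by
    interval_cases i
    exacts [⟨_, rfl⟩, ⟨_, rfl⟩, inv_mem ⟨_, rfl⟩]
  have h7 : ∀ i ∈ K7, Γ i ∈ θ.range := fun i hi => by
    rw [gl_c ((by decide : ∀ i ∈ K7, okc i = true) i hi)]; exact F.hk i hi
  have h5 : ∀ i ∈ 5 :: K7, Γ i ∈ θ.range := List.forall_mem_cons.2 ⟨by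
    rw [show Γ 5 = (Γ 4)⁻¹ from eq_inv_of_mul_eq_one_left (by
      simpa [F.d.q.one, gil] using F.d.cg_sound (g1.2.2.2.2 4 (by omega) rfl) (by omega))]
    exact inv_mem (h7 4 (by decide)), h7⟩
  refine ⟨F.d.ga (F.ind _) (F.ind _), cz, F.d.ind_kv F.ind, fun i hi h => ?_⟩
  rcases (by decide : ∀ i < 19, i ≠ 3 → i < 3 ∨ i ∈ 5 :: K7 ∨ i = 17 ∨ i = 18 ∨ ∃ j < 5, i = 12 + j) i hi h with h | h | rfl | rfl | ⟨j, hj, rfl⟩
  · rw [gl, blt_t h]; exact h3 i h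
  · exact h5 i h
  · exact evw_mem h3 (by decide)
  · exact inv_mem (evw_mem h3 (by decide))
  · have := F.d.cg_sound (x := θ xx) (y := θ yy) (k3.2.2.2.1 j hj).2 (by omega)
    rw [evw_append, evw_cons, evw_nil, mul_one, F.d.q.one] at this
    rw [eq_inv_of_mul_eq_one_right this]
    exact inv_mem (evw_mem' fun i hi => h5 i ((k3.2.2.2.1 j hj).1 i hi))

variable [Finite G] [IsSimpleGroup G]
include J

theorem hT : ∀ i ∈ [0, 3, 17, 18], Γ i * Γ 3 = Γ 3 * Γ i := by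
  have B := F.gb cz
  have D := F.d
  have V := D.vd
  have i3 : Γ 3 = (Γ 3)⁻¹ := B.gil_eq (i := 3) rfl
  have h17 : Γ 17 * Γ 3 = Γ 3 * Γ 17 := by
    have hc : ∀ a ∈ dG, evw Γ [3, 18, 3, 17] * evw Γ a.1 * (evw Γ [3, 18, 3, 17])⁻¹ = evw Γ a.1 := fun a ha => by
      have := B.der_sound (T := false) (fun h => nomatch h) (d2.2.1 a ha).2
      rwa [evw_append, evw_append, evw_append, B.ginv_eq rfl, B.ginv_eq (d2.2.1 a ha).1, mul_inv_eq_one] at this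
    have e : (Γ 17)⁻¹ * Γ 3 * Γ 17 = Γ 3 * evw Γ [3, 18, 3, 17] := by
      rw [evw_cons, evw_cons, evw_cons, evw_cons, evw_nil, mul_one, ← mul_assoc (Γ 3), mul_eq_one_iff_eq_inv.2 i3, one_mul, mul_assoc]; rfl
    generalize evw Γ [3, 18, 3, 17] = δ at hc e
    have hw : ∀ w ∈ [[64 + 64], [730 + 64], [6, 8], [6, 10], [11, 13]], δ * evw Γ w * δ⁻¹ = evw Γ w := fun w hw => by
      obtain ⟨a, ha, rfl⟩ := d4.2.1 w hw
      exact hc a ha
    have hv : ∀ {c}, c < 2048 → evw Γ [c + 64] = φ₀ c := fun hc => by rw [evw_cons, evw_nil, mul_one, gl_v hc]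
    have h1 := hw _ List.mem_cons_self
    have h2 := hw _ (List.mem_cons_of_mem _ List.mem_cons_self)
    rw [hv (by omega)] at h1 h2
    rw [D.vz] at h1
    obtain ⟨c, c1, π, c2⟩ := D.dec J cz F.ind (D.PN (D.cenu (by omega) d4.2.2.1 (mem_Cx.2 (mul_inv_eq_iff_eq_mul.1 h1))
      (mem_Cx.2 (mul_inv_eq_iff_eq_mul.1 h2))))
    have h3 : ∀ p ∈ [(0, 1), (0, 3), (2, 5), (2, 6), (4, 7), (4, 9)], dd (pt p.1) (pt p.2) = dd (π.1 (pt p.1)) (π.1 (pt p.2)) := fun p hp => by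
      obtain ⟨a, ha, e⟩ := d4.1 p hp
      have := hc a ha
      rw [e, hv (tm_lt _)] at this
      refine D.vd1.eq (dd_lt _ _) (dd_lt _ _) ?_
      rw [← F.ind π, ← c2, mul_inv_rev, show ∀ a b c d e : G, a * b * c * (d * e) = a * (b * c * d) * e from fun _ _ _ _ _ => by group, φ1, this,
        V.comm (V.mem c1) (V.mem (tm_lt _)), mul_inv_cancel_right]
    simp only [List.forall_mem_cons] at h3
    obtain ⟨a0, a1, a3⟩ := fix3 (by decide) h3.1 h3.2.1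
    obtain ⟨a2, a5, -⟩ := fix3 (by decide) h3.2.2.1 h3.2.2.2.1
    obtain ⟨a4, a7, -⟩ := fix3 (by decide) h3.2.2.2.2.1 h3.2.2.2.2.2.1
    rw [show π = 1 from Subtype.ext (M24I.rigid π.2 (by simp [a0, a1, a2, a3, a4, a5, a7])), map_one, ← V.sq c1, mul_right_inj] at c2
    subst c2
    have h4 : ∀ w ∈ [[6, 8], [6, 10], [11, 13]], gv w c = c := fun w h => by
      have a := B.a.vw ((by decide : ∀ w ∈ [[6, 8], [6, 10], [11, 13]], w.all okn = true) w h) c c1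
      rw [← mul_inv_eq_iff_eq_mul.1 (hw w (List.mem_cons_of_mem _ (List.mem_cons_of_mem _ h))), mul_inv_cancel_right] at a
      exact V.eq a.1 c1 a.2.symm
    simp only [List.forall_mem_cons] at h4
    have h5 : c ∈ W8 := by simpa [h4.1, h4.2.1, h4.2.2.1] using al_iff.1 d2.2.2.2.2.2 c c1
    by_cases c0 : c = 0
    · rw [c0, V.one, mul_one, mul_assoc, inv_mul_eq_iff_eq_mul] at e
      exact e.symm
    have h6 := D.cg_sound (x := θ xx) (y := θ yy) d2.2.2.1 (by omega)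
    have h7 := B.nz_sound d2.2.2.2.1
    have h8 := d2.2.2.2.2.1 c h5 c0
    have h9 := (by decide : ∀ a ∈ [26, 47, 53, 4096, 4122, 4143, 4149], a < 8192 ∧ a ≠ 0) _ h8
    refine absurd (D.q.ker h9.1 ((D.cg_sound (x := θ xx) (y := θ yy) rfl h9.1).symm.trans ?_)) h9.2
    simp only [List.cons_append, evw_cons, evw_append, D.q.one, gl_v c1, B.ginv_eq (w := sw') rfl] at h6 h7 ⊢
    rw [← mul_assoc (Γ 3), ← mul_assoc (Γ 3) (φ₀ c), ← e,
      show evw Γ sw' = (Γ 17)⁻¹ * evw Γ sw * Γ 17 from (mul_inv_eq_one.1 (by simp only [mul_assoc]; exact h7)).symm]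
    calc _ = (Γ 17)⁻¹ * (Γ 3 * (evw Γ sw * (Γ 3 * evw Γ sw) * (Γ 3 * evw Γ sw))) * Γ 17 := by group
      _ = 1 := by rw [h6]; group
  simp only [List.forall_mem_cons]
  refine ⟨?_, trivial, h17, ((Commute.inv_left_iff (a := Γ 17)).2 h17).eq, fun _ h => nomatch h⟩
  have := B.der_sound (T := false) (fun h => nomatch h) d2.1
  have i0 : Γ 0 = (Γ 0)⁻¹ := B.gil_eq (i := 0) rfl
  simp only [evw_cons, evw_nil, mul_one] at this
  rw [← mul_assoc, mul_eq_one_iff_eq_inv, mul_inv_rev, ← i0, ← i3] at this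
  exact this.symm

theorem rels : (∀ i < 4, Γ (J4B.il.getD i 0) = (Γ i)⁻¹) ∧ ∀ r ∈ J4B.rels, evw Γ r = 1 := ⟨fun i hi => by
  rw [← (F.gb cz).gil_eq (by interval_cases i <;> rfl)]; interval_cases i <;> rfl, fun r hr => by
  obtain ⟨j, hj, rfl⟩ := d4.2.2.2.2.2.2.1 r hr
  exact (F.gb cz).der_sound (fun _ => F.hT J cz) (d1 j hj)⟩

theorem x1 : Γ 0 ≠ 1 := fun e => by
  have := (F.gb cz).a.va (i := 0) rfl 1 (by omega)
  rw [e, d4.2.2.2.2.2.2.2.2.2, one_mul, inv_one, mul_one] at this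
  exact absurd (F.d.vd.eq (by omega) (by omega) this.2) (by omega)

theorem le (h : ∀ i < 4, Γ i ∈ H) : Cx(z) ≤ H ∧ Nm(F.d.vd.V) ≤ H := by
  have B := F.gb cz
  have D := F.d
  have V := D.vd
  have hK : θ.range ≤ H := by
    have := M24G.simple
    have := M24O2.finG.1
    obtain ⟨ρ, hρ⟩ := M24B.hhom Γ (fun i hi => by rw [← (F.rels J cz).1 i (by omega)]; interval_cases i <;> rfl)
      fun r hr => (F.rels J cz).2 r (d4.2.2.2.2.2.2.2.1 r hr)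
    have m : ∀ K : Subgroup G, (∀ i < 3, Γ i ∈ K) → ρ.range ≤ K := fun K hK => by
      rintro _ ⟨g, rfl⟩
      exact mem_of_gens M24B.htop ρ K.toSubmonoid (fun i hi => hρ i hi ▸ hK i hi) g
    rw [← eq_of_le_of_card_ge (m _ fun i hi => B.hk i (by omega) (by omega)) (by
      rw [← Nat.card_congr (MonoidHom.ofInjective (inj_of_simple ρ (g := M24B.el 0) (hρ 0 (by omega) ▸ F.x1 J cz))).toEquiv, M24G.card]
      exact (Nat.card_le_card_of_surjective _ θ.rangeRestrict_surjective).trans M24I.card_M24)]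
    exact m H fun i hi => h i (by omega)
  have h19 : ∀ i < 19, Γ i ∈ H := fun i hi => if e : i = 3 then h i (by omega) else hK (B.hk i hi e)
  have hz : z ∈ H := by
    rw [← D.q.hz, ← D.cg_sound (x := θ xx) (y := θ yy) d3.2.2.2.1 (by omega)]
    exact evw_mem h19 (by decide)
  have hs : ∀ c < 2048, ib 1 102 c = 1 → φ₀ c ∈ H := fun c hc e => by
    obtain ⟨n, hn, e⟩ := J.ctl J.zV (V.mem hc) (((D.orb J cz).2.1 c hc).2 e)
    obtain ⟨a, ha, π, e'⟩ := D.dec J cz F.ind hn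
    rw [← mul_inv_cancel_right (φ₀ c) (φ₀ a), V.comm (V.mem hc) (V.mem ha), ← e, show φ₀ a * (n * z * n⁻¹) * (φ₀ a)⁻¹ =
      φ₀ a * n * z * (φ₀ a * n)⁻¹ by group, e']
    exact mul_mem (mul_mem (hK ⟨_, rfl⟩) hz) (inv_mem (hK ⟨_, rfl⟩))
  have hV : ∀ c < 2048, φ₀ c ∈ H := JV.ind2 (V.one ▸ one_mem _) (fun i hi => by
    have := al_iff.1 d3.2.2.2.2.2.2.2 i hi
    have p := Nat.pow_lt_pow_right one_lt_two hi
    obtain ⟨a, ha, h1, h2⟩ : ∃ a < 2048, ib 1 102 a = 1 ∧ ib 1 102 (a ^^^ 2 ^ i) = 1 := by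
      simp only [Bool.or_eq_true, an_iff, Bool.and_eq_true, Nat.beq_eq] at this
      rcases this with ⟨a, ha, h⟩ | ⟨a, ha, h⟩
      exacts [⟨a, by omega, h⟩, ⟨a + 1024, by omega, h⟩]
    rw [← Nat.xor_xor_cancel_left a (2 ^ i), V.mul ha (xor_lt ha p)]
    exact mul_mem (hs a ha h1) (hs _ (xor_lt ha p) h2)) fun a ha b hb h1 h2 => V.mul ha hb ▸ mul_mem h1 h2
  have hN : Nm(V.V) ≤ H := fun n hn => by
    obtain ⟨a, ha, π, e⟩ := D.dec J cz F.ind hn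
    exact (mul_mem_cancel_left (hV a ha)).1 (e ▸ hK ⟨_, rfl⟩)
  have hg : ∀ i < 6, l0 ev k i ∈ H := fun i hi => by
    have := D.cg_sound (x := θ xx) (y := θ yy) (d3.2.2.1 i hi).2 (by omega)
    rw [evw_append, evw_cons, evw_nil, mul_one, D.q.one, gl_c (by interval_cases i <;> rfl), show cwd (19 + i) = [i] by interval_cases i <;> rfl,
      evw_cons, evw_nil, mul_one, lt_b (by omega)] at this
    rw [eq_inv_of_mul_eq_one_right this]
    refine inv_mem (evw_mem' fun j hj => ?_)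
    have := List.all_eq_true.1 (d3.2.2.1 i hi).1 j hj
    simp only [Bool.and_eq_true, Bool.or_eq_true, Nat.blt_eq] at this
    exact this.2.elim (fun e => h19 j (by omega)) fun e => hN ((B.a.va (by rw [okn, e, Bool.or_true])).nm V)
  exact ⟨D.gen H (fun c hc => hN (D.PN (D.qP hc))) (fun i hi => by have := hg i (by omega); rwa [l0_lt hi] at this) (hg 5 (by omega)), hN⟩

theorem clsV {c : ℕ} (hc : c < 2048) (h0 : c ≠ 0) : ∃ n ∈ Nm(F.d.vd.V), n * φ₀ c * n⁻¹ = z ∨ n * φ₀ c * n⁻¹ = φ₀ 128 := by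
  have D := F.d
  by_cases e : ib 1 102 c = 1
  · exact (J.ctl (D.vd.mem hc) J.zV (((D.orb J cz).2.1 c hc).2 e).symm).imp fun _ h => ⟨h.1, Or.inl h.2⟩
  obtain ⟨p, hp, e'⟩ := D.tra hc
  obtain ⟨t1, -, -, -, t2, -⟩ := ty_spec one_lt_two hc
  rw [ib_iff] at e
  rcases (by decide : ∀ t < 7, ¬ Nat.testBit 102 t = true → t = 0 ∨ rep t = 6 ∨ rep t = 128) _ t1 e with h | h | h
  · exact absurd (t2.2 h) h0
  · have a := (F.gb cz).a.vw (w := [0, 2, 8]) rfl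
    refine ⟨_, mul_mem (a.nm D.vd) (inv_mem (D.PN hp)), Or.inr ?_⟩
    rw [← d3.2.2.2.2.1, ← (a 6 (by omega)).2, ← e', h]; group
  · exact ⟨_, inv_mem (D.PN hp), Or.inr (by rw [← e', h]; group)⟩

theorem clq (h1 : Cx(z) ≤ H) (h2 : Nm(F.d.vd.V) ≤ H) {q c : ℕ} (hq : q ∈ [11, 13]) (hc : c < 2048) (e : φ₀ c * Γ q * (φ₀ c * Γ q) = 1) :
    ∃ h ∈ H, h * (φ₀ c * Γ q) * h⁻¹ = z ∨ h * (φ₀ c * Γ q) * h⁻¹ = φ₀ 128 := by
  have B := F.gb cz
  have D := F.d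
  have V := D.vd
  obtain ⟨q1, q2, q3⟩ := (by decide : ∀ q ∈ [11, 13], okn q = true ∧ okg q = true ∧ gil q = q) q hq
  have a0 := B.a.va q1 c hc
  have gq : ∀ c, gv [q] c = ext (gm q) c := fun c => gv_cons _ _ _
  have k0 : gv [q] c = c := by
    rw [gq]
    refine (Nat.xor_eq_zero_iff.1 (V.inj (xor_lt hc a0.1) ?_)).symm
    rw [V.mul hc a0.1, ← a0.2, ← B.gil_eq q2, q3, ← e]; group
  have := al_iff.1 (d3.2.1 q hq) c hc
  simp only [k0, Nat.beq_refl, Bool.not_true, Bool.false_or, List.any_eq_true, Bool.and_eq_true, Nat.beq_eq, an_iff, frc_eq, xor_eq, gq] at this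
  obtain ⟨a, ha, rfl, m, -, e⟩ := this
  generalize hv : ext (cond (Nat.beq a.1 11) _ _) m = v at e
  have v1 : v < 2048 := hv ▸ ext_lt (n := 11) (by cases Nat.beq a.1 11 <;> decide) m
  obtain ⟨b1, b2, b3, b4⟩ := d3.1 a ha
  have b5 := B.der_sound (T := false) (fun h => nomatch h) b4
  have b6 : a.2.1 < 2048 := e ▸ xor_lt (xor_lt v1 hc) (B.a.va q1 v v1).1
  rw [evw_append, evw_append, evw_append, B.ginv_eq b1, evw_cons, evw_cons, evw_cons, evw_nil, mul_one, mul_one, gl_v b2, gl_v b6, ← e,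
    ← B.a.cj q1 v1 hc, ← V.sq b2, mul_left_inj] at b5
  obtain ⟨n, hn, b7⟩ := F.clsV J cz b2 b3
  refine ⟨n * (evw Γ a.2.2.1 * φ₀ v), mul_mem (h2 hn) (mul_mem (evw_mem' fun i hi => ?_) (h2 (le_normalizer (V.mem v1)))), ?_⟩
  · have := List.all_eq_true.1 b1 i hi
    simp only [okg, Bool.or_eq_true, Nat.blt_eq] at this
    rcases this with h | h
    · exact (d4.2.2.2.2.2.2.2.2.1 i h).elim (fun h => h2 ((B.a.va h).nm V)) fun h => h1 (by rw [gl_c h.1]; exact (D.actw h.2).2)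
    · exact h2 ((B.a.va (by rw [okn, h, Bool.or_true])).nm V)
  · rwa [← b5, show ∀ a b c x : G, a * (b * (c * x * c⁻¹) * b⁻¹) * a⁻¹ = a * (b * c) * x * (a * (b * c))⁻¹ from fun _ _ _ _ => by group] at b7

theorem fin (h1 : Cx(z) ≤ H) (h2 : Nm(F.d.vd.V) ≤ H) : ¬ IsConj z (φ₀ 128) ∧ H = ⊤ ∧ ∀ s : G, orderOf s = 2 → IsConj s z ∨ IsConj s (φ₀ 128) := by
  have B := F.gb cz
  have D := F.d
  have V := D.vd
  have nc : ¬ IsConj z (φ₀ 128) := fun e => absurd (((D.orb J cz).2.1 _ (by omega)).1 e) (by rw [d4.2.2.2.1]; omega)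
  have sx : ∀ b < 2048, b ≠ 0 → isD b = false → IsConj z (φ₁ b) := fun b hb h0 h => by_contra fun e =>
    absurd ((D.isD_iff J cz hb).2 ⟨fun e => h0 (D.vd1.inj hb e), e⟩) (by simp [h])
  have cd := cenD D.vd1 (D.V1 ▸ cz) (D.hw J cz) (D.V1 ▸ J.wc) (fun b hb h0 h u hu h' g hg => by
    obtain ⟨n, hn, e⟩ := J.ctl J.zV (V.mem (tm_lt b)) (sx b hb h0 h)
    obtain ⟨a, ha, e'⟩ := (mem_normalizer_iff.1 (inv_mem (D.V1 ▸ hn)) _).1 (D.vd1.mem hu)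
    have h3 := (D.isD_iff J cz hu).1 h'
    have h4 := (D.isD_iff J cz ha).2 (by
      rw [e']; exact ⟨fun e => h3.1 (conj_eq_one_iff.1 e), fun e => h3.2 (e.trans (isConj_iff.2 ⟨_, rfl⟩).symm)⟩)
    have := D.PN (D.cenu (g := n⁻¹ * g * n⁻¹⁻¹) (tm_lt a) ((k1_spec ha).2.2.2 h4) (mem_Cx.2 (by
      rw [show z = n⁻¹ * φ₁ b * n⁻¹⁻¹ by rw [φ1, ← e]; group, conj_mul, conj_mul, mem_Cx.1 hg.1])) (mem_Cx.2 (by
      rw [show φ₀ (ext Tm a) = _ from e', conj_mul, conj_mul, mem_Cx.1 hg.2])))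
    rwa [inv_inv, mul_mem_cancel_right hn, mul_mem_cancel_left (inv_mem hn), ← D.V1] at this) (fun b hb u hu h h' e => by
    have h3 := (D.isD_iff J cz hu).1 h'
    by_cases h0 : b = 0
    · rw [h0, D.vd1.one, isConj_one_right] at e; exact h3.1 e
    · exact h3.2 ((sx b hb h0 h).trans e)) _ (ti_lt 128) d4.2.2.2.2.1
  rw [φ1, (k1_spec (by omega)).1, D.V1] at cd
  refine ⟨nc, J.fin (V.sq (by omega)) nc h1 cd h2 fun s hs s2 s1 => ?_⟩
  obtain ⟨c, hc, π, e⟩ := D.dec J cz F.ind hs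
  have e' : s = φ₀ c * θ π := by rw [← e, ← mul_assoc, V.sq hc, one_mul]
  have i : Ind φ₁ s π := by simpa [e'] using (Ind.of_cen D.vd1 (D.vd1.le_Cz (D.V1 ▸ V.mem hc))).mul (F.ind π)
  have f : ∀ σ : M24, ∀ q ∈ [11, 13], ∀ a ∈ Nm(V.V), θ (σ * π * σ⁻¹) = a * Γ q * a⁻¹ → ∃ h ∈ H, h * s * h⁻¹ = z ∨ h * s * h⁻¹ = φ₀ 128 :=
    fun σ q hq a ha e => by
      have m : a⁻¹ * θ σ ∈ Nm(V.V) := mul_mem (inv_mem ha) (D.V1 ▸ (F.ind σ).mem D.vd1)
      obtain ⟨b, hb, e1⟩ := (mem_normalizer_iff.1 m _).1 (V.mem hc)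
      have e2 : φ₀ b * Γ q = a⁻¹ * θ σ * s * (a⁻¹ * θ σ)⁻¹ := by
        rw [e1, e', ← conj_mul, show a⁻¹ * θ σ * θ π * (a⁻¹ * θ σ)⁻¹ = a⁻¹ * θ (σ * π * σ⁻¹) * a by simp [mul_assoc], e]; group
      obtain ⟨h, hh, e3⟩ := F.clq J cz h1 h2 hq hb (by rw [e2, conj_mul, s2]; group)
      exact ⟨_, mul_mem hh (h2 m), by
        rwa [e2, show ∀ a b x : G, a * (b * x * b⁻¹) * a⁻¹ = a * b * x * (a * b)⁻¹ from fun _ _ _ => by group] at e3⟩
  rcases inv24 π.2 ((i.mul i).uniq D.vd1 (s2 ▸ Ind.one)) with h | ⟨σ, hσ, h | h⟩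
  · rw [show π = 1 from Subtype.ext h, map_one, mul_one] at e'
    obtain ⟨n, hn, e⟩ := F.clsV J cz hc fun h => s1 (by rw [e', h, V.one])
    exact ⟨n, h2 hn, e' ▸ e⟩
  · refine f ⟨σ, hσ⟩ 13 (by decide) _ ((B.a.vw (w := wA) rfl).nm V) (inv_mul_eq_one.1 (B.kv _ (mul_mem (inv_mem ⟨_, rfl⟩) (mul_mem (mul_mem
      (evw_mem' fun i hi => ?_) (B.hk 13 (by omega) (by omega))) (inv_mem (evw_mem' fun i hi => ?_)))) (cz ?_)))
    iterate 2 exact B.hk i ((by decide : ∀ i ∈ wA, i < 19 ∧ i ≠ 3) i hi).1 ((by decide : ∀ i ∈ wA, i < 19 ∧ i ≠ 3) i hi).2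
    have := F.ind (⟨σ, hσ⟩ * π * ⟨σ, hσ⟩⁻¹)
    rw [show ((⟨σ, hσ⟩ * π * ⟨σ, hσ⟩⁻¹ : M24) : Equiv.Perm GolayPt) = pA from h] at this
    have := (D.ind_va this (by decide) d4.2.2.2.2.2.1).cen2 V (B.a.vw (w := wA ++ 13 :: ginv wA) rfl) fun i hi => (d3.2.2.2.2.2.1 i hi).symm
    rwa [evw_append, evw_cons, B.ginv_eq rfl, ← mul_assoc (evw _ _)] at this
  · refine f ⟨σ, hσ⟩ 11 (by decide) _ ((B.a.vw (w := wX) rfl).nm V) ?_
    have := B.nz_sound d3.2.2.2.2.2.2.1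
    rw [evw_append, evw_append, evw_cons, B.ginv_eq rfl, evw_cons, evw_nil, mul_one, mul_eq_one_iff_eq_inv, ← B.gil_eq rfl, ← mul_assoc] at this
    rw [this, show (⟨σ, hσ⟩ * π * ⟨σ, hσ⟩⁻¹ : M24) = xx from Subtype.ext h]; rfl
end FD

end CfH3.J4
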