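import Cfsg.Agent.H3.Jv5
import Cfsg.Agent.H6.M22I
import Cfsg.Agent.H6.M22G
/-! Statements of the two module theoretic steps. -/
set_option autoImplicit false
open Subgroup CfH9 CfH6 Function
namespace CfH3.J4
universe u

/-- the six-dimensional module of the triple cover over the field of order four is unique -/
def UMOD : Prop := ∀ {Γ U : Type u} [Group Γ] [Finite Γ] [AddCommGroup U] [Finite U] (μ : Γ →* Equiv.Perm U)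
  (_ha : ∀ g u v, μ g (u + v) = μ g u + μ g v) (_hU : Nat.card U = 4096)
  (q : U → ZMod 2) (B : U →+ U →+ ZMod 2) (_hq : ∀ u v, q (u + v) = q u + q v + B u v) (_h2 : ∀ u : U, u + u = 0)
  (_nd : ∀ u, (∀ v, B u v = 0) → u = 0) (_inv : ∀ g u, q (μ g u) = q u) (M : Subgroup Γ) [M.Normal] (_hM : M.index = 2)
  (π : M →* M22B.G) (_hπ : Surjective π) (r : Γ) (_rM : r ∈ M) (_r3 : r ^ 3 = 1) (_r1 : μ r ≠ 1) (_rc : ∀ m ∈ M, m * r = r * m)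
  (_rn : ∀ g, g * r * g⁻¹ = r ∨ g * r * g⁻¹ = r⁻¹) (_ker : ∀ m : M, π m = 1 ↔ ∃ j : ℕ, μ m = μ r ^ j) (_perf : ∃ c ∈ ⁅M, M⁆, μ c = μ r)
  (_out : ∀ g, (∀ m ∈ M, ∃ j : ℕ, μ (g * m * g⁻¹ * m⁻¹) = μ r ^ j) → g ∈ M),
  ∃ φ : ℕ → U, (∀ a < 4096, ∀ b < 4096, φ (a ^^^ b) = φ a + φ b) ∧ (∀ u, ∃ c < 4096, φ c = u) ∧
    (∀ c < 4096, q (φ c) = (qq c : ℕ)) ∧ (∃ r', (r' = r ∨ r' = r⁻¹) ∧ ∀ c < 4096, μ r' (φ c) = φ (ext mR c)) ∧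
    (∀ x < 5, ∀ m : M, π m = M22B.el x → ∃ j : ℕ, ∀ c < 4096, μ (m * r ^ j) (φ c) = φ (ext (mA x) c)) ∧
    ∃ k, k ∉ M ∧ ∀ c < 4096, μ k (φ c) = φ (ext mK c)

/-- central extensions of `M₂₂` by a group of order at most two -/
def M22X : Prop := ∀ {Γ : Type u} [Group Γ] (z : Γ) (π : Γ →* M22B.G) (_hs : Surjective π) (_z2 : z * z = 1) (_cen : ∀ g, g * z = z * g)
  (_ker : ∀ g, π g = 1 → g = 1 ∨ g = z), ∃ (ev : ℕ → Γ) (ε : ℕ), ε < 2 ∧ (∀ x < 5, π (ev x) = M22B.el x ∧ ev x * ev x = 1) ∧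
    ∀ w : List ℕ, (∀ x ∈ w, x < 5) → evw M22B.el w = 1 → evw ev w = z ^ (ε * sg w)

/-- the hypotheses give the computational model of the centraliser -/
def MKCD : Prop := ∀ {G : Type u} [Group G] [Finite G] (t : G) (_ht : orderOf t = 2) (Q N M : Subgroup (Subgroup.centralizer ({t} : Set G)))
  [Q.Normal] [N.Normal] [M.Normal] (_hQN : Q ≤ N) (_hNM : N ≤ M) (_hM : M.index = 2) (_hQ : Cfsg.IsExtraspecial 2 Q)
  (_hcard : Nat.card Q = 2 ^ 13) (_hN : Nat.card N = 3 * Nat.card Q) (_hcent : ⁅M, N⁆ ≤ Q) (_hperf : M ≤ ⁅M, M⁆ ⊔ Q)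
  (_h2c : Subgroup.centralizer (Q : Set (Subgroup.centralizer ({t} : Set G))) ≤ Q)
  (_hout : ∀ c : Subgroup.centralizer ({t} : Set G), (∀ m ∈ M, c * m * c⁻¹ * m⁻¹ ∈ N) → c ∈ M)
  (_hM22 : Cfsg.Spor.IsoM22 (M ⧸ N.subgroupOf M)), ∃ (ψ ev : ℕ → G) (k : G) (e1 e2 : ℕ), CD t ψ ev k e1 e2

end CfH3.J4
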