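import Cfsg.Agent.H3.Jv6
import Cfsg.Agent.H9.JV1
import Cfsg.Agent.OD.Helper3x147d1ff1ad
/-! The elementary abelian subgroup of order `2 ^ 11` and its normaliser in the centraliser of the involution. -/
set_option autoImplicit false
set_option maxRecDepth 100000
open Subgroup CfH9 CfH6
namespace CfH3.J4
open CfH3.He

variable {G : Type*} [Group G] {z k g h : G} {ψ ev φ : ℕ → G} {e1 e2 : ℕ}

def mkSub [Finite G] (P : G → Prop) (h1 : P 1) (hm : ∀ a b, P a → P b → P (a * b)) : Subgroup G where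
  carrier := {g | P g}
  mul_mem' := fun ha hb => hm _ _ ha hb
  one_mem' := h1
  inv_mem' := fun {a} ha => by
    have : ∀ n, P (a ^ n) := fun n => by
      induction n with
      | zero => rwa [pow_zero]
      | succ n ih => rw [pow_succ]; exact hm _ _ ih ha
    have e : a⁻¹ = a ^ (orderOf a - 1) := (eq_inv_of_mul_eq_one_left (by
      rw [← pow_succ, Nat.sub_add_cancel (orderOf_pos _), pow_orderOf_eq_one])).symm
    exact e ▸ this _

theorem gen_ind [Finite G] {f : ℕ → G} {n : ℕ} {P : G → Prop} (h1 : P 1) (h : ∀ i < n, ∀ x, P x → P (f i * x)) :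
    ∀ g ∈ gensub f n, P g := fun g hg => by
  have := gensub_le (K := mkSub (fun a => ∀ x, P x → P (a * x)) (fun x hx => by rwa [one_mul])
    fun a b ha hb x hx => by rw [mul_assoc]; exact ha _ (hb x hx)) h hg 1 h1
  rwa [mul_one] at this

def VA (φ : ℕ → G) (g : G) (f : ℕ → ℕ) : Prop := ∀ c < 2048, f c < 2048 ∧ g * φ c * g⁻¹ = φ (f c)
theorem VA.mul {f f' : ℕ → ℕ} (h1 : VA φ g f) (h2 : VA φ h f') : VA φ (g * h) fun c => f (f' c) := fun c hc =>
  ⟨(h1 _ (h2 c hc).1).1, by rw [← (h1 _ (h2 c hc).1).2, ← (h2 c hc).2]; group⟩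
theorem VA.nm [Finite G] (D : VD φ) {f : ℕ → ℕ} (h : VA φ g f) : g ∈ Nm(D.V) := mem_normalizer_fintype (by
  rintro _ ⟨c, hc, rfl⟩
  exact ⟨_, (h c hc).1, (h c hc).2.symm⟩)
theorem VD.va (D : VD φ) {l : List ℕ} (hl : ∀ x ∈ l, x < 2048) (h : ∀ i < 11, g * φ (2 ^ i) * g⁻¹ = φ (ext l (2 ^ i))) : VA φ g (ext l) :=
  fun c hc => ⟨ext_lt (n := 11) hl c, JV.ind2 (P := fun c => g * φ c * g⁻¹ = φ (ext l c)) (by rw [ext_zero, D.one]; simp) h
    (fun a ha b hb h1 h2 => by rw [D.mul ha hb, ext_xor, D.mul (ext_lt (n := 11) hl _) (ext_lt (n := 11) hl _), ← h1, ← h2, conj_mul]) c hc⟩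

def φ0 (z : G) (ψ ev : ℕ → G) (k : G) (c : ℕ) : G := evw (lt z ψ ev k) (w0 c)
def Pg (z : G) (ψ ev : ℕ → G) (k : G) : Subgroup G := gensub (fun j => lt z ψ ev k (gp j)) 23

theorem w0_spec {c : ℕ} (hc : c < 2048) : xq c = xq (c &&& 127) ∧ xq c < 8192 ∧ (w0 c).all okl = true ∧ c &&& 127 < 128 ∧ c >>> 7 < 16 := by
  have := al_iff.1 v1.2.1 c hc
  simp only [Bool.and_eq_true, Nat.beq_eq, Nat.blt_eq] at this
  exact ⟨this.1.1, this.1.2, this.2, Nat.lt_succ_of_le Nat.and_le_right, by rw [Nat.shiftRight_eq_div_pow]; omega⟩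
theorem φ0_eq (c : ℕ) : φ0 z ψ ev k c = ψ (xq c) * evw (lt z ψ ev k) (ew (c >>> 7)) := by
  rw [φ0, w0, evw_cons]; exact congrArg (· * _) (lt_q _)
theorem φ0_lo {c : ℕ} (hc : c < 128) : φ0 z ψ ev k c = ψ (xq c) := by
  rw [φ0_eq, Nat.shiftRight_eq_div_pow, Nat.div_eq_of_lt hc]; exact mul_one _
theorem ty_spec {e c : ℕ} (he : e < 2) (hc : c < 2048) : ty e c < 7 ∧ ty e (rep (ty e c)) = ty e c ∧ (128 ≤ c ↔ 4 ≤ ty e c) ∧
    (c = 64 ↔ ty e c = 1) ∧ (c = 0 ↔ ty e c = 0) ∧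
    (c = rep (ty e c) ∨ pcd e c < 2048 ∧ pgn e c < 23 ∧ rk e (pcd e c) < rk e c ∧ ext (MV e (pgn e c)) (pcd e c) = c) := by
  have := al2 v5 he hc
  simp only [Bool.and_eq_true, Bool.or_eq_true, Nat.beq_eq, Nat.blt_eq, beq_iff_eq] at this
  obtain ⟨⟨⟨⟨⟨h1, h2⟩, h3⟩, h4⟩, h5⟩, h6⟩ := this
  rw [Bool.eq_iff_iff] at h3 h4 h5
  simp only [Nat.beq_eq, Nat.ble_eq] at h3 h4 h5
  tauto
theorem bb_lo (a b : ℕ) : bb (lo a) b = bb a b := by
  have h1 : lo6 (lo a) = lo6 a := by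
    show a &&& 4095 &&& 63 = a &&& 63
    rw [Nat.and_assoc]; rfl
  have h2 : hi6 (lo a) = hi6 a := by
    show (a &&& 4095) >>> 6 &&& 63 = a >>> 6 &&& 63
    rw [Nat.shiftRight_and_distrib, Nat.and_assoc]; rfl
  rw [bb, bb, h1, h2]
theorem bb_wa (w : List ℕ) (a b : ℕ) : bb (wa w a) b = bb (wu w a) b := by rw [← bb_lo, lo_wa, bb_lo]
theorem wu_w0 (c b : ℕ) : wu (w0 c) b = wu (ew (c >>> 7)) b := by
  rw [w0, wu_cons, blt_f (a := Nat.add (xq c) 32) (Nat.le_add_left _ _)]; rfl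
theorem wu_lo (w : List ℕ) {a b : ℕ} (h : lo a = lo b) : lo (wu w a) = lo (wu w b) := by
  induction w with
  | nil => exact h
  | cons i w ih =>
    rw [wu_cons, wu_cons]
    cases Nat.blt i 32
    · exact ih
    · rw [cond_true, cond_true, ← au_lo, ih, au_lo]
theorem wl_spec {i : ℕ} (hi : i < 77) : (wl i).all okl = true ∧ xb i = B6.map (wu (wl i)) := by
  have := al_iff.1 v6 i hi
  simp only [Bool.and_eq_true, beq_iff_eq] at this
  exact this.1

namespace CD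
variable (D : CD z ψ ev k e1 e2)
include D
local notation "L" => lt z ψ ev k
local notation "φ₀" => φ0 z ψ ev k
local notation "PP" => Pg z ψ ev k

theorem ewc {j a : ℕ} (hj : j < 16) (ha : a < 128) : evw L (ew j) * ψ (xq a) = ψ (xq a) * evw L (ew j) := by
  have := al_iff.1 v1.2.2.1 j hj
  rw [Bool.and_eq_true] at this
  rw [← mul_inv_eq_iff_eq_mul, ((D.actw ((by decide : ∀ j < 16, (ew j).all okl = true) j hj)).1 _ (w0_spec (by omega)).2.1).2,
    Nat.eq_of_beq_eq_true (al_iff.1 this.1 a ha)]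
theorem vd : VD φ₀ := ⟨fun {a b} ha hb => by
  obtain ⟨a1, a2, -, a4, a5⟩ := w0_spec ha
  obtain ⟨b1, b2, -, b4, b5⟩ := w0_spec hb
  rw [φ0_eq, φ0_eq, φ0_eq, (w0_spec (xor_lt ha hb)).1, Nat.and_xor_distrib_right, Nat.shiftRight_xor_distrib, mul_assoc,
    ← mul_assoc (evw _ _), b1, D.ewc a5 b4, ← b1, mul_assoc, ← mul_assoc, ← D.q.mul a2 b2, a1, b1, ← evw_append,
    D.eqv_sound (al2 (al2 v2 D.h1 D.h2) a5 b5), Nat.eq_of_beq_eq_true (al2 v1.1 a4 b4)]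
  rfl, fun {a} ha h => by
  obtain ⟨a1, a2, a3, a4, a5⟩ := w0_spec ha
  have h1 := al_iff.1 v1.2.2.1 _ a5
  simp only [Bool.and_eq_true, Bool.or_eq_true, Nat.beq_eq, Bool.not_eq_true'] at h1
  rcases h1.2 with e | e
  · have : a < 128 := by rw [Nat.shiftRight_eq_div_pow] at e; omega
    rw [φ0_lo this] at h
    simpa [D.q.ker a2 h] using al_iff.1 v1.2.2.2 a this
  · refine absurd (List.all_eq_true.2 fun b hb => ?_) (Bool.eq_false_iff.1 e)
    have h2 := (D.actw a3).1 b ((b12 b hb).trans (by omega))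
    rw [show evw L (w0 a) = 1 from h, one_mul, inv_one, mul_one] at h2
    have h3 := congrArg lo (D.q.inj ((b12 b hb).trans (by omega)) h2.1 h2.2)
    rw [lo_wa, lo_of_lt (b12 b hb), wu_w0] at h3
    exact Nat.beq_eq ▸ h3.symm⟩
theorem vz : φ₀ 64 = z := (φ0_lo (by omega)).trans D.q.hz
theorem vx {a : ℕ} (ha : a < 64) : ψ a ∈ D.vd.V := ⟨a, by omega, by
  rw [φ0_lo (by omega), (by decide : ∀ a < 64, xq a = a) a ha]⟩
theorem vC : D.vd.V ≤ Cx(z) := by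
  rintro _ ⟨c, hc, rfl⟩
  exact (D.actw (w0_spec hc).2.2.1).2
theorem vg {j : ℕ} (hj : j < 23) : okl (gp j) = true ∧ VA φ₀ (L (gp j)) (ext (MV e1 j)) ∧ ∀ c < 2048, ty e1 (ext (MV e1 j) c) = ty e1 c := by
  have := al2 v4 D.h1 hj
  simp only [Bool.and_eq_true, List.all_eq_true, Nat.blt_eq] at this
  refine ⟨this.1.2, D.vd.va this.1.1 fun i hi => ?_, fun c hc => Nat.eq_of_beq_eq_true (al_iff.1 this.2 c hc)⟩
  have h := al2 (al2 v3 D.h1 D.h2) hj hi
  rw [frc_eq] at h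
  have := D.eqv_sound h
  rw [evw_cons, evw_append, evw_cons, evw_nil, mul_one] at this
  exact mul_inv_eq_of_eq_mul this
theorem PC : PP ≤ Cx(z) := gensub_le fun _ hj => (D.actl (D.vg hj).1).2
theorem mgp {x : ℕ} (h : GP.contains x = true) : L x ∈ PP := by
  obtain ⟨j, hj, rfl⟩ := (by decide : ∀ x ∈ GP, ∃ j < 23, gp j = x) x (by simpa using h)
  exact mem_gensub (el := fun j => L (gp j)) hj
theorem qP {c : ℕ} (hc : c < 8192) : ψ c ∈ PP := by
  exact ind (P := fun c => ψ c ∈ PP) (D.q.one ▸ one_mem _) (by rw [← lt_q (z := z) (ψ := ψ) (ev := ev) (k := k)]; exact D.mgp (by decide))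
    (fun b hb => by rw [← lt_q (z := z) (ψ := ψ) (ev := ev) (k := k)]; exact D.mgp ((by decide : ∀ b ∈ B12, GP.contains (b + 32) = true) b hb))
    (fun a ha b hb h1 h2 => D.q.mul ha hb ▸ mul_mem h1 h2) c hc
theorem wP {w : List ℕ} (h : w.all (fun x => Nat.beq x 7 || GP.contains x) = true) : evw L w ∈ PP := by
  induction w with
  | nil => exact one_mem _
  | cons i w ih =>
    rw [List.all_cons, Bool.and_eq_true, Bool.or_eq_true, Nat.beq_eq] at h
    refine mul_mem (h.1.elim (fun e => ?_) D.mgp) (ih h.2)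
    rw [e, show 7 = il 6 from rfl, (D.lil (by decide)).2]
    exact inv_mem (D.mgp (by decide))
theorem VP : D.vd.V ≤ PP := by
  rintro _ ⟨c, hc, rfl⟩
  rw [φ0_eq]
  exact mul_mem (D.qP (w0_spec hc).2.1) (D.wP ((by decide : ∀ j < 16, (ew j).all (fun x => Nat.beq x 7 || GP.contains x) = true) _
    (w0_spec hc).2.2.2.2))
theorem inQ_cj (hg : g ∈ Cx(z)) (h1 : InQ ψ h) : InQ ψ (g * h * g⁻¹) := by
  obtain ⟨c, hc, rfl⟩ := h1
  obtain ⟨f, hf⟩ := D.act g hg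
  exact ⟨_, (hf c hc).1, (hf c hc).2.symm⟩
theorem comX {i j : ℕ} (hi : i < 77) (hj : j < 77) (h : ∀ a ∈ B6, ∀ b ∈ B6,
    Commute (evw L (wl i) * ψ a * (evw L (wl i))⁻¹) (evw L (wl j) * ψ b * (evw L (wl j))⁻¹)) : i = j := by
  have := al2 v7.1 hi hj
  simp only [Bool.or_eq_true, Nat.beq_eq, List.any_eq_true, (wl_spec hi).2, (wl_spec hj).2, List.mem_map] at this
  refine this.resolve_right ?_
  rintro ⟨_, ⟨a, ha, rfl⟩, _, ⟨b, hb, rfl⟩, e⟩
  have b6 : ∀ a ∈ B6, a < 8192 := by decide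
  have h1 := (D.actw (wl_spec hi).1).1 a (b6 a ha)
  have h2 := (D.actw (wl_spec hj).1).1 b (b6 b hb)
  have := h a ha b hb
  rw [h1.2, h2.2] at this
  have := (D.q.bb_iff h1.1 h2.1).2 this
  rw [bb_wa, bb_comm, bb_wa, bb_comm, e] at this
  omega
theorem fixX {i u : ℕ} (hi : i < 77) (hu : u < 2048) (h3 : 3 ≤ ty e1 u)
    (h : ∀ a ∈ B6, Commute (φ₀ u) (evw L (wl i) * ψ a * (evw L (wl i))⁻¹)) : i = 0 := by
  have := al_iff.1 v7.2 i hi
  simp only [Bool.or_eq_true, Bool.and_eq_true, Nat.beq_eq, al_iff, List.any_eq_true, (wl_spec hi).2, List.mem_map, Bool.not_eq_true',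
    Bool.eq_false_iff, Ne] at this
  refine this.resolve_right fun ⟨t1, t2⟩ => ?_
  have b6 : ∀ a ∈ B6, a < 8192 := by decide
  have k := fun a ha => (D.actw (wl_spec hi).1).1 a (b6 a ha)
  obtain ⟨u1, u2, u3, u4, u5⟩ := w0_spec hu
  by_cases hl : u < 128
  · have := (ty_spec D.h1 hu).2.2.1
    obtain ⟨_, ⟨a, ha, rfl⟩, e⟩ := (t2 e1 D.h1 u hl).resolve_left fun e => e (by omega)
    have h1 := h a ha
    rw [(k a ha).2, φ0_lo hl] at h1
    have := (D.q.bb_iff u2 (k a ha).1).2 h1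
    rw [bb_comm, bb_wa, bb_comm, e] at this
    omega
  · obtain ⟨_, ⟨a, ha, rfl⟩, e⟩ := (t1 _ u5).resolve_left fun e => by rw [Nat.shiftRight_eq_div_pow] at e; omega
    have h1 := h a ha
    have h2 := (D.actw u3).1 _ (k a ha).1
    rw [(k a ha).2] at h1
    rw [show evw L (w0 u) = φ₀ u from rfl, h1.eq, mul_inv_cancel_right] at h2
    have h4 := congrArg lo (D.q.inj (k a ha).1 h2.1 h2.2)
    rw [lo_wa, lo_wa, wu_w0, wu_lo _ (lo_wa _ _)] at h4
    exact e h4.symm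

variable [Finite G]
theorem pv (hg : g ∈ PP) : ∃ f, VA φ₀ g f ∧ ∀ c < 2048, ty e1 (f c) = ty e1 c :=
  gen_ind (P := fun g => ∃ f, VA φ₀ g f ∧ ∀ c < 2048, ty e1 (f c) = ty e1 c) ⟨id, fun c hc => ⟨hc, by simp⟩, fun _ _ => rfl⟩
    (fun j hj x ⟨f, h1, h2⟩ => ⟨_, (D.vg hj).2.1.mul h1, fun c hc => ((D.vg hj).2.2 _ (h1 c hc).1).trans (h2 c hc)⟩) g hg
theorem PN : PP ≤ Nm(D.vd.V) := fun _ hg => (D.pv hg).choose_spec.1.nm D.vd
theorem tra {c : ℕ} (hc : c < 2048) : ∃ p ∈ PP, p * φ₀ (rep (ty e1 c)) * p⁻¹ = φ₀ c := by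
  induction hn : rk e1 c using Nat.strong_induction_on generalizing c with
  | _ n ih =>
    rcases (ty_spec D.h1 hc).2.2.2.2.2 with e | ⟨h1, h2, h3, h4⟩
    · exact ⟨1, one_mem _, by rw [← e]; simp⟩
    · obtain ⟨p, hp, e⟩ := ih _ (hn ▸ h3) h1 rfl
      refine ⟨_, mul_mem (mem_gensub (el := fun j => L (gp j)) h2) hp, ?_⟩
      have k1 := ((D.vg h2).2.1 _ h1).2
      have k2 := (D.vg h2).2.2 _ h1
      rw [h4] at k1 k2
      rw [← k1, ← e, k2]
      group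
theorem cos (hg : g ∈ Cx(z)) : ∃ i < 77, ∃ p ∈ PP, g = evw L (wl i) * p := by
  have f : ∀ x < 6, ∀ i < 77, ∃ j < 77, ∃ p ∈ PP, L x * evw L (wl i) = evw L (wl j) * p := fun x hx i hi => by
    have := al_iff.1 v6 i hi
    rw [Bool.and_eq_true] at this
    have := al_iff.1 this.2 x hx
    generalize (SC.getD i []).getD x (0, []) = s at this
    simp only [frc_eq, Bool.and_eq_true, Nat.blt_eq] at this
    obtain ⟨⟨⟨h1, h2⟩, h3⟩, h4⟩ := this
    obtain ⟨c, hc, e⟩ := D.triv_sound h3 h4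
    refine ⟨_, h1, ψ c * evw L s.2, mul_mem (D.qP hc) (D.wP h2), ?_⟩
    have h5 : s.2.all okl = true := List.all_eq_true.2 fun y hy => by
      have := List.all_eq_true.1 h2 y hy
      rw [Bool.or_eq_true, Nat.beq_eq] at this
      exact this.elim (fun e => e ▸ rfl) fun e => (by decide : ∀ x ∈ GP, okl x = true) y (by simpa using e)
    rw [e, evw_append, evw_append, D.liw (wl_spec h1).1, D.liw h5, evw_cons]
    group
  obtain ⟨j, hj, p, hp, e⟩ := D.gen (mkSub (fun a => ∀ i < 77, ∃ j < 77, ∃ p ∈ PP, a * evw L (wl i) = evw L (wl j) * p)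
    (fun i hi => ⟨i, hi, 1, one_mem _, by simp⟩) fun a b ha hb i hi => by
      obtain ⟨j, hj, p, hp, e⟩ := hb i hi
      obtain ⟨l, hl, q, hq, e'⟩ := ha j hj
      exact ⟨l, hl, _, mul_mem hq hp, by rw [mul_assoc, e, ← mul_assoc, e', mul_assoc]⟩)
    (fun c hc i hi => by
      obtain ⟨b, hb, e⟩ := D.inQ_cj (inv_mem (D.actw (wl_spec hi).1).2) ⟨c, hc, rfl⟩
      exact ⟨i, hi, _, D.qP hb, by rw [e]; group⟩)
    (fun x hx => by have := f x (by omega); rwa [lt_b (by omega), l0_lt hx] at this)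
    (by have := f 5 (by omega); rwa [lt_b (by omega)] at this) hg 0 (by omega)
  exact ⟨j, hj, p, hp, (mul_one g).symm.trans e⟩
theorem eqX {i j : ℕ} (hi : i < 77) (hj : j < 77) (h : (evw L (wl j))⁻¹ * evw L (wl i) ∈ Nm(D.vd.V)) : i = j :=
  D.comX hi hj fun a ha b hb => by
    have b6 : ∀ a ∈ B6, a < 64 := by decide
    have := D.vd.comm ((mem_normalizer_iff.1 h _).1 (D.vx (b6 a ha))) (D.vx (b6 b hb))
    rw [Commute, SemiconjBy, show evw L (wl i) * ψ a * (evw L (wl i))⁻¹ = evw L (wl j) * ((evw L (wl j))⁻¹ * evw L (wl i) * ψ a *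
      ((evw L (wl j))⁻¹ * evw L (wl i))⁻¹) * (evw L (wl j))⁻¹ by group, conj_mul, conj_mul, this]
theorem NC : Nm(D.vd.V) ⊓ Cx(z) = PP := le_antisymm (fun g hg => by
  obtain ⟨i, hi, p, hp, rfl⟩ := D.cos hg.2
  have := D.eqX hi (j := 0) (by omega) (by simpa [wl, WL] using (mul_mem_cancel_right (D.PN hp)).1 hg.1)
  subst this
  simpa [wl, WL] using hp) (le_inf D.PN D.PC)
theorem cardP : Nat.card PP = 283115520 := by
  have := Nat.card_eq_of_bijective (fun x : Fin 77 × PP => (⟨evw L (wl x.1) * x.2, mul_mem (D.actw (wl_spec x.1.2).1).2 (D.PC x.2.2)⟩ :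
    Cx(z))) ⟨fun x y e => by
      have e' : evw L (wl x.1) * x.2 = evw L (wl y.1) * y.2 := congrArg Subtype.val e
      have := Fin.ext (D.eqX x.1.2 y.1.2 (by
        rw [eq_mul_inv_of_mul_eq e', mul_assoc, inv_mul_cancel_left]
        exact D.PN (mul_mem y.2.2 (inv_mem x.2.2))))
      rw [this] at e'
      exact Prod.ext this (Subtype.ext (mul_left_cancel e')), fun g => by
      obtain ⟨i, hi, p, hp, e⟩ := D.cos g.2
      exact ⟨(⟨i, hi⟩, ⟨p, hp⟩), Subtype.ext e.symm⟩⟩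
  rw [D.card, Nat.card_prod, Nat.card_fin] at this
  omega
theorem cenu {u : ℕ} (hu : u < 2048) (h3 : 3 ≤ ty e1 u) (hg : g ∈ Cx(z)) (h : g ∈ Cx(φ₀ u)) : g ∈ PP := by
  obtain ⟨i, hi, p, hp, rfl⟩ := D.cos hg
  have := D.fixX hi hu h3 fun a ha => by
    have := D.vd.comm ((mem_normalizer_iff.1 (D.PN hp) _).1 (D.vd.mem hu)) (D.vx ((by decide : ∀ a ∈ B6, a < 64) a ha))
    rw [Commute, SemiconjBy, ← mem_Cx'.1 h, show evw L (wl i) * p * φ₀ u * (evw L (wl i) * p)⁻¹ = evw L (wl i) * (p * φ₀ u * p⁻¹) *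
      (evw L (wl i))⁻¹ by group, conj_mul, conj_mul, this]
  subst this
  simpa [wl, WL] using hp
end CD

end CfH3.J4
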