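import Cfsg.Agent.H3.Jv11
import Cfsg.Agent.H3.Jw0
import Cfsg.Agent.H9.JS2
import Cfsg.Agent.H5.JC4
import Cfsg.Agent.H1.JX
import Cfsg.Agent.H4.JUm
import Cfsg.Agent.H6.J4G
/-! Groups of type `J₄`. -/
set_option autoImplicit false
set_option maxRecDepth 100000
open Subgroup CfH9 CfH6 CfH5 Cfsg
namespace CfH3.J4

theorem CD.main {G : Type*} [Group G] [Finite G] [IsSimpleGroup G] {z k : G} {ψ ev : ℕ → G} {e1 e2 : ℕ} (D : CD z ψ ev k e1 e2) :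
    Nonempty (G ≃* J4B.G) ∧ ∃ x y : G, orderOf x = 2 ∧ orderOf y = 2 ∧ ¬ IsConj x y ∧ ∀ s : G, orderOf s = 2 → IsConj s x ∨ IsConj s y := by
  obtain ⟨⟨S, J, -⟩, cz⟩ := D.jf
  obtain ⟨k, θ, F⟩ := D.fd J cz
  obtain ⟨⟨S, J, -⟩, cz⟩ := F.d.jf
  obtain ⟨h2, h3⟩ := F.rels J cz
  let ε : Shrink.{0} G ≃* G := Shrink.mulEquiv
  obtain ⟨ρ0, hρ0⟩ := J4B.hhom (fun x => ε.symm (gl z ψ ev k (θ xx) (θ yy) x)) (fun x hx => by rw [h2 x hx, map_inv])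
    fun r hr => (map_evw ε.symm.toMonoidHom _ r).symm.trans (by rw [h3 r hr, map_one])
  let ρ := ε.toMonoidHom.comp ρ0
  have hρ : ∀ x < 4, ρ (J4B.el x) = gl z ψ ev k (θ xx) (θ yy) x := fun x hx => by simp [ρ, hρ0 x hx]
  obtain ⟨l1, l2⟩ := F.le J cz (H := ρ.range) fun x hx => ⟨_, hρ x hx⟩
  obtain ⟨nc, top, cl⟩ := F.fin J cz l1 l2
  have := J4G.simple
  exact ⟨⟨(MulEquiv.ofBijective ρ ⟨inj_of_simple ρ (g := J4B.el 0) (hρ 0 (by omega) ▸ F.x1 J cz), MonoidHom.range_eq_top.1 top⟩).symm⟩,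
    z, _, J.oz, orderOf_eq_prime (by rw [pow_two, F.d.vd.sq (by omega)]) fun e => absurd (F.d.vd.inj (by omega) e) (by omega), nc, cl⟩

end CfH3.J4
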