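import Cfsg.Agent.H3.Jv3
import Cfsg.Agent.H6.Pres
/-! Words in the centraliser of the involution. -/
set_option autoImplicit false
set_option maxRecDepth 100000
open Subgroup CfH9 CfH6
namespace CfH3.J4
open CfH3.He

variable {G : Type*} [Group G] {z k g h : G} {ψ ev : ℕ → G} {e1 e2 : ℕ}

structure Q0 (z : G) (ψ : ℕ → G) : Prop where
  mul : ∀ {a b}, a < 8192 → b < 8192 → ψ (mq a b) = ψ a * ψ b
  hz : ψ 4096 = z
  ne : z ≠ 1

def Act (ψ : ℕ → G) (g : G) (f : ℕ → ℕ) : Prop := ∀ c < 8192, f c < 8192 ∧ g * ψ c * g⁻¹ = ψ (f c)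
def InQ (ψ : ℕ → G) (g : G) : Prop := ∃ c < 8192, ψ c = g

theorem Act.congr {f f' : ℕ → ℕ} (h : Act ψ g f) (e : ∀ c < 8192, f c = f' c) : Act ψ g f' := fun c hc => e c hc ▸ h c hc
theorem Act.mul {f f' : ℕ → ℕ} (h1 : Act ψ g f) (h2 : Act ψ h f') : Act ψ (g * h) fun c => f (f' c) := fun c hc =>
  ⟨(h1 _ (h2 c hc).1).1, by rw [← (h1 _ (h2 c hc).1).2, ← (h2 c hc).2]; group⟩
theorem Act.one : Act ψ 1 id := fun c hc => ⟨hc, by simp⟩
theorem Act.inv {f f' : ℕ → ℕ} (h : Act ψ g f) (e : ∀ c < 8192, f' c < 8192 ∧ f (f' c) = c) : Act ψ g⁻¹ f' := fun c hc =>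
  ⟨(e c hc).1, by rw [← (e c hc).2, ← (h _ (e c hc).1).2, (e c hc).2]; group⟩

theorem sgn_aux : al (fun m => B12.all fun b => Nat.beq (bb (Nat.xor (Nat.mul 64 (lo6 m)) (hi6 m)) b) (m / b % 2)) 4096
    = true := by decide +kernel
theorem two_aux : al (fun c => (Nat.beq (Nat.land c 4096) 0 || Nat.beq (Nat.land c 4096) 4096) && (Nat.ble 4096 c ||
    (Nat.beq (Nat.land c 4096) 0 && Nat.beq (Nat.land (Nat.xor c 4096) 4096) 4096 && Nat.beq (qq (Nat.xor c 4096)) (qq c)))) 8192 = true := by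
  decide +kernel
theorem two_spec {c : ℕ} (hc : c < 8192) : (c &&& 4096 = 0 ∨ c &&& 4096 = 4096) ∧
    (c < 4096 → c &&& 4096 = 0 ∧ (c ^^^ 4096) &&& 4096 = 4096 ∧ qq (c ^^^ 4096) = qq c) := by
  have k := al_iff.1 two_aux c hc
  simp only [Bool.and_eq_true, Bool.or_eq_true, Nat.beq_eq, Nat.ble_eq, xor_eq, land_eq] at k
  exact ⟨k.1, fun h => and_assoc.1 (k.2.resolve_left (by omega))⟩
theorem b12' : ∀ b ∈ B12, ∃ i : Fin 12, b = 2 ^ i.1 ∧ 4096 ≤ b ^^^ 4096 := by decide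

namespace Q0
variable (D : Q0 z ψ)
include D

theorem one : ψ 0 = 1 := by
  have := D.mul (a := 0) (b := 0) (by omega) (by omega)
  rwa [(one_spec (by omega)).1.1, left_eq_mul] at this
theorem xz {c : ℕ} (hc : c < 8192) : ψ (c ^^^ 4096) = z * ψ c ∧ ψ c * z = z * ψ c := by
  rw [← D.hz, ← D.mul hc (by omega), ← D.mul (by omega) hc, (one_spec hc).1.2.1, (one_spec hc).1.2.2.1]
  exact ⟨rfl, rfl⟩
theorem zz : z * z = 1 := by
  have := (D.xz (c := 4096) (by omega)).1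
  rwa [Nat.xor_self, D.one, D.hz, eq_comm] at this
theorem pz (n : ℕ) : z ^ n = z ^ (n % 2) := by
  conv_lhs => rw [← Nat.div_add_mod n 2, pow_add, pow_mul, pow_two, D.zz, one_pow, one_mul]
theorem xp {c x : ℕ} (hc : c < 8192) (hx : x < 2) : ψ (c ^^^ 4096 * x) = z ^ x * ψ c := by
  interval_cases x
  · simp
  · rw [pow_one]; exact (D.xz hc).1
theorem mem {c : ℕ} (hc : c < 8192) : ψ c ∈ Cx(z) := mem_Cx.2 (D.xz hc).2
theorem inv {c : ℕ} (hc : c < 8192) : (ψ c)⁻¹ = ψ (c ^^^ 4096 * qq c) := (eq_inv_of_mul_eq_one_left (by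
  rw [← D.mul (xor13 hc (top_aux (qq_lt _)).2.2.2) hc, (one_spec hc).2.2.2.2, D.one])).symm
theorem act_inn {a : ℕ} (ha : a < 8192) : Act ψ (ψ a) (inn a) := by
  refine ind (P := fun a => Act ψ (ψ a) (inn a)) ?_ ?_ (fun b hb c hc => ⟨inn_lt _ hc, ?_⟩) (fun a ha b hb h1 h2 => ?_) a ha
  · rw [D.one]; exact Act.one.congr fun c _ => by rw [inn_eq, bb_top (x := 0) (by omega)]; simp
  · exact fun c hc => ⟨inn_lt _ hc, by rw [inn_eq, bb_top (x := 1) (by omega), D.hz, ← (D.xz hc).2]; simp⟩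
  · have h1 := (b12 b hb).trans (show 4096 < 8192 by omega)
    rw [← D.mul h1 hc, Nat.eq_of_beq_eq_true (al_iff.1 (List.all_eq_true.1 inn_aux b hb) c hc), D.mul (inn_lt _ hc) h1,
      mul_inv_cancel_right]
  · rw [D.mul ha hb]
    refine (h1.mul h2).congr fun c _ => ?_
    rw [inn_eq, inn_eq, inn_eq, bb_mq, bb_xor', bb_comm a (4096 * _), bb_top (bb_lt _ _), Nat.xor_zero, Nat.xor_assoc]
    have := bb_lt a c
    have := bb_lt b c
    interval_cases bb a c <;> interval_cases bb b c <;> rfl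
theorem ker {c : ℕ} (hc : c < 8192) (h : ψ c = 1) : c = 0 := by
  rcases (one_spec hc).2.2.2.1 with e | ⟨b, -, -, e⟩
  · rcases (one_spec hc).2.1 with e' | e' <;> rw [e] at e'
    · exact e'.symm
    · exact absurd (D.hz.symm.trans (by rwa [← e'] at h)) D.ne
  · have := (D.act_inn (a := 64 * lo6 b ^^^ hi6 b) (xor13 (by have := lo6_lt b; omega) (by have := hi6_lt b; omega)) c hc).2
    rw [inn_eq, e, (D.xz hc).1, h] at this
    exact absurd (by simpa using this.symm) D.ne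
theorem inj {a b : ℕ} (ha : a < 8192) (hb : b < 8192) (h : ψ a = ψ b) : a = b := by
  have h1 := xor13 ha (top_aux (qq_lt a)).2.2.2
  have h2 := D.ker (mq_lt h1 hb) (by rw [D.mul h1 hb, ← D.inv ha, h, inv_mul_cancel])
  have h3 := congrArg lo h2
  rw [lo_mq, lo_xor, (top_aux (qq_lt a)).2.2.1, Nat.xor_zero, show lo 0 = 0 from rfl, Nat.xor_eq_zero_iff] at h3
  have f : ∀ {a b}, a < 8192 → lo a = a → lo a ^^^ 4096 = b → ψ a ≠ ψ b := fun {a b} ha e e' h => by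
    rw [← e', e, (D.xz ha).1, right_eq_mul] at h
    exact D.ne h
  rcases (one_spec ha).2.1 with e | e <;> rcases (one_spec hb).2.1 with e' | e'
  · rw [← e, h3, e']
  · exact absurd h (f ha e (h3 ▸ e'))
  · exact absurd h.symm (f hb e' (h3 ▸ e))
  · rw [← e, h3, e']
theorem bb_iff {a b : ℕ} (ha : a < 8192) (hb : b < 8192) : bb a b = 0 ↔ ψ a * ψ b = ψ b * ψ a := by
  rw [← mul_inv_eq_iff_eq_mul, (D.act_inn ha b hb).2, inn_eq, D.xp hb (bb_lt _ _), mul_eq_right]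
  have := bb_lt a b
  interval_cases bb a b <;> simp [D.ne]
theorem act_mq {f : ℕ → ℕ} (h : Act ψ g f) {a b : ℕ} (ha : a < 8192) (hb : b < 8192) : f (mq a b) = mq (f a) (f b) :=
  D.inj (h _ (mq_lt ha hb)).1 (mq_lt (h a ha).1 (h b hb).1) (by
    rw [← (h _ (mq_lt ha hb)).2, D.mul ha hb, D.mul (h a ha).1 (h b hb).1, ← (h a ha).2, ← (h b hb).2, conj_mul])
theorem act_z {f : ℕ → ℕ} (h : Act ψ g f) (hg : g ∈ Cx(z)) : f 0 = 0 ∧ f 4096 = 4096 :=
  ⟨D.ker (h 0 (by omega)).1 (by rw [← (h 0 (by omega)).2, D.one]; simp), D.inj (h _ (by omega)).1 (by omega) (by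
    rw [← (h _ (by omega)).2, D.hz, mem_Cx.1 hg, mul_inv_cancel_right])⟩
theorem act_bb {f : ℕ → ℕ} (h : Act ψ g f) {a b : ℕ} (ha : a < 8192) (hb : b < 8192) : bb (f a) (f b) = 0 ↔ bb a b = 0 := by
  rw [D.bb_iff ha hb, D.bb_iff (h a ha).1 (h b hb).1, ← (h a ha).2, ← (h b hb).2, conj_mul, conj_mul, conj_injective.eq_iff]
theorem act_lo {f u : ℕ → ℕ} (h : Act ψ g f) (hg : g ∈ Cx(z)) (hu : ∀ a b, u (mq a b) = u a ^^^ u b) (h0 : u 4096 = 0)
    (hb : ∀ b ∈ B12, lo (f b) = u b) : ∀ c < 8192, lo (f c) = u c := by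
  refine ind (P := fun c => lo (f c) = u c) ?_ (by rw [(D.act_z h hg).2, h0]; rfl) hb fun a ha b hb h1 h2 => by
    rw [D.act_mq h ha hb, lo_mq, h1, h2, hu]
  have := hu 0 0
  rw [(one_spec (by omega)).1.1, Nat.xor_self] at this
  rw [(D.act_z h hg).1, this]; rfl
theorem inQ (cen : ∀ g, (∀ c < 8192, g * ψ c = ψ c * g) → g = 1 ∨ g = z) {f : ℕ → ℕ} (h : Act ψ g f) (hg : g ∈ Cx(z))
    (hb : ∀ b ∈ B12, lo (f b) = b) : InQ ψ g := by
  let m := Nat.ofBits fun i : Fin 12 => decide (4096 ≤ f (2 ^ i.1))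
  have hm : m < 4096 := Nat.ofBits_lt_two_pow _
  have ha : 64 * lo6 m ^^^ hi6 m < 8192 := xor13 (by have := lo6_lt m; omega) (by have := hi6_lt m; omega)
  generalize hq : 64 * lo6 m ^^^ hi6 m = a at ha
  have k : ∀ c < 8192, f c = inn a c := by
    refine ind (P := fun c => f c = inn a c) ?_ ?_ (fun b hb' => ?_) fun x hx y hy h1 h2 => by
      rw [D.act_mq h hx hy, D.act_mq (D.act_inn ha) hx hy, h1, h2]
    · rw [(D.act_z h hg).1, (D.act_z (D.act_inn ha) (D.mem ha)).1]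
    · rw [(D.act_z h hg).2, (D.act_z (D.act_inn ha) (D.mem ha)).2]
    · have h1 := Nat.eq_of_beq_eq_true (List.all_eq_true.1 (al_iff.1 sgn_aux m hm) b hb')
      obtain ⟨i, rfl, h6⟩ := b12' b hb'
      have h2 : m.testBit i = decide (4096 ≤ f (2 ^ i.1)) := Nat.testBit_ofBits_lt _ _ i.2
      have h3 := hb _ hb'
      have h4 := (h _ ((b12 _ hb').trans (by omega))).1
      have h5 := (one_spec h4).2.1
      rw [Nat.testBit_eq_decide_div_mod_eq, decide_eq_decide] at h2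
      simp only [xor_eq, Nat.mul_eq, hq] at h1
      rw [inn_eq, h1]
      rw [h3] at h5
      rcases h5 with e | e
      · have := b12 _ hb'
        rw [show m / 2 ^ i.1 % 2 = 0 by omega, ← e]; simp
      · rw [h2.2 (e ▸ h6), e]
  rcases cen ((ψ a)⁻¹ * g) (fun c hc => by
    have := (h c hc).2
    rw [k c hc, ← (D.act_inn ha c hc).2] at this
    calc _ = (ψ a)⁻¹ * (g * ψ c * g⁻¹) * g := by group
      _ = _ := by rw [this]; group) with e | e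
  · exact ⟨a, ha, (inv_mul_eq_one.1 e)⟩
  · exact ⟨_, xor13 (b := 4096) ha (by omega), by rw [(D.xz ha).1, ← (D.xz ha).2, ← e, mul_inv_cancel_left]⟩
theorem inQ_mul (h1 : InQ ψ g) (h2 : InQ ψ h) : InQ ψ (g * h) := by
  obtain ⟨a, ha, rfl⟩ := h1
  obtain ⟨b, hb, rfl⟩ := h2
  exact ⟨_, mq_lt ha hb, D.mul ha hb⟩
theorem inQ_z (n : ℕ) : InQ ψ (z ^ n) := ⟨_, xor13 (a := 0) (by omega) (top_aux (Nat.mod_lt n two_pos)).2.2.2, by
  rw [D.xp (by omega) (Nat.mod_lt n two_pos), D.one, mul_one, ← D.pz]⟩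
theorem canon {r : G} (hr : Act ψ r (ap 6)) {p : ℕ} (hp : p < 2) (hg : g * r * g⁻¹ = cond (Nat.beq p 1) r⁻¹ r) (hz : g ∈ Cx(z))
    {a c : ℕ} (ha : a < 4096) (hc : c < 8192) (h : g * ψ c * g⁻¹ = ψ a ∨ g * ψ c * g⁻¹ = z * ψ a) :
    g * ψ c * g⁻¹ = ψ (a ^^^ (c &&& 4096) ^^^ 4096 * (p * qq a)) := by
  have hr' : Act ψ r⁻¹ (ap 7) := hr.inv fun c hc => ⟨ap_lt _ _, (one_spec hc).2.2.1.2.1⟩
  obtain ⟨b, hb, e, e'⟩ : ∃ b < 8192, g * ψ c * g⁻¹ = ψ b ∧ (b = a ∨ b = a ^^^ 4096) := by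
    rcases h with h | h
    exacts [⟨a, by omega, h, Or.inl rfl⟩, ⟨_, xor13 (by omega) (by omega), h.trans (D.xz (by omega)).1.symm, Or.inr rfl⟩]
  have k : ∀ {c}, c < 8192 → ψ c * (r * ψ c * r⁻¹) * (r⁻¹ * ψ c * r⁻¹⁻¹) = ψ (c &&& 4096) ∧
      ψ c * (r⁻¹ * ψ c * r⁻¹⁻¹) * (r * ψ c * r⁻¹) = ψ (c &&& 4096 ^^^ 4096 * qq c) := fun {c} hc => by
    rw [(hr c hc).2, (hr' c hc).2, ← D.mul hc (ap_lt _ _), ← D.mul hc (ap_lt _ _), ← D.mul (mq_lt hc (ap_lt _ _)) (ap_lt _ _),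
      ← D.mul (mq_lt hc (ap_lt _ _)) (ap_lt _ _), (one_spec hc).2.2.1.1, (one_spec hc).2.2.1.2.2]
    exact ⟨rfl, rfl⟩
  have k1 : g * ψ (c &&& 4096) * g⁻¹ = ψ (c &&& 4096) := by
    rcases (two_spec hc).1 with e | e <;> rw [e]
    · rw [D.one]; simp
    · rw [D.hz, mem_Cx.1 hz, mul_inv_cancel_right]
  have k2 := (k hc).1
  rw [← k2, ← conj_mul, ← conj_mul, show g * (r * ψ c * r⁻¹) * g⁻¹ = (g * r * g⁻¹) * (g * ψ c * g⁻¹) * (g * r * g⁻¹)⁻¹ by group,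
    show g * (r⁻¹ * ψ c * r⁻¹⁻¹) * g⁻¹ = (g * r * g⁻¹)⁻¹ * (g * ψ c * g⁻¹) * (g * r * g⁻¹)⁻¹⁻¹ by group, hg, e, k2] at k1
  have l : ∀ c, c &&& 4096 < 8192 := fun c => Nat.lt_of_le_of_lt Nat.and_le_right (by omega)
  obtain ⟨u1, u2, u3⟩ := (two_spec (by omega)).2 ha
  have q2 := qq_lt a
  rw [e]
  congr 1
  interval_cases p
  · have := D.inj (l _) (l _) ((k hb).1.symm.trans k1)
    rcases e' with rfl | rfl
    · rw [← this, u1]; simp
    · rw [← this, u2]; simp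
  · have := D.inj (xor13 (l _) (top_aux (qq_lt _)).2.2.2) (l _) ((k hb).2.symm.trans (by simpa using k1))
    rcases e' with rfl | rfl
    · rw [← this, u1, one_mul, Nat.zero_xor, Nat.xor_xor_cancel_right]
    · rw [← this, u2, u3, one_mul, ← Nat.xor_assoc, Nat.xor_xor_cancel_right]
end Q0

end CfH3.J4
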