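import Cfsg.Agent.H3.Jv4
/-! Evaluation of words in the centraliser of the involution. -/
set_option autoImplicit false
set_option maxRecDepth 100000
open Subgroup CfH9 CfH6
namespace CfH3.J4
open CfH3.He

def RW : List ℕ := [1, 2, 3, 1, 2, 3, 1, 2, 3, 1, 2, 3, 1, 2, 3]
def RI : List ℕ := [3, 2, 1, 3, 2, 1, 3, 2, 1, 3, 2, 1, 3, 2, 1]
def DW : List ℕ := [4, 1, 2, 3, 0, 2, 1, 3, 1, 2, 3, 4, 0, 2, 1, 0]
def SUB (i : ℕ) : List ℕ := [[0], [1], [2], [3], [4], [5], [6], [7], [8], [6, 5, 3, 5, 3, 5, 4, 1, 3], [7, 4, 3, 5, 3, 4],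
  [7, 2, 1, 0, 2, 1, 3, 5, 3, 2, 1, 0, 2, 0], [6, 2, 3, 1, 3, 5, 2, 1, 0, 2, 3, 1, 3, 2], [2, 3, 4, 1, 3, 5, 3, 2, 1, 3, 4, 2, 3, 1],
  [3, 1, 3], [3, 1, 3, 1, 0], [2, 1, 0, 2, 3, 1, 3, 2, 1, 0, 2, 1], [3, 2, 1, 0, 2, 3, 1, 3, 2, 1, 0, 2, 3],
  [5, 3, 4, 1, 3, 0, 2, 1, 3, 5, 4, 1, 0], [3, 1, 4, 8, 3, 8, 3, 8, 7], [4, 3, 8, 3, 4, 6], [0, 2, 0, 1, 2, 3, 8, 3, 1, 2, 0, 1, 2, 6],
  [2, 3, 1, 3, 2, 0, 1, 2, 8, 3, 1, 3, 2, 7], [1, 3, 2, 4, 3, 1, 2, 3, 8, 3, 1, 4, 3, 2], [0, 1, 4, 8, 3, 1, 2, 0, 3, 1, 4, 3, 8]].getD i []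
def zb (i : ℕ) : ℕ := Nat.land (Nat.shiftRight 21336064 i) 1
def dn (i : ℕ) : ℕ := cond (Nat.beq i 5) 1 (cond (Nat.beq i 8) 3 0)
def kw (i p : ℕ) : List ℕ := cond (Nat.blt i 5) (cond (Nat.beq i 3 && Nat.beq p 1) DW [i])
  (cond (Nat.beq i 6) (cond (Nat.beq p 1) RI RW) (cond (Nat.beq i 7) (cond (Nat.beq p 1) RW RI) []))
noncomputable def cnt (l : List ℕ) : ℕ := List.rec 0 (fun i _ r => Nat.add (dn i) r) l
noncomputable def trw (l : List ℕ) : ℕ → List ℕ := List.rec (fun _ => []) (fun i _ ih n => kw i (n % 2) ++ ih (n + dn i)) l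
noncomputable def sgt (l : List ℕ) : ℕ → ℕ → ℕ := List.rec (fun _ x => x)
  (fun i _ ih n x => frc (sgp (kw i (Nat.mod n 2)) x) fun x => frc (Nat.add n (dn i)) fun n => ih n x) l
def okl (i : ℕ) : Bool := Nat.blt i 25 || (Nat.ble 32 i && Nat.blt i 8224)
noncomputable def apq (i c : ℕ) : ℕ := cond (Nat.blt i 32) (ap i c) (inn (Nat.sub i 32) c)
noncomputable def wa (w : List ℕ) (c : ℕ) : ℕ := List.rec c (fun i _ r => frc r (apq i)) w
noncomputable def wu (w : List ℕ) (c : ℕ) : ℕ := List.rec c (fun i _ r => frc r fun r => cond (Nat.blt i 32) (au i r) r) w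
noncomputable def triv (w : List ℕ) : Bool := B12.all fun b => Nat.beq (lo (wu w b)) b
noncomputable def col (w : List ℕ) : ℕ := List.rec 0 (fun i _ r => frc r fun r => cond (Nat.blt i 32) (ap i r) (mq (Nat.sub i 32) r)) w
noncomputable def zc (w : List ℕ) : ℕ := List.rec 0 (fun i _ r => Nat.add (zb i) r) w
noncomputable def flat (w : List ℕ) : List ℕ := List.rec [] (fun i _ r => SUB i ++ r) w
noncomputable def cv (e1 e2 : ℕ) (w : List ℕ) : ℕ := frc (cnt (flat w)) fun n =>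
  cond (w.all okl && triv w && Nat.beq (Nat.mod n 2) 0)
    (Nat.xor (col w) (Nat.mul 4096 (Nat.mod (Nat.add (Nat.add (zc w) (Nat.mul e1 (sgt (flat w) 0 0))) (Nat.mul e2 (n / 2))) 2))) 8192
def il (i : ℕ) : ℕ := cond (Nat.blt i 32) ([0, 1, 2, 3, 4, 8, 7, 6, 5, 19, 20, 21, 22, 23, 14, 15, 16, 17, 24, 9, 10, 11, 12, 13, 18].getD i 0)
  (Nat.add (Nat.xor (Nat.sub i 32) (Nat.mul 4096 (qq (Nat.sub i 32)))) 32)
def iw (w : List ℕ) : List ℕ := (w.map il).reverse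

theorem blt_t {a b : ℕ} (h : a < b) : Nat.blt a b = true := Nat.blt_eq.mpr h
theorem blt_f {a b : ℕ} (h : b ≤ a) : Nat.blt a b = false := Bool.eq_false_iff.2 fun e => by have := Nat.blt_eq.mp e; omega
theorem sgp_app (u w : List ℕ) (x : ℕ) : sgp (u ++ w) x = sgp w (sgp u x) := by
  induction u generalizing x with
  | nil => rfl
  | cons g u ih => rw [List.cons_append, sgp_cons, sgp_cons, ih]
theorem trw_cons (i : ℕ) (l : List ℕ) (n : ℕ) : trw (i :: l) n = kw i (n % 2) ++ trw l (n + dn i) := rfl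
theorem cnt_cons (i : ℕ) (l : List ℕ) : cnt (i :: l) = dn i + cnt l := rfl
theorem sgt_eq (l : List ℕ) (n x : ℕ) : sgt l n x = sgp (trw l n) x := by
  induction l generalizing n x with
  | nil => rfl
  | cons i l ih =>
    have : sgt (i :: l) n x = frc (sgp (kw i (Nat.mod n 2)) x) fun x => frc (Nat.add n (dn i)) fun n => sgt l n x := rfl
    rw [this, frc_eq, frc_eq, ih, trw_cons, sgp_app]; rfl
theorem kw_lt (i p : ℕ) : ∀ x ∈ kw i p, x < 5 := by
  have : (∀ x ∈ DW, x < 5) ∧ (∀ x ∈ RW, x < 5) ∧ ∀ x ∈ RI, x < 5 := by decide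
  unfold kw
  by_cases h : i < 5
  · rw [blt_t h, cond_true]
    cases (Nat.beq i 3 && Nat.beq p 1)
    exacts [by simpa using h, this.1]
  · rw [show Nat.blt i 5 = false from Bool.eq_false_iff.2 fun e => h (Nat.blt_eq.mp e)]
    cases Nat.beq i 6 <;> cases Nat.beq i 7 <;> cases Nat.beq p 1 <;> simp [this.2.1, this.2.2] <;> first | exact this.2.1 | exact this.2.2
theorem trw_lt (l : List ℕ) (n : ℕ) : ∀ x ∈ trw l n, x < 5 := by
  induction l generalizing n with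
  | nil => exact fun _ h => nomatch h
  | cons i l ih => rw [trw_cons, List.forall_mem_append]; exact ⟨kw_lt _ _, ih _⟩
theorem wa_cons (i : ℕ) (w : List ℕ) (c : ℕ) : wa (i :: w) c = apq i (wa w c) := frc_eq _ _
theorem wu_cons (i : ℕ) (w : List ℕ) (c : ℕ) : wu (i :: w) c = cond (Nat.blt i 32) (au i (wu w c)) (wu w c) :=
  frc_eq (wu w c) fun r => cond (Nat.blt i 32) (au i r) r
theorem au_lo (i c : ℕ) : au i (lo c) = au i c := by
  have h1 : lo6 (lo c) = lo6 c := by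
    show c &&& 4095 &&& 63 = c &&& 63
    rw [Nat.and_assoc]; rfl
  have h2 : hi6 (lo c) = hi6 c := by
    show (c &&& 4095) >>> 6 &&& 63 = c >>> 6 &&& 63
    rw [Nat.shiftRight_and_distrib, Nat.and_assoc]; rfl
  rw [au, au, h1, h2]
theorem lo_ap (i c : ℕ) : lo (ap i c) = au i c := by
  have := od_lt i
  have := qq_lt (au i c)
  rw [ap_eq, lo_xor, lo_xor, (top_aux (x := od i * qq (au i c)) (by nlinarith)).2.2.1, lo_of_lt (au_lt _ _),
    show lo (c &&& 4096) = 0 from (Nat.and_assoc _ _ _).trans (Nat.and_zero _)]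
  simp
theorem lo_wa (w : List ℕ) (c : ℕ) : lo (wa w c) = lo (wu w c) := by
  induction w with
  | nil => rfl
  | cons i w ih =>
    rw [wa_cons, wu_cons, apq]
    cases Nat.blt i 32
    · rw [cond_false, cond_false, inn_eq, lo_xor, (top_aux (bb_lt _ _)).2.2.1, Nat.xor_zero, ih]
    · rw [cond_true, cond_true, lo_ap, lo_of_lt (au_lt _ _), ← au_lo, ih, au_lo]
theorem sub_aux : (∀ i < 25, (∀ x ∈ SUB i, x < 9) ∧ cnt (SUB i) % 2 = od i ∧ ∀ b ∈ B12, lo (wu (SUB i) b) = au i b) ∧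
    al (fun c => Nat.beq (ap 5 (ap 8 c)) c) 8192 = true ∧ (∀ i < 9, SUB i = [i] ∧ zb i = 0) ∧
    ∀ i ∈ [9, 10, 11, 12, 13, 18], SUB (il i) = iw (SUB i) ∧ zb (il i) = zb i := by decide +kernel
theorem sub_big {i : ℕ} (h : 32 ≤ i) : SUB i = [] ∧ zb i = 0 := ⟨List.getD_eq_default _ _ (by simpa using by omega), by
  show 21336064 >>> i &&& 1 = 0
  rw [Nat.shiftRight_eq_div_pow, Nat.div_eq_of_lt (lt_of_lt_of_le (by norm_num) (Nat.pow_le_pow_right two_pos h))]; rfl⟩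
theorem okl_iff {i : ℕ} : okl i = true ↔ i < 25 ∨ 32 ≤ i ∧ i < 8224 := by simp [okl, Nat.blt_eq, Nat.ble_eq]

variable {G : Type*} [Group G] {z k g h : G} {ψ ev : ℕ → G} {e1 e2 : ℕ}

def l0 (ev : ℕ → G) (k : G) (i : ℕ) : G := cond (Nat.blt i 5) (ev i) (cond (Nat.beq i 5) k (cond (Nat.beq i 6) (evw ev RW)
  (cond (Nat.beq i 7) (evw ev RW)⁻¹ k⁻¹)))
def lt (z : G) (ψ ev : ℕ → G) (k : G) (i : ℕ) : G := cond (Nat.blt i 32) (z ^ zb i * evw (l0 ev k) (SUB i)) (ψ (i - 32))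
theorem l0_lt {i : ℕ} (h : i < 5) : l0 ev k i = ev i := by rw [l0, blt_t h]; rfl
theorem lt_q (c : ℕ) : lt z ψ ev k (c + 32) = ψ c := by rw [lt, blt_f (by omega)]; rfl
theorem lt_l {i : ℕ} (h : i < 32) : lt z ψ ev k i = z ^ zb i * evw (l0 ev k) (SUB i) := by rw [lt, blt_t h]; rfl
theorem lt_b {i : ℕ} (h : i < 9) : lt z ψ ev k i = l0 ev k i := by
  rw [lt_l (by omega), (sub_aux.2.2.1 i h).1, (sub_aux.2.2.1 i h).2]; simp

structure CD (z : G) (ψ ev : ℕ → G) (k : G) (e1 e2 : ℕ) : Prop where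
  q : Q0 z ψ
  cen : ∀ g, (∀ c < 8192, g * ψ c = ψ c * g) → g = 1 ∨ g = z
  i2 : ∀ i < 5, ev i * ev i = 1
  me : ∀ i < 5, ev i ∈ Cx(z)
  mk' : k ∈ Cx(z)
  ua : ∀ i < 6, ∀ c < 8192, l0 ev k i * ψ c * (l0 ev k i)⁻¹ = ψ (au i c) ∨ l0 ev k i * ψ c * (l0 ev k i)⁻¹ = z * ψ (au i c)
  ar : Act ψ (evw ev RW) (ap 6)
  rc : ∀ i < 5, ev i * evw ev RW * (ev i)⁻¹ = evw ev RW
  kr : k * evw ev RW * k⁻¹ = (evw ev RW)⁻¹
  kc : ∀ i < 5, k * ev i = evw ev (kw i 1) * k
  kk : k * k = z ^ e2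
  sgn : ∀ w, (∀ x ∈ w, x < 5) → InQ ψ (evw ev w) → evw ev w = z ^ (e1 * sg w)
  gen : ∀ H : Subgroup G, (∀ c < 8192, ψ c ∈ H) → (∀ i < 5, ev i ∈ H) → k ∈ H → Cx(z) ≤ H
  card : Nat.card Cx(z) = 21799895040
  act : ∀ g ∈ Cx(z), ∃ f, Act ψ g f
  h1 : e1 < 2
  h2 : e2 < 2

namespace CD
variable (D : CD z ψ ev k e1 e2)
include D
local notation "R" => evw ev RW
local notation "L" => lt z ψ ev k

theorem mw {w : List ℕ} (h : ∀ x ∈ w, x < 5) : evw ev w ∈ Cx(z) := evw_mem D.me h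
theorem mr : R ∈ Cx(z) := D.mw (by decide)
theorem ri : evw ev RI = R⁻¹ := (evw_invw ev [0, 1, 2, 3, 4] 5 (fun x hx => by
  rw [← eq_inv_of_mul_eq_one_left (D.i2 x hx)]; interval_cases x <;> rfl) RW (by decide))
theorem m0 (i : ℕ) : l0 ev k i ∈ Cx(z) := by
  by_cases h : i < 5
  · rw [l0_lt h]; exact D.me i h
  · rw [l0, blt_f (by omega)]
    cases Nat.beq i 5 <;> cases Nat.beq i 6 <;> cases Nat.beq i 7 <;>
      first | exact D.mk' | exact D.mr | exact inv_mem D.mr | exact inv_mem D.mk'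
theorem mw0 (w : List ℕ) : evw (l0 ev k) w ∈ Cx(z) := by
  induction w with
  | nil => exact one_mem _
  | cons i w ih => exact mul_mem (D.m0 i) ih
theorem zm (n : ℕ) : z ^ n ∈ Cx(z) := pow_mem (mem_Cx.2 rfl) n
theorem zc' (n : ℕ) (hg : g ∈ Cx(z)) : g * z ^ n = z ^ n * g := (Commute.pow_right (mem_Cx.1 hg) n).eq
theorem k4 : k ^ 3 = k⁻¹ := eq_inv_of_mul_eq_one_left (by
  rw [← pow_succ, show 3 + 1 = 2 * 2 from rfl, pow_mul, pow_two k, D.kk, ← pow_mul, mul_comm, pow_mul, pow_two, D.q.zz, one_pow])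
theorem kpow (n : ℕ) : k ^ n = z ^ (e2 * (n / 2)) * k ^ (n % 2) := by
  conv_lhs => rw [← Nat.div_add_mod n 2, pow_add, pow_mul, pow_two, D.kk, ← pow_mul]
theorem kstep {i : ℕ} (hi : i < 9) (n : ℕ) : k ^ n * l0 ev k i = evw ev (kw i (n % 2)) * k ^ (n + dn i) := by
  have e : ∀ p < 2, k ^ p * l0 ev k i = evw ev (kw i p) * k ^ (p + dn i) := fun p hp => by
    have r1 : k * R = R⁻¹ * k := by rw [← D.kr]; group
    have r2 : k * R⁻¹ = R * k := by rw [← mul_inv_eq_iff_eq_mul, ← conj_inv, D.kr, inv_inv]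
    interval_cases p
    · rw [pow_zero, one_mul, zero_add]
      interval_cases i
      iterate 5 exact ((congrArg _ (pow_zero k)).trans ((mul_one _).trans (mul_one _))).symm
      · exact ((one_mul _).trans (pow_one k)).symm
      · exact ((congrArg _ (pow_zero k)).trans (mul_one _)).symm
      · exact ((congrArg _ (pow_zero k)).trans ((mul_one _).trans D.ri)).symm
      · exact ((one_mul _).trans D.k4).symm
    · by_cases h : i < 5
      · rw [l0_lt h, pow_one, D.kc i h, show dn i = 0 by interval_cases i <;> rfl, pow_one]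
      · rw [pow_one]
        obtain rfl | rfl | rfl | rfl : i = 5 ∨ i = 6 ∨ i = 7 ∨ i = 8 := by omega
        · exact ((one_mul _).trans (pow_two k)).symm
        · exact r1.trans (by rw [← D.ri]; exact congrArg _ (pow_one k).symm)
        · exact r2.trans (congrArg _ (pow_one k).symm)
        · exact ((one_mul _).trans ((pow_succ' k 3).trans (congrArg _ D.k4))).symm
  rw [D.kpow n, mul_assoc, e _ (Nat.mod_lt n two_pos), ← mul_assoc, ← D.zc' _ (D.mw (kw_lt _ _)), mul_assoc, pow_add, ← mul_assoc (z ^ _),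
    ← D.kpow, pow_add]
theorem ktr {l : List ℕ} (h : ∀ x ∈ l, x < 9) (n : ℕ) : k ^ n * evw (l0 ev k) l = evw ev (trw l n) * k ^ (n + cnt l) := by
  induction l generalizing n with
  | nil => simp [trw, cnt]
  | cons i l ih =>
    rw [List.forall_mem_cons] at h
    rw [evw_cons, ← mul_assoc, D.kstep h.1, mul_assoc, ih h.2, trw_cons, evw_append, cnt_cons, mul_assoc, add_assoc]
theorem rw0 {w : List ℕ} (h : ∀ x ∈ w, x < 5) : evw ev w * R * (evw ev w)⁻¹ = R := by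
  induction w with
  | nil => simp
  | cons i w ih =>
    rw [List.forall_mem_cons] at h
    rw [evw_cons, show ∀ a b : G, a * b * R * (a * b)⁻¹ = a * (b * R * b⁻¹) * a⁻¹ from fun a b => by group, ih h.2, D.rc i h.1]
theorem rr {l : List ℕ} (h : ∀ x ∈ l, x < 9) :
    evw (l0 ev k) l * R * (evw (l0 ev k) l)⁻¹ = cond (Nat.beq (cnt l % 2) 1) R⁻¹ R := by
  have := D.ktr h 0
  rw [pow_zero, one_mul, zero_add, D.kpow, ← mul_assoc, D.zc' _ (D.mw (trw_lt _ _))] at this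
  have e : ∀ a b c x : G, a * b * c * x * (a * b * c)⁻¹ = a * (b * (c * x * c⁻¹) * b⁻¹) * a⁻¹ := fun a b c x => by group
  rw [this, e]
  rcases Nat.mod_two_eq_zero_or_one (cnt l) with h | h <;> rw [h]
  · rw [pow_zero, one_mul, inv_one, mul_one, D.rw0 (trw_lt _ _), ← D.zc' _ D.mr, mul_inv_cancel_right]; rfl
  · rw [pow_one, D.kr, ← conj_inv, D.rw0 (trw_lt _ _), ← D.zc' _ (inv_mem D.mr), mul_inv_cancel_right]; rfl
theorem act0 {i : ℕ} (hi : i < 9) : Act ψ (l0 ev k i) (ap i) := by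
  have f : ∀ i < 6, Act ψ (l0 ev k i) (ap i) := fun i hi c hc => ⟨ap_lt _ _, by
    have := D.rr (l := [i]) (by simpa using by omega)
    rw [evw_cons, evw_nil, mul_one, show cnt [i] % 2 = od i by interval_cases i <;> rfl] at this
    rw [ap_eq]
    exact D.q.canon D.ar (od_lt i) this (D.m0 i) (au_lt _ _) hc (D.ua i hi c hc)⟩
  by_cases h : i < 6
  · exact f i h
  interval_cases i
  · exact D.ar
  · exact D.ar.inv fun c hc => ⟨ap_lt _ _, (one_spec hc).2.2.1.2.1⟩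
  · exact (f 5 (by omega)).inv fun c hc => ⟨ap_lt _ _, Nat.eq_of_beq_eq_true (al_iff.1 sub_aux.2.1 c hc)⟩
theorem actw0 {l : List ℕ} (h : ∀ x ∈ l, x < 9) : Act ψ (evw (l0 ev k) l) (wa l) := by
  induction l with
  | nil => exact Act.one
  | cons i l ih =>
    rw [List.forall_mem_cons] at h
    exact ((D.act0 h.1).mul (ih h.2)).congr fun c _ => by rw [wa_cons, apq, blt_t (by omega)]; rfl
theorem lo_or {a : ℕ} (ha : a < 8192) : ψ a = ψ (lo a) ∨ ψ a = z * ψ (lo a) := (one_spec ha).2.1.imp (fun e => by rw [e])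
  fun e => by rw [← (D.q.xz ((lo_lt a).trans (by omega))).1, e]
theorem actl {i : ℕ} (hi : okl i = true) : Act ψ (L i) (apq i) ∧ L i ∈ Cx(z) := by
  rcases okl_iff.1 hi with hi | hi
  · obtain ⟨h1, h2, h3⟩ := sub_aux.1 i hi
    refine ⟨fun c hc => ?_, lt_l (z := z) (show i < 32 by omega) ▸ mul_mem (D.zm _) (D.mw0 _)⟩
    have a := D.actw0 h1
    have b := D.q.act_lo a (D.mw0 _) (au_mq hi) (au_top hi (x := 1) (by omega)) (fun b hb => by rw [lo_wa, h3 b hb]) c hc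
    rw [apq, blt_t (by omega), cond_true, lt_l (by omega), ap_eq]
    refine ⟨ap_eq i c ▸ ap_lt _ _, ?_⟩
    rw [← D.q.canon D.ar (od_lt i) (h2 ▸ D.rr h1) (D.mw0 _) (au_lt _ _) hc (by rw [(a c hc).2, ← b]; exact D.lo_or (a c hc).1),
      show ∀ a b x : G, a * b * x * (a * b)⁻¹ = a * (b * x * b⁻¹) * a⁻¹ from fun a b x => by group, (a c hc).2,
      ← D.zc' _ (D.q.mem (a c hc).1), mul_inv_cancel_right]
  · obtain ⟨c, rfl⟩ := Nat.exists_eq_add_of_le' hi.1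
    rw [lt_q]
    exact ⟨(D.q.act_inn (by omega)).congr fun x _ => by rw [apq, blt_f (by omega)]; simp, D.q.mem (by omega)⟩
theorem actw {w : List ℕ} (h : w.all okl = true) : Act ψ (evw L w) (wa w) ∧ evw L w ∈ Cx(z) := by
  induction w with
  | nil => exact ⟨Act.one, one_mem _⟩
  | cons i w ih =>
    rw [List.all_cons, Bool.and_eq_true] at h
    exact ⟨((D.actl h.1).1.mul (ih h.2).1).congr fun c _ => (wa_cons _ _ _).symm, mul_mem (D.actl h.1).2 (ih h.2).2⟩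
theorem triv_sound {w : List ℕ} (h : w.all okl = true) (t : triv w = true) : InQ ψ (evw L w) :=
  D.q.inQ D.cen (D.actw h).1 (D.actw h).2 fun b hb => by rw [lo_wa]; exact Nat.eq_of_beq_eq_true (List.all_eq_true.1 t b hb)
theorem col_sound {w : List ℕ} (h : w.all okl = true) :
    (∀ x ∈ flat w, x < 9) ∧ col w < 8192 ∧ evw L w = ψ (col w) * (z ^ zc w * evw (l0 ev k) (flat w)) := by
  induction w with
  | nil => exact ⟨fun _ h => absurd h List.not_mem_nil, show 0 < 8192 by omega, by simp [col, zc, flat, D.q.one]⟩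
  | cons i w ih =>
    rw [List.all_cons, Bool.and_eq_true] at h
    obtain ⟨h1, h2, h3⟩ := ih h.2
    have e1 : col (i :: w) = cond (Nat.blt i 32) (ap i (col w)) (mq (i - 32) (col w)) :=
      frc_eq (col w) fun r => cond (Nat.blt i 32) (ap i r) (mq (Nat.sub i 32) r)
    have e2 : zc (i :: w) = zb i + zc w := rfl
    have e3 : flat (i :: w) = SUB i ++ flat w := rfl
    rw [e1, e2, e3, evw_cons, h3, List.forall_mem_append]
    rcases okl_iff.1 h.1 with hi | hi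
    · have a := ((D.actl h.1).1 _ h2).2
      rw [apq, blt_t (by omega)] at a
      rw [blt_t (by omega)]
      refine ⟨⟨(sub_aux.1 i hi).1, h1⟩, ap_lt _ _, ?_⟩
      rw [cond_true] at a ⊢
      rw [← a, evw_append, pow_add, lt_l (by omega), mul_assoc (z ^ zb i) (z ^ zc w), ← mul_assoc (z ^ zc w), ← D.zc' (zc w) (D.mw0 (SUB i))]
      group
    · obtain ⟨c, rfl⟩ := Nat.exists_eq_add_of_le' hi.1
      rw [blt_f (by omega), (sub_big hi.1).1, (sub_big hi.1).2, lt_q, cond_false, Nat.add_sub_cancel, D.q.mul (by omega) h2]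
      exact ⟨⟨fun _ h => absurd h List.not_mem_nil, h1⟩, mq_lt (by omega) h2, by simp [mul_assoc]⟩
theorem cv_sound {w : List ℕ} {c : ℕ} (h : cv e1 e2 w = c) (hc : c < 8192) : w.all okl = true ∧ evw L w = ψ c := by
  rw [cv, frc_eq] at h
  by_cases b : (w.all okl && triv w && Nat.beq (Nat.mod (cnt (flat w)) 2) 0) = true
  swap
  · rw [Bool.not_eq_true] at b
    rw [b, cond_false] at h
    omega
  rw [b, cond_true] at h
  simp only [Bool.and_eq_true, Nat.beq_eq] at b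
  obtain ⟨h1, h2, h3⟩ := D.col_sound b.1.1
  have h4 := D.ktr h1 0
  rw [pow_zero, one_mul, zero_add, D.kpow, show cnt (flat w) % 2 = 0 from b.2, pow_zero, mul_one] at h4
  have h5 : InQ ψ (evw ev (trw (flat w) 0)) := by
    have := D.q.inQ_mul (D.q.inQ_mul (D.q.inQ_z (zc w)) (D.q.inQ_mul ⟨_, xor13 h2 (top_aux (qq_lt _)).2.2.2, (D.q.inv h2).symm⟩
      (D.triv_sound b.1.1 b.1.2))) (D.q.inQ_z (e2 * (cnt (flat w) / 2)))
    rwa [h3, inv_mul_cancel_left, h4, ← mul_assoc, ← pow_add, mul_assoc, mul_assoc, ← pow_add, D.q.pz, D.q.pz (e2 * _ + _),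
      show (zc w + zc w) % 2 = 0 by omega, show (e2 * (cnt (flat w) / 2) + e2 * (cnt (flat w) / 2)) % 2 = 0 by omega, pow_zero, one_mul,
      mul_one] at this
  refine ⟨b.1.1, ?_⟩
  rw [h3, h4, D.sgn _ (trw_lt _ _) h5, ← h, sgt_eq, ← pow_add, ← pow_add, D.zc' _ (D.q.mem h2), D.q.pz, ← D.q.xp h2 (Nat.mod_lt _ two_pos),
    ← add_assoc]
  rfl
theorem lil {i : ℕ} (hi : okl i = true) : okl (il i) = true ∧ L (il i) = (L i)⁻¹ := by
  rcases okl_iff.1 hi with hi | hi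
  · refine ⟨(by decide : ∀ i < 25, okl (il i) = true) i hi, ?_⟩
    have f9 : ∀ i < 9, l0 ev k (il i) = (l0 ev k i)⁻¹ := fun i h => by
      by_cases h5 : i < 5
      · rw [show il i = i by interval_cases i <;> rfl, l0_lt h5, ← eq_inv_of_mul_eq_one_left (D.i2 i h5)]
      · obtain rfl | rfl | rfl | rfl : i = 5 ∨ i = 6 ∨ i = 7 ∨ i = 8 := by omega
        exacts [rfl, rfl, (inv_inv _).symm, (inv_inv _).symm]
    have fw : ∀ w : List ℕ, (∀ x ∈ w, x < 9) → evw (l0 ev k) (iw w) = (evw (l0 ev k) w)⁻¹ := fun w hw => by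
      induction w with
      | nil => simp [iw]
      | cons i w ih =>
        rw [List.forall_mem_cons] at hw
        rw [iw, List.map_cons, List.reverse_cons, evw_append, ← iw, ih hw.2, evw_cons, evw_cons, evw_nil, mul_one, f9 i hw.1, mul_inv_rev]
    have fs : ∀ i ∈ [9, 10, 11, 12, 13, 18], L (il i) = (L i)⁻¹ := fun i h => by
      have : i < 25 ∧ il i < 32 := (by decide : ∀ i ∈ [9, 10, 11, 12, 13, 18], i < 25 ∧ il i < 32) i h
      rw [lt_l this.2, lt_l (by omega), (sub_aux.2.2.2 i h).1, (sub_aux.2.2.2 i h).2, fw _ (sub_aux.1 i this.1).1, mul_inv_rev,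
        ← D.zc' _ (inv_mem (D.mw0 _)), ← inv_pow, inv_eq_of_mul_eq_one_right D.q.zz]
    have fe : ∀ i ∈ [14, 15, 16, 17], L i = (L i)⁻¹ := fun i h => eq_inv_of_mul_eq_one_left (by
      have : ∀ e1 < 2, ∀ e2 < 2, ∀ i ∈ [14, 15, 16, 17], cv e1 e2 [i, i] = 0 := by decide +kernel
      simpa [D.q.one] using (D.cv_sound (this e1 D.h1 e2 D.h2 i h) (by omega)).2)
    by_cases h9 : i < 9
    · rw [lt_b h9, lt_b ((by decide : ∀ i < 9, il i < 9) i h9), f9 i h9]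
    · have := (by decide : ∀ i < 25, ¬ i < 9 → i ∈ [9, 10, 11, 12, 13, 18] ∨ (i ∈ [14, 15, 16, 17] ∧ il i = i) ∨
        (il i ∈ [9, 10, 11, 12, 13, 18] ∧ il (il i) = i)) i hi h9
      rcases this with h | h | h
      · exact fs i h
      · rw [h.2]; exact fe i h.1
      · have := fs _ h.1
        rw [h.2] at this
        rw [this, inv_inv]
  · obtain ⟨c, rfl⟩ := Nat.exists_eq_add_of_le' hi.1
    have e : il (c + 32) = (c ^^^ 4096 * qq c) + 32 := by rw [il, blt_f (by omega)]; simp [xor_eq]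
    have := xor13 (a := c) (by omega) (top_aux (qq_lt c)).2.2.2
    rw [e, lt_q, lt_q, D.q.inv (by omega)]
    exact ⟨okl_iff.2 (by omega), rfl⟩
theorem liw {w : List ℕ} (h : w.all okl = true) : evw L (iw w) = (evw L w)⁻¹ := by
  induction w with
  | nil => simp [iw]
  | cons i w ih =>
    rw [List.all_cons, Bool.and_eq_true] at h
    rw [iw, List.map_cons, List.reverse_cons, evw_append, ← iw, ih h.2, evw_cons, evw_cons, evw_nil, mul_one, (D.lil h.1).2, mul_inv_rev]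
end CD

noncomputable def eqv (e1 e2 : ℕ) (u w : List ℕ) : Bool := w.all okl && Nat.beq (cv e1 e2 (u ++ iw w)) 0
theorem CD.eqv_sound (D : CD z ψ ev k e1 e2) {u w : List ℕ} (h : eqv e1 e2 u w = true) : evw (lt z ψ ev k) u = evw (lt z ψ ev k) w := by
  rw [eqv, Bool.and_eq_true, Nat.beq_eq] at h
  have := (D.cv_sound h.2 (by omega)).2
  rwa [evw_append, D.liw h.1, D.q.one, mul_inv_eq_one] at this

theorem CD.twist (D : CD z ψ ev k e1 e2) : CD z ψ ev (z * k) e1 e2 := by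
  have c : ∀ {x}, x ∈ Cx(z) → z * x * z⁻¹ = x := fun hx => by rw [← mem_Cx.1 hx, mul_inv_cancel_right]
  have e : ∀ x, z * k * x * (z * k)⁻¹ = z * (k * x * k⁻¹) * z⁻¹ := fun x => by group
  refine ⟨D.q, D.cen, D.i2, D.me, mul_mem (mem_Cx.2 rfl) D.mk', fun i hi x hx => ?_, D.ar, D.rc, (by rw [e, D.kr, c (inv_mem D.mr)]),
    fun i hi => ?_, ?_, D.sgn, fun H h1 h2 h3 => D.gen H h1 h2 ?_, D.card, D.act, D.h1, D.h2⟩
  · by_cases h : i < 5
    · simpa only [l0_lt h] using D.ua i hi x hx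
    · obtain rfl : i = 5 := by omega
      have := D.ua 5 hi x hx
      rw [show l0 ev k 5 = k from rfl] at this
      rwa [show l0 ev (z * k) 5 = z * k from rfl, e, c (mul_mem (mul_mem D.mk' (D.q.mem hx)) (inv_mem D.mk'))]
  · rw [mul_assoc, D.kc i hi, ← mul_assoc, ← mem_Cx.1 (D.mw (kw_lt _ _)), mul_assoc]
  · rw [mul_assoc, ← mul_assoc k, mem_Cx.1 D.mk', ← mul_assoc, ← mul_assoc, D.q.zz, one_mul, D.kk]
  · exact (mul_mem_cancel_left (D.q.hz ▸ h1 4096 (by omega))).1 h3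

end CfH3.J4
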