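import Cfsg.Agent.H3.Jv6
/-! Counts of pairs and triples. -/
set_option autoImplicit false
set_option maxRecDepth 100000
namespace CfH3.J4
open CfH3.He

noncomputable def ib (e m c : ℕ) : ℕ := Nat.land (Nat.shiftRight m (ty e c)) 1
noncomputable def n2 (e m u : ℕ) : ℕ := ct (fun a => cond (Nat.beq (ib e m a) 1) (ib e m (Nat.xor a u)) 0) 2048
noncomputable def n3 (e m u : ℕ) : ℕ := ct (fun a => cond (Nat.beq (ib e m a) 1) (n2 e m (Nat.xor a u)) 0) 2048
noncomputable def mvw (e : ℕ) (w : List ℕ) (c : ℕ) : ℕ := List.rec c (fun j _ r => frc r (ext (MV e j))) w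
def fw : List ℕ := [0, 1, 2, 3, 4, 0, 1, 2, 3, 4]
def fx7 : List ℕ := [29, 38, 59, 64, 93, 102, 123]
theorem o1 : al (fun e => al (fun m => m.testBit 0 || !m.testBit 1 || Nat.beq m 2 || an (fun t => m.testBit t &&
    !Nat.beq (n2 e m (rep t)) (n2 e m 64)) 7 || (m.testBit 3 && frc (ct (ib e m) 2048) fun n => Nat.beq n 127 || Nat.beq n 2047) ||
    (Nat.beq e 1 && Nat.beq m 102 && Nat.beq (ct (ib e m) 2048) 1771) || (Nat.beq e 0 && Nat.beq m 66)) 128) 2 = true := by decide +kernel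
theorem o2 : Nat.beq (n3 0 66 146) (n3 0 66 64) = false := by decide +kernel
theorem o3 : al (fun e => al (fun c => (fx7.contains c == (!Nat.beq c 0 && Nat.beq (mvw e fw c) c)) &&
    (!fx7.contains c || Nat.beq (ty e c) 1 || Nat.beq (ty e c) 3)) 2048 && al (fun e2 => Nat.beq (cv e e2 ((fw ++ fw ++ fw ++ fw ++ fw).map gp)) 0) 2) 2
    = true := by decide +kernel

end CfH3.J4
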