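import Cfsg.Agent.H3.Jv7
import Cfsg.Agent.H3.Jv8a
import Cfsg.Agent.H5.JF
import Cfsg.Agent.H9.JV2
import Cfsg.Agent.OD.Helper3x4773772f72
/-! The orbit of the central involution under the normaliser of the subgroup of order `2 ^ 11`. -/
set_option autoImplicit false
set_option maxRecDepth 100000
open Subgroup CfH9 CfH6 CfH5 Finset
namespace CfH3.J4
open CfH3.He

variable {G : Type*} [Group G] {z k g n : G} {ψ ev φ : ℕ → G} {e1 e2 : ℕ} {S : Subgroup G} {f : ℕ → ℕ}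

theorem VD.exf (D : VD φ) (h : n ∈ Nm(D.V)) : ∃ f, VA φ n f := by
  have : ∀ c, ∃ a, c < 2048 → a < 2048 ∧ n * φ c * n⁻¹ = φ a := fun c => by
    by_cases hc : c < 2048
    · obtain ⟨a, ha, e⟩ := (mem_normalizer_iff.1 h _).1 (D.mem hc)
      exact ⟨a, fun _ => ⟨ha, e.symm⟩⟩
    · exact ⟨0, fun h => absurd h hc⟩
  choose f hf using this
  exact ⟨f, hf⟩
theorem VA.xor (D : VD φ) (h : VA φ n f) {a b : ℕ} (ha : a < 2048) (hb : b < 2048) : f (a ^^^ b) = f a ^^^ f b :=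
  D.eq (h _ (xor_lt ha hb)).1 (xor_lt (h a ha).1 (h b hb).1) (by
    rw [← (h _ (xor_lt ha hb)).2, D.mul ha hb, D.mul (h a ha).1 (h b hb).1, ← (h a ha).2, ← (h b hb).2, conj_mul])
theorem VA.sum (D : VD φ) (h : VA φ n f) (F : ℕ → ℕ) : ∑ a ∈ range 2048, F (f a) = ∑ a ∈ range 2048, F a := by
  have i : Set.InjOn f (range 2048 : Finset ℕ) := fun a ha b hb e => D.eq (mem_range.1 ha) (mem_range.1 hb) (conj_injective (x := n) (by
    simp only [(h a (mem_range.1 ha)).2, (h b (mem_range.1 hb)).2, e]))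
  have m : ∀ a ∈ range 2048, f a ∈ range 2048 := fun a ha => mem_range.2 (h a (mem_range.1 ha)).1
  exact sum_nbij f m i (surjOn_of_injOn_of_card_le f m i le_rfl) fun _ _ => rfl
theorem VA.n23 (D : VD φ) (h : VA φ n f) {e m : ℕ} (hb : ∀ c < 2048, ib e m (f c) = ib e m c) {u : ℕ} (hu : u < 2048) :
    n2 e m (f u) = n2 e m u ∧ n3 e m (f u) = n3 e m u := by
  have h2 : ∀ u < 2048, n2 e m (f u) = n2 e m u := fun u hu => by
    rw [n2, n2, ct_eq, ct_eq, ← h.sum D]
    exact sum_congr rfl fun a ha => by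
      rw [xor_eq, xor_eq, ← h.xor D (mem_range.1 ha) hu, hb a (mem_range.1 ha), hb _ (xor_lt (mem_range.1 ha) hu)]
  refine ⟨h2 u hu, ?_⟩
  rw [n3, n3, ct_eq, ct_eq, ← h.sum D]
  exact sum_congr rfl fun a ha => by
    rw [xor_eq, xor_eq, ← h.xor D (mem_range.1 ha) hu, hb a (mem_range.1 ha), h2 _ (xor_lt (mem_range.1 ha) hu)]
theorem ib_iff (e m c : ℕ) : ib e m c = 1 ↔ m.testBit (ty e c) = true := by
  rw [Nat.testBit_eq_decide_div_mod_eq, decide_eq_true_iff, ← Nat.shiftRight_eq_div_pow, ← Nat.and_one_is_mod]; rfl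
theorem ib_lt (e m c : ℕ) : ib e m c < 2 := Nat.lt_succ_of_le Nat.and_le_right
theorem rep_lt : ∀ t < 7, rep t < 2048 ∧ ty 0 (rep t) = t ∧ ty 1 (rep t) = t := by decide +kernel

namespace CD
variable (D : CD z ψ ev k e1 e2)
include D
local notation "L" => lt z ψ ev k
local notation "φ₀" => φ0 z ψ ev k
local notation "PP" => Pg z ψ ev k

theorem vaw {w : List ℕ} (h : ∀ j ∈ w, j < 23) : VA φ₀ (evw L (w.map gp)) (mvw e1 w) ∧ evw L (w.map gp) ∈ PP := by
  induction w with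
  | nil => exact ⟨fun c hc => ⟨hc, by simp [mvw]⟩, one_mem _⟩
  | cons j w ih =>
    rw [List.forall_mem_cons] at h
    have e : mvw e1 (j :: w) = fun c => ext (MV e1 j) (mvw e1 w c) := funext fun c => frc_eq _ _
    rw [List.map_cons, evw_cons, e]
    exact ⟨(D.vg h.1).2.1.mul (ih h.2).1, mul_mem (mem_gensub (el := fun j => L (gp j)) h.1) (ih h.2).2⟩

variable [Finite G] [IsSimpleGroup G] (J : JF D.vd.V S z) (cz : Cz(D.vd.V) ≤ D.vd.V)
include J cz

theorem orb : e1 = 1 ∧ (∀ c < 2048, IsConj z (φ₀ c) ↔ ib 1 102 c = 1) ∧ Nat.card Nm(D.vd.V) = 1771 * 283115520 := by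
  classical
  have V := D.vd
  let m := Nat.ofBits fun t : Fin 7 => decide (IsConj z (φ₀ (rep t)))
  have hm : m < 128 := Nat.ofBits_lt_two_pow _
  have mb : ∀ t < 7, m.testBit t = true ↔ IsConj z (φ₀ (rep t)) := fun t ht => by
    rw [Nat.testBit_ofBits_lt _ _ ht, decide_eq_true_iff]
  generalize m = m at hm mb
  have hb : ∀ c < 2048, ib e1 m c = 1 ↔ IsConj z (φ₀ c) := fun c hc => by
    obtain ⟨p, -, e⟩ := D.tra hc
    rw [ib_iff, mb _ (ty_spec D.h1 hc).1]
    exact ⟨fun h => h.trans (isConj_iff.2 ⟨p, e⟩), fun h => h.trans (isConj_iff.2 ⟨p, e⟩).symm⟩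
  have cn : ∀ c < 2048, ib e1 m c = 1 → ∃ n ∈ Nm(V.V), n * z * n⁻¹ = φ₀ c := fun c hc h => J.ctl J.zV (V.mem hc) ((hb c hc).1 h)
  have inv : ∀ c < 2048, ib e1 m c = 1 → n2 e1 m c = n2 e1 m 64 ∧ n3 e1 m c = n3 e1 m 64 := fun c hc h => by
    obtain ⟨n, hn, e⟩ := cn c hc h
    obtain ⟨f, hf⟩ := V.exf hn
    rw [← V.eq (hf 64 (by omega)).1 hc (by rw [← (hf 64 (by omega)).2, D.vz, e])]
    refine hf.n23 V (fun a ha => ?_) (by omega)
    have : ib e1 m (f a) = 1 ↔ ib e1 m a = 1 := by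
      rw [hb a ha, hb _ (hf a ha).1]
      exact ⟨fun h => h.trans (isConj_iff.2 ⟨n, (hf a ha).2⟩).symm, fun h => h.trans (isConj_iff.2 ⟨n, (hf a ha).2⟩)⟩
    have := ib_lt e1 m a
    have := ib_lt e1 m (f a)
    omega
  have rt : ∀ t < 7, ty e1 (rep t) = t := fun t ht => by
    have := D.h1
    interval_cases e1
    exacts [(rep_lt t ht).2.1, (rep_lt t ht).2.2]
  have cd : Nat.card Nm(V.V) = ct (ib e1 m) 2048 * 283115520 := by
    rw [orb_card (z := z) _ (((range 2048).filter fun c => ib e1 m c = 1).image φ₀) fun u => ⟨fun h => by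
      obtain ⟨c, hc, rfl⟩ := mem_image.1 h
      exact cn c (mem_range.1 (mem_filter.1 hc).1) (mem_filter.1 hc).2, fun ⟨n, hn, e⟩ => by
      obtain ⟨c, hc, e'⟩ := (mem_normalizer_iff.1 hn _).1 J.zV
      exact mem_image.2 ⟨c, mem_filter.2 ⟨mem_range.2 hc, (hb c hc).2 (isConj_iff.2 ⟨n, e'.symm⟩)⟩, e'.trans e⟩⟩, D.NC, D.cardP,
      card_image_of_injOn fun a ha b hb e => V.eq (mem_range.1 (mem_filter.1 ha).1) (mem_range.1 (mem_filter.1 hb).1) e, card_filter, ct_eq,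
      sum_congr rfl fun a _ => (by have := ib_lt e1 m a; split_ifs <;> omega : (if ib e1 m a = 1 then 1 else 0) = ib e1 m a)]
  have := al2 o1 D.h1 hm
  simp only [Bool.or_eq_true, Bool.and_eq_true, Nat.beq_eq, an_iff, frc_eq, Bool.not_eq_true', Bool.eq_false_iff, Ne] at this
  generalize ct (ib e1 m) 2048 = N at this cd
  rcases this with (((((h | h) | h) | h) | h) | h) | h
  · have := (mb 0 (by omega)).1 h
    rw [show rep 0 = 0 from rfl, V.one, isConj_one_left] at this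
    exact absurd this D.q.ne
  · exact absurd ((mb 1 (by omega)).2 (by rw [show rep 1 = 64 from rfl, D.vz])) h
  · obtain ⟨_, ⟨c, hc, rfl⟩, h1, h2⟩ := J.fuse (fun e => by
      have := card_subgroup_dvd_card Cx(z)
      rw [e, D.card] at this
      omega) cz
    have := (ib_iff _ _ _).1 ((hb c hc).2 h2)
    rw [h, show 2 = 2 ^ 1 from rfl, Nat.testBit_two_pow, decide_eq_true_iff] at this
    exact absurd (by rw [(ty_spec D.h1 hc).2.2.2.1.2 this.symm, D.vz]) h1
  · obtain ⟨t, ht, h1, h2⟩ := h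
    exact absurd (inv _ (rep_lt t ht).1 ((ib_iff _ _ _).2 (by rwa [rt t ht]))).1 h2
  · have k3 := al_iff.1 o3 e1 D.h1
    simp only [Bool.and_eq_true, al_iff, Bool.or_eq_true, Nat.beq_eq, beq_iff_eq, Bool.not_eq_true'] at k3
    obtain ⟨f1, f2⟩ := D.vaw (w := fw) (by decide)
    have f3 := (D.cv_sound (k3.2 e2 D.h2) (by omega)).2
    simp only [List.map_append, evw_append, D.q.one] at f3
    generalize evw L (fw.map gp) = f at f1 f2 f3
    have l7 : ∀ c ∈ fx7, c < 2048 := by decide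
    have fx : ∀ c < 2048, c ∈ fx7 ↔ c ≠ 0 ∧ f * φ₀ c = φ₀ c * f := fun c hc => by
      have := (k3.1 c hc).1
      rw [Bool.eq_iff_iff] at this
      simp only [List.contains_iff_mem, Bool.and_eq_true, Bool.not_eq_true', Nat.beq_eq, Bool.eq_false_iff, Ne] at this
      rw [this, ← mul_inv_eq_iff_eq_mul, (f1 c hc).2]
      exact and_congr_right' ⟨fun e => by rw [e], V.eq (f1 c hc).1 hc⟩
    have : Fact (Nat.Prime 5) := ⟨Nat.prime_five⟩
    have := JF.witt (V := V.V) (z := z) (N := Nm(V.V)) (p := 5) (f := f) le_rfl (orderOf_eq_prime (by rw [← f3]; simp only [pow_succ, pow_zero, one_mul]) fun e =>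
      absurd ((fx 1 (by omega)).2 ⟨by omega, by rw [e]; simp⟩) (by decide)) (D.PN f2) (by rw [cd]; rcases h.2 with rfl | rfl <;> decide) (fx7.toFinset.image φ₀) (fun u => ⟨fun h => by
        obtain ⟨c, hc, rfl⟩ := mem_image.1 h
        rw [List.mem_toFinset] at hc
        exact ⟨V.mem (l7 c hc), fun e => ((fx c (l7 c hc)).1 hc).1 (V.inj (l7 c hc) e), ((fx c (l7 c hc)).1 hc).2⟩, by
        rintro ⟨⟨c, hc, rfl⟩, h1, h2⟩
        exact mem_image.2 ⟨c, List.mem_toFinset.2 ((fx c hc).2 ⟨fun e => h1 (e ▸ V.one), h2⟩), rfl⟩⟩)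
      (mem_image.2 ⟨64, by decide, D.vz⟩) fun u hu => by
        obtain ⟨c, hc, rfl⟩ := mem_image.1 hu
        rw [List.mem_toFinset] at hc
        refine cn c (l7 c hc) ((ib_iff _ _ _).2 ?_)
        rcases (k3.1 c (l7 c hc)).2 with (e | e) | e
        · exact absurd (List.contains_iff_mem.2 hc) (Bool.eq_false_iff.1 e)
        · rw [e, mb 1 (by omega), show rep 1 = 64 from rfl, D.vz]
        · rw [e, h.1]
    have c7 : (fx7.toFinset.image φ₀).card = 7 := (card_image_of_injOn fun a ha b hb e =>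
      V.eq (l7 a (List.mem_toFinset.1 (mem_coe.1 ha))) (l7 b (List.mem_toFinset.1 (mem_coe.1 hb))) e).trans (by decide)
    rw [c7, cd] at this
    rcases h.2 with rfl | rfl <;> exact absurd this (by decide)
  · obtain ⟨⟨rfl, rfl⟩, h⟩ := h
    exact ⟨rfl, fun c hc => (hb c hc).symm, by rw [cd, h]⟩
  · obtain ⟨rfl, rfl⟩ := h
    exact absurd (inv 146 (by omega) (by decide +kernel)).2 fun e => absurd (Nat.beq_eq ▸ e) (Bool.eq_false_iff.1 o2)
end CD

end CfH3.J4
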