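import Cfsg.Agent.H3.Jv8
/-! Words in the generators of the two local subgroups, and derivations. -/
set_option autoImplicit false
set_option maxRecDepth 100000
open Subgroup CfH9 CfH6
namespace CfH3.J4
open CfH3.He

def I11 : List ℕ := [1, 2, 4, 8, 16, 32, 64, 128, 256, 512, 1024]
def gm (i : ℕ) : List ℕ := [[96, 112, 87, 41, 3, 65, 64, 610, 1009, 241, 1870],
  [362, 1274, 473, 564, 1862, 1551, 791, 121, 128, 499, 1651],
  [854, 666, 2038, 355, 308, 509, 636, 256, 121, 1847, 78],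
  [1, 2, 4, 8, 16, 32, 64, 128, 256, 512, 1024],
  [2, 3, 8, 12, 32, 48, 64, 128, 256, 512, 1024],
  [3, 1, 12, 4, 48, 16, 64, 128, 256, 512, 1024],
  [5, 15, 4, 12, 54, 45, 64, 128, 384, 512, 1024],
  [12, 8, 3, 2, 43, 22, 64, 384, 256, 768, 1024],
  [31, 58, 43, 22, 25, 55, 64, 128, 768, 512, 1536],
  [3, 2, 12, 8, 33, 19, 64, 128, 256, 1536, 1024],
  [48, 32, 43, 22, 3, 2, 64, 128, 256, 512, 1728],
  [65, 2, 4, 8, 16, 32, 64, 140, 316, 548, 1032],
  [1, 66, 4, 8, 16, 32, 64, 136, 296, 540, 1028],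
  [1, 2, 68, 8, 16, 32, 64, 249, 377, 587, 1026],
  [1, 2, 4, 72, 16, 32, 64, 231, 359, 582, 1025],
  [1, 2, 4, 8, 80, 32, 64, 132, 261, 610, 1024],
  [1, 2, 4, 8, 16, 96, 64, 140, 271, 593, 1024],
  [141, 708, 742, 83, 653, 166, 47, 93, 1744, 11, 838],
  [745, 551, 97, 718, 243, 545, 53, 71, 1634, 17, 400]].getD i I11
def w2 : List ℕ := [1, 0, 1, 0, 2, 0, 2, 0, 1, 0, 1, 0, 1]
def cwd (i : ℕ) : List ℕ := cond (Nat.blt i 64) ([[], [], [], [18], [6], [7], [9], [10], [11], [12], [13], [96], [160], [288], [544], [1056],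
  [2080], [], [], [0], [1], [2], [3], [4], [5]].getD i []) (w0 (Nat.sub i 64))
def okv (i : ℕ) : Bool := Nat.ble 64 i && Nat.blt i 2112
def okn (i : ℕ) : Bool := (Nat.blt i 19 && i != 3) || okv i
def okc (i : ℕ) : Bool := (Nat.blt i 25 && !List.contains [0, 1, 2, 17, 18] i) || okv i
def okg (i : ℕ) : Bool := Nat.blt i 25 || okv i
def gil (i : ℕ) : ℕ := [0, 2, 1, 3, 5, 4, 6, 7, 8, 9, 10, 11, 12, 13, 14, 15, 16, 18, 17].getD i i
def ginv (w : List ℕ) : List ℕ := (w.map gil).reverse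
noncomputable def gv (w : List ℕ) (c : ℕ) : ℕ := List.rec c (fun i _ r => frc r (ext (gm i))) w
noncomputable def ncol (w : List ℕ) : ℕ :=
  List.rec 0 (fun i _ r => frc r fun r => cond (Nat.blt i 64) (ext (gm i) r) (Nat.xor (Nat.sub i 64) r)) w
noncomputable def nt (w : List ℕ) : Bool := w.all okn && al (fun i => Nat.beq (gv w (Nat.pow 2 i)) (Nat.pow 2 i)) 11
noncomputable def nz (w : List ℕ) : Bool := nt w && Nat.beq (ncol w) 0
noncomputable def cg (w : List ℕ) : ℕ := cond (w.all okc) (cv 1 0 (w.flatMap cwd)) 8192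
noncomputable def tz (w : List ℕ) : Bool := w.all [0, 3, 17, 18].contains && Nat.beq (w.count 3 % 2) 0 && nz (w.filter (· != 3))
noncomputable def frl {α : Type} (w : List ℕ) : (List ℕ → α) → α :=
  List.rec (fun k => k []) (fun a _ ih k => frc a fun a => ih fun t => k (a :: t)) w
noncomputable def chk (T : Bool) (k : ℕ) (w : List ℕ) : Bool :=
  frl w fun w => cond (Nat.beq k 0) (nz w) (cond (Nat.beq k 1) (Nat.beq (cg w) 0) (T && tz w))
noncomputable def der (T : Bool) (ss : List (ℕ × ℕ × ℕ × List ℕ)) : List ℕ → Bool := List.rec (fun w => w.isEmpty) (fun s _ ih w =>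
  s.2.2.2.all okg && chk T s.1 ((w.drop s.2.1).take s.2.2.1 ++ ginv s.2.2.2) &&
    frl (w.take s.2.1 ++ (s.2.2.2 ++ (w.drop s.2.1).drop s.2.2.1)) ih) ss

theorem frl_eq {α : Type} (w : List ℕ) (k : List ℕ → α) : frl w k = k w := by
  induction w generalizing k with
  | nil => rfl
  | cons a w ih => exact (frc_eq a fun a => frl w fun t => k (a :: t)).trans (ih _)
theorem gv_cons (i : ℕ) (w : List ℕ) (c : ℕ) : gv (i :: w) c = ext (gm i) (gv w c) := frc_eq _ _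
theorem okv_iff {i : ℕ} : okv i = true ↔ 64 ≤ i ∧ i < 2112 := by simp [okv, Nat.blt_eq, Nat.ble_eq]
theorem g1 : (∀ j < 12, [4, 6, 7, 8, 9, 10, 11, 12, 13, 14, 15, 16].getD j 0 < 19 ∧ [0, 1, 2, 3, 4, 5, 16, 17, 18, 19, 20, 21].getD j 0 < 23 ∧
    MV 1 ([0, 1, 2, 3, 4, 5, 16, 17, 18, 19, 20, 21].getD j 0) = gm ([4, 6, 7, 8, 9, 10, 11, 12, 13, 14, 15, 16].getD j 0) ∧
    cwd ([4, 6, 7, 8, 9, 10, 11, 12, 13, 14, 15, 16].getD j 0) = [gp ([0, 1, 2, 3, 4, 5, 16, 17, 18, 19, 20, 21].getD j 0)]) ∧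
    al (fun c => Nat.beq (ext I11 c) c && Nat.beq (ext (gm 1) (ext (gm 2) c)) c && Nat.beq (ext (gm 4) (ext (gm 5) c)) c &&
      Nat.beq (ext (gm 17) (ext (gm 18) c)) c) 2048 = true ∧ (∀ i < 19, ∀ x ∈ gm i, x < 2048) ∧ (∀ i < 11, gv w2 (2 ^ i) = ext (gm 17) (2 ^ i)) ∧
    ∀ i < 25, okc i = true → cg [gil i, i] = 0 := by decide +kernel

variable {G : Type*} [Group G] {z k g x y : G} {ψ ev φ : ℕ → G} {e2 : ℕ} {K : Subgroup G}

def g3 (x y : G) (i : ℕ) : G := [x, y, y⁻¹].getD i 1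
def gl (z : G) (ψ ev : ℕ → G) (k x y : G) (i : ℕ) : G := cond (Nat.blt i 3) (g3 x y i) (cond (Nat.beq i 17) (evw (g3 x y) w2)
  (cond (Nat.beq i 18) (evw (g3 x y) w2)⁻¹ (evw (lt z ψ ev k) (cwd i))))
theorem gl_c {i : ℕ} (h : okc i = true) : gl z ψ ev k x y i = evw (lt z ψ ev k) (cwd i) := by
  have : 3 ≤ i ∧ i ≠ 17 ∧ i ≠ 18 := by
    simp only [okc, Bool.or_eq_true, okv_iff, Bool.and_eq_true, Nat.blt_eq, Bool.not_eq_true', List.contains_eq_mem, List.mem_cons,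
      decide_eq_false_iff_not, List.not_mem_nil] at h
    omega
  rw [gl, blt_f this.1, show Nat.beq i 17 = false from Bool.eq_false_iff.2 fun e => this.2.1 (Nat.eq_of_beq_eq_true e),
    show Nat.beq i 18 = false from Bool.eq_false_iff.2 fun e => this.2.2 (Nat.eq_of_beq_eq_true e)]
  rfl
theorem gl_v {c : ℕ} (h : c < 2048) : gl z ψ ev k x y (c + 64) = φ0 z ψ ev k c := by
  rw [gl_c (by simp [okc, okv_iff]; omega), cwd, blt_f (by omega)]; rfl
theorem VA.congr {f f' : ℕ → ℕ} (h : VA φ g f) (e : ∀ c < 2048, f c = f' c) : VA φ g f' := fun c hc => e c hc ▸ h c hc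
theorem VA.inv {f f' : ℕ → ℕ} (h : VA φ g f) (e : ∀ c < 2048, f' c < 2048 ∧ f (f' c) = c) : VA φ g⁻¹ f' := fun c hc =>
  ⟨(e c hc).1, by rw [← (e c hc).2, ← (h _ (e c hc).1).2, (e c hc).2]; group⟩
theorem VA.cen (D : VD φ) {f : ℕ → ℕ} (h : VA φ g f) (e : ∀ i < 11, f (2 ^ i) = 2 ^ i) : g ∈ Cz(D.V) := by
  refine mem_centralizer_iff.2 ?_
  rintro _ ⟨c, hc, rfl⟩
  exact JV.ind2 (P := fun c => φ c * g = g * φ c) (by rw [D.one]; simp) (fun i hi => by
    have := (h _ (Nat.pow_lt_pow_right one_lt_two hi)).2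
    rw [e i hi] at this
    exact (mul_inv_eq_iff_eq_mul.1 this).symm) (fun a ha b hb h1 h2 => by rw [D.mul ha hb, mul_assoc, h2, ← mul_assoc, h1, mul_assoc]) c hc
theorem evw_flat (f : ℕ → G) (c : ℕ → List ℕ) (w : List ℕ) : evw f (w.flatMap c) = evw (fun i => evw f (c i)) w := by
  induction w with
  | nil => rfl
  | cons i w ih => rw [List.flatMap_cons, evw_append, ih, evw_cons]
theorem evw_ext {f f' : ℕ → G} {w : List ℕ} (h : ∀ i ∈ w, f i = f' i) : evw f w = evw f' w := by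
  induction w with
  | nil => rfl
  | cons i w ih => rw [List.forall_mem_cons] at h; rw [evw_cons, evw_cons, h.1, ih h.2]

local notation "L" => lt z ψ ev k
local notation "φ₀" => φ0 z ψ ev k
local notation "Γ" => gl z ψ ev k x y

theorem CD.cg_sound (D : CD z ψ ev k 1 0) {w : List ℕ} {c : ℕ} (h : cg w = c) (hc : c < 8192) : evw Γ w = ψ c := by
  unfold cg at h
  cases e : w.all okc
  · rw [e, cond_false] at h; omega
  · rw [e, cond_true] at h
    rw [← (D.cv_sound h hc).2, evw_flat]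
    exact evw_ext fun i hi => gl_c (List.all_eq_true.1 e i hi)

structure GA (z : G) (ψ ev : ℕ → G) (k x y : G) (e2 : ℕ) : Prop where
  d : CD z ψ ev k 1 e2
  hx : VA (φ0 z ψ ev k) x (ext (gm 0))
  hy : VA (φ0 z ψ ev k) y (ext (gm 1))

namespace GA
variable (A : GA z ψ ev k x y e2)
include A

theorem va {i : ℕ} (h : okn i = true) : VA φ₀ (Γ i) (ext (gm i)) := by
  have k2 := fun c (hc : c < 2048) => al_iff.1 g1.2.1 c hc
  simp only [Bool.and_eq_true, Nat.beq_eq] at k2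
  have l := fun i (hi : i < 19) c => ext_lt (n := 11) (g1.2.2.1 i hi) c
  have f3 : ∀ i < 3, VA φ₀ (g3 x y i) (ext (gm i)) := fun i hi => by
    interval_cases i
    exacts [A.hx, A.hy, A.hy.inv fun c hc => ⟨l 2 (by omega) c, (k2 c hc).1.1.2⟩]
  have fw : ∀ w : List ℕ, (∀ i ∈ w, i < 3) → VA φ₀ (evw (g3 x y) w) (gv w) := fun w hw => by
    induction w with
    | nil => exact fun c hc => ⟨hc, by simp [gv]⟩
    | cons i w ih =>
      rw [List.forall_mem_cons] at hw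
      exact ((f3 i hw.1).mul (ih hw.2)).congr fun c _ => (gv_cons _ _ _).symm
  have f17 : VA φ₀ (evw (g3 x y) w2) (ext (gm 17)) := A.d.vd.va (g1.2.2.1 17 (by omega)) fun i hi => by
    rw [← g1.2.2.2.1 i hi]; exact (fw w2 (by decide) _ (Nat.pow_lt_pow_right one_lt_two hi)).2
  have fp : ∀ j < 12, VA φ₀ (Γ ([4, 6, 7, 8, 9, 10, 11, 12, 13, 14, 15, 16].getD j 0))
      (ext (gm ([4, 6, 7, 8, 9, 10, 11, 12, 13, 14, 15, 16].getD j 0))) := fun j hj => by
    obtain ⟨-, h2, h3, h4⟩ := g1.1 j hj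
    rw [gl_c ((by decide : ∀ j < 12, okc ([4, 6, 7, 8, 9, 10, 11, 12, 13, 14, 15, 16].getD j 0) = true) j hj), h4, ← h3, evw_cons, evw_nil, mul_one]
    exact (A.d.vg h2).2.1
  by_cases hv : okv i = true
  · obtain ⟨c, rfl⟩ := Nat.exists_eq_add_of_le' (okv_iff.1 hv).1
    have hc : c < 2048 := by have := (okv_iff.1 hv).2; omega
    rw [gl_v hc, show gm (c + 64) = I11 from List.getD_eq_default _ _ (by simp)]
    exact fun a ha => by
      rw [(k2 a ha).1.1.1, A.d.vd.comm (A.d.vd.mem hc) (A.d.vd.mem ha), mul_inv_cancel_right]; exact ⟨ha, rfl⟩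
  have hi : i < 19 ∧ i ≠ 3 := by simpa [okn, hv, Nat.blt_eq] using h
  rcases (by decide : ∀ i < 19, i ≠ 3 → i < 3 ∨ i = 5 ∨ i = 17 ∨ i = 18 ∨ ∃ j < 12, i = [4, 6, 7, 8, 9, 10, 11, 12, 13, 14, 15, 16].getD j 0)
    i hi.1 hi.2 with h | rfl | rfl | rfl | ⟨j, hj, rfl⟩
  · rw [gl, blt_t h]; exact f3 i h
  · have := (fp 0 (by omega)).inv fun c hc => ⟨l 5 (by omega) c, (k2 c hc).1.2⟩
    rwa [show Γ ([4, 6, 7, 8, 9, 10, 11, 12, 13, 14, 15, 16].getD 0 0) = L 6 * 1 from rfl, mul_one, ← (A.d.lil (i := 6) rfl).2, ← mul_one (L _)] at this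
  · exact f17
  · exact f17.inv fun c hc => ⟨l 18 (by omega) c, (k2 c hc).2⟩
  · exact fp j hj
theorem vw {w : List ℕ} (h : w.all okn = true) : VA φ₀ (evw Γ w) (gv w) := by
  induction w with
  | nil => exact fun c hc => ⟨hc, by simp [gv]⟩
  | cons i w ih =>
    rw [List.all_cons, Bool.and_eq_true] at h
    exact ((A.va h.1).mul (ih h.2)).congr fun c _ => (gv_cons _ _ _).symm
theorem nt_sound {w : List ℕ} (h : nt w = true) : evw Γ w ∈ Cz(A.d.vd.V) := by
  rw [nt, Bool.and_eq_true] at h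
  exact (A.vw h.1).cen _ fun i hi => Nat.eq_of_beq_eq_true (al_iff.1 h.2 i hi)
end GA

structure GB (z : G) (ψ ev : ℕ → G) (k x y : G) (K : Subgroup G) : Prop where
  a : GA z ψ ev k x y 0
  cz : Cz(a.d.vd.V) ≤ a.d.vd.V
  kv : ∀ g ∈ K, g ∈ a.d.vd.V → g = 1
  hk : ∀ i < 19, i ≠ 3 → gl z ψ ev k x y i ∈ K

namespace GB
variable (B : GB z ψ ev k x y K)
include B

theorem ncol_sound {w : List ℕ} (h : w.all okn = true) : ncol w < 2048 ∧ ∃ κ ∈ K, evw Γ w = φ₀ (ncol w) * κ := by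
  induction w with
  | nil => exact ⟨show 0 < 2048 by omega, 1, one_mem _, by simp [ncol, B.a.d.vd.one]⟩
  | cons i w ih =>
    rw [List.all_cons, Bool.and_eq_true] at h
    obtain ⟨h1, κ, h2, h3⟩ := ih h.2
    have e : ncol (i :: w) = cond (Nat.blt i 64) (ext (gm i) (ncol w)) ((i - 64) ^^^ ncol w) :=
      frc_eq (ncol w) fun r => cond (Nat.blt i 64) (ext (gm i) r) (Nat.xor (Nat.sub i 64) r)
    rw [e, evw_cons, h3]
    by_cases hv : okv i = true
    · obtain ⟨c, rfl⟩ := Nat.exists_eq_add_of_le' (okv_iff.1 hv).1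
      have hc : c < 2048 := by have := (okv_iff.1 hv).2; omega
      rw [blt_f (by omega), cond_false, Nat.add_sub_cancel, gl_v hc, B.a.d.vd.mul hc h1]
      exact ⟨xor_lt hc h1, κ, h2, (mul_assoc _ _ _).symm⟩
    · have hi : i < 19 ∧ i ≠ 3 := by simpa [okn, hv, Nat.blt_eq] using h.1
      rw [blt_t (by omega), cond_true, ← (B.a.va h.1 _ h1).2]
      exact ⟨(B.a.va h.1 _ h1).1, _, mul_mem (B.hk i hi.1 hi.2) h2, by group⟩
theorem nz_sound {w : List ℕ} (h : nz w = true) : evw Γ w = 1 := by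
  rw [nz, Bool.and_eq_true, Nat.beq_eq] at h
  obtain ⟨-, κ, h2, h3⟩ := B.ncol_sound (Bool.and_eq_true_iff.1 h.1).1
  rw [h.2, B.a.d.vd.one, one_mul] at h3
  exact B.kv _ (h3 ▸ h2) (B.cz (B.a.nt_sound h.1))
theorem gil_eq {i : ℕ} (h : okg i = true) : Γ (gil i) = (Γ i)⁻¹ := by
  by_cases hv : okv i = true
  · obtain ⟨c, rfl⟩ := Nat.exists_eq_add_of_le' (okv_iff.1 hv).1
    have hc : c < 2048 := by have := (okv_iff.1 hv).2; omega
    rw [show gil (c + 64) = c + 64 from List.getD_eq_default _ _ (by simp), gl_v hc, ← eq_inv_of_mul_eq_one_left (B.a.d.vd.sq hc)]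
  have hi : i < 25 := by simpa [okg, hv, Nat.blt_eq] using h
  rcases (by decide : ∀ i < 25, okc i = true ∨ i = 0 ∨ i = 1 ∨ i = 2 ∨ i = 17 ∨ i = 18) i hi with h | rfl | rfl | rfl | rfl | rfl
  · exact eq_inv_of_mul_eq_one_left (by simpa [B.a.d.q.one] using B.a.d.cg_sound (x := x) (y := y) (g1.2.2.2.2 i hi h) (by omega))
  · exact eq_inv_of_mul_eq_one_left (by simpa [gil] using B.nz_sound (w := [0, 0]) (by decide +kernel))
  exacts [rfl, (inv_inv _).symm, rfl, (inv_inv _).symm]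
theorem ginv_eq {w : List ℕ} (h : w.all okg = true) : evw Γ (ginv w) = (evw Γ w)⁻¹ := by
  induction w with
  | nil => simp [ginv]
  | cons i w ih =>
    rw [List.all_cons, Bool.and_eq_true] at h
    rw [ginv, List.map_cons, List.reverse_cons, evw_append, ← ginv, ih h.2, evw_cons, evw_cons, evw_nil, mul_one, B.gil_eq h.1, mul_inv_rev]
theorem tz_sound (hT : ∀ i ∈ [0, 3, 17, 18], Γ i * Γ 3 = Γ 3 * Γ i) {w : List ℕ} (h : tz w = true) : evw Γ w = 1 := by
  simp only [tz, Bool.and_eq_true, Nat.beq_eq] at h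
  have f : ∀ w : List ℕ, w.all [0, 3, 17, 18].contains = true → evw Γ w = Γ 3 ^ w.count 3 * evw Γ (w.filter (· != 3)) := fun w hw => by
    induction w with
    | nil => simp
    | cons i w ih =>
      rw [List.all_cons, Bool.and_eq_true] at hw
      rw [evw_cons, ih hw.2]
      by_cases e : i = 3
      · subst e; simp [pow_succ', mul_assoc]
      · rw [List.count_cons_of_ne e, List.filter_cons_of_pos (by simpa using e), evw_cons, ← mul_assoc, ← mul_assoc,
          (Commute.pow_right (hT i (by simpa using hw.1)) _).eq]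
  have t2 : Γ 3 ^ 2 = 1 := by rw [pow_two, mul_eq_one_iff_eq_inv]; exact B.gil_eq (i := 3) rfl
  rw [f w h.1.1, B.nz_sound h.2, ← Nat.div_add_mod (w.count 3) 2, h.1.2, add_zero, pow_mul, t2, one_pow, mul_one]
theorem der_sound {T : Bool} (hT : T = true → ∀ i ∈ [0, 3, 17, 18], Γ i * Γ 3 = Γ 3 * Γ i) {ss : List (ℕ × ℕ × ℕ × List ℕ)} {w : List ℕ}
    (h : der T ss w = true) : evw Γ w = 1 := by
  induction ss generalizing w with
  | nil => rw [List.isEmpty_iff.1 h]; rfl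
  | cons s ss ih =>
    have : (s.2.2.2.all okg && chk T s.1 ((w.drop s.2.1).take s.2.2.1 ++ ginv s.2.2.2) &&
      frl (w.take s.2.1 ++ (s.2.2.2 ++ (w.drop s.2.1).drop s.2.2.1)) (der T ss)) = true := h
    rw [Bool.and_eq_true, Bool.and_eq_true, frl_eq, chk, frl_eq] at this
    have h1 : evw Γ ((w.drop s.2.1).take s.2.2.1 ++ ginv s.2.2.2) = 1 := by
      have h := this.1.2
      cases e : Nat.beq s.1 0 <;> rw [e] at h
      · cases e' : Nat.beq s.1 1 <;> rw [e'] at h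
        · exact B.tz_sound (hT (Bool.and_eq_true_iff.1 h).1) (Bool.and_eq_true_iff.1 h).2
        · exact (B.a.d.cg_sound (Nat.eq_of_beq_eq_true h) (by omega)).trans B.a.d.q.one
      · exact B.nz_sound h
    rw [evw_append, B.ginv_eq this.1.1, mul_inv_eq_one] at h1
    have h2 := ih this.2
    rwa [evw_append, evw_append, ← h1, ← evw_append, ← evw_append, List.take_append_drop, List.take_append_drop] at h2
end GB

end CfH3.J4
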