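import Cfsg.Agent.H3.F4

/-! Subquotients of permutation modules. -/

set_option autoImplicit false

namespace CfH3

open Matrix

variable {F : Type*} [Field F] {α ι : Type*} [Fintype α] [DecidableEq α] [Fintype ι] [DecidableEq ι]

theorem permMatrixHom_mulVec (σ : Equiv.Perm α) (x : α → F) :
    (permMatrixHom σ : Matrix α α F) *ᵥ x = x ∘ σ.symm := permMatrix_mulVec _

/-- Data of a subquotient of the permutation module. -/
structure PermSub (C : Matrix ι α F) (S : Matrix α ι F) : Prop where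
  one : C * S = 1
  sum : ∀ w, ∑ i, (S *ᵥ w) i = 0
  back : ∀ x : α → F, ∑ i, x i = 0 → ∃ a : F, S *ᵥ (C *ᵥ x) = x + a • 1 ∧ a • (C *ᵥ 1) = 0

theorem PermSub.of_matrix {C : Matrix ι α F} {S : Matrix α ι F} (a b : α → F) (h1 : C * S = 1)
    (h2 : ∀ j, ∑ i, S i j = 0) (h3 : S * C = 1 + vecMulVec 1 a + vecMulVec b 1)
    (h4 : (∀ i, ∑ j, C i j = 0) ∨ a = 0) : PermSub C S where
  one := h1
  sum w := by
    simp only [mulVec, dotProduct]
    rw [Finset.sum_comm]
    simp only [← Finset.sum_mul, h2, zero_mul, Finset.sum_const_zero]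
  back x hx := by
    refine ⟨a ⬝ᵥ x, ?_, ?_⟩
    · rw [mulVec_mulVec, h3, add_mulVec, add_mulVec, one_mulVec, vecMulVec_mulVec, vecMulVec_mulVec,
        one_dotProduct, hx]
      ext i; simp
    · rcases h4 with h4 | rfl
      · ext i; simp [mulVec, dotProduct, h4]
      · simp

namespace PermSub

variable {C : Matrix ι α F} {S : Matrix α ι F} (h : PermSub C S)
include h

theorem mulVec_mulVec' (σ : Equiv.Perm α) (x : α → F) (hx : ∑ i, x i = 0) :
    (C * (permMatrixHom σ : Matrix α α F) * S) *ᵥ (C *ᵥ x) = C *ᵥ (x ∘ σ.symm) := by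
  obtain ⟨a, h1, h2⟩ := h.back x hx
  rw [← mulVec_mulVec, ← mulVec_mulVec, h1, permMatrixHom_mulVec]
  have : (x + a • (1 : α → F)) ∘ σ.symm = x ∘ σ.symm + a • 1 := rfl
  rw [this, mulVec_add, mulVec_smul, h2, add_zero]

/-- The representation on the subquotient. -/
def hom : Equiv.Perm α →* Matrix ι ι F where
  toFun σ := C * (permMatrixHom σ : Matrix α α F) * S
  map_one' := by rw [map_one, Matrix.mul_one, h.one]
  map_mul' σ τ := by
    apply Matrix.toLin'.injective
    refine LinearMap.ext fun w => ?_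
    rw [toLin'_apply, toLin'_apply, ← mulVec_mulVec _ (C * _ * S), ← mulVec_mulVec w (C * _),
      ← mulVec_mulVec w (C * _), ← mulVec_mulVec _ C, ← mulVec_mulVec _ C, permMatrixHom_mulVec,
      permMatrixHom_mulVec, h.mulVec_mulVec']
    · rfl
    · rw [← h.sum w]; exact Equiv.sum_comp τ.symm _

theorem hom_apply (σ : Equiv.Perm α) : h.hom σ = C * (permMatrixHom σ : Matrix α α F) * S := rfl

theorem hom_mulVec (σ : Equiv.Perm α) (x : α → F) (hx : ∑ i, x i = 0) :
    h.hom σ *ᵥ (C *ᵥ x) = C *ᵥ (x ∘ σ.symm) := h.mulVec_mulVec' σ x hx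

theorem hom_mulVec' (σ : Equiv.Perm α) (w : ι → F) :
    h.hom σ *ᵥ w = C *ᵥ ((S *ᵥ w) ∘ σ.symm) := by
  rw [← h.hom_mulVec _ _ (h.sum w), mulVec_mulVec w, h.one, one_mulVec]

theorem hom_swap (i j : α) :
    h.hom (Equiv.swap i j) = 1 - vecMulVec (Cᵀ i - Cᵀ j) (S i - S j) := by
  apply Matrix.toLin'.injective
  refine LinearMap.ext fun w => ?_
  have h1 : (S *ᵥ w) ∘ (Equiv.swap i j).symm =
      S *ᵥ w - ((S i - S j) ⬝ᵥ w) • (Pi.single i 1 - Pi.single j 1) := by
    ext k
    rw [sub_dotProduct]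
    change (S *ᵥ w) (Equiv.swap i j k) = (S *ᵥ w) k - ((S *ᵥ w) i - (S *ᵥ w) j) * _
    by_cases h2 : i = j
    · simp [h2]
    by_cases h3 : k = i
    · simp [h3, h2]
    by_cases h4 : k = j
    · simp [h4, Ne.symm h2]
    · simp [Equiv.swap_apply_of_ne_of_ne h3 h4, h3, h4]
  rw [toLin'_apply, toLin'_apply, h.hom_mulVec', h1, mulVec_sub, mulVec_mulVec, h.one, sub_mulVec,
    vecMulVec_mulVec, mulVec_smul, mulVec_sub, mulVec_single_one, mulVec_single_one]
  ext k; simp [mul_comm]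

end PermSub

theorem injective_of_threeCycle {G : Type*} [Group G] (h5 : 5 ≤ Nat.card α)
    (f : Equiv.Perm α →* G) {σ : Equiv.Perm α} (hσ : Equiv.Perm.sign σ = 1) (h : f σ ≠ 1) :
    Function.Injective f := by
  rw [← MonoidHom.ker_eq_bot_iff]
  by_contra h1
  exact h (Equiv.Perm.alternatingGroup_le_of_normal h5
    ((Subgroup.nontrivial_iff_ne_bot _).2 h1) hσ)

theorem forall_mem_of_swap {G : Type*} [Group G] (f : Equiv.Perm α →* G) (K : Subgroup G)
    (h : ∀ i j, i ≠ j → f (Equiv.swap i j) ∈ K) (σ : Equiv.Perm α) : f σ ∈ K := by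
  induction σ using Equiv.Perm.swap_induction_on with
  | one => rw [map_one]; exact K.one_mem
  | swap_mul σ i j hij ih => rw [map_mul]; exact K.mul_mem (h i j hij) ih

end CfH3
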