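import Cfsg.Agent.OD.Pre
import Cfsg.Agent.H3.He0
/-! Permutations of nine points as hexadecimal codes, and enumerations of them. -/
set_option autoImplicit false
set_option maxRecDepth 100000
open Equiv Equiv.Perm
namespace CfH3.Th
open CfH3.He

abbrev P9 := Equiv.Perm (Fin 9)
def pa (c i : ℕ) : ℕ := Nat.land (Nat.shiftRight c (Nat.mul 4 i)) 15
noncomputable def pre (f : ℕ → ℕ) (n : ℕ) : ℕ := Nat.rec 0 (fun i c => Nat.add c (Nat.shiftLeft (f i) (Nat.mul 4 i))) n
noncomputable def pm (x y : ℕ) : ℕ := frc x fun x => frc y fun y => pre (fun i => pa x (pa y i)) 9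
def fn (σ : P9) (i : ℕ) : ℕ := if h : i < 9 then σ ⟨i, h⟩ else 0
noncomputable def cd (σ : P9) : ℕ := pre (fn σ) 9
def I9 : ℕ := 0x876543210

theorem pre_succ (f : ℕ → ℕ) (n : ℕ) : pre f (n + 1) = pre f n + f n * 16 ^ n := by
  show _ + f n <<< (4 * n) = _
  rw [Nat.shiftLeft_eq, pow_mul]; rfl
theorem pre_zero (f : ℕ → ℕ) : pre f 0 = 0 := rfl
attribute [irreducible] pre

theorem pa_eq (c i : ℕ) : pa c i = c / 16 ^ i % 16 := by
  show (c >>> (4 * i)) &&& (2 ^ 4 - 1) = _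
  rw [Nat.and_two_pow_sub_one_eq_mod, Nat.shiftRight_eq_div_pow, pow_mul]; rfl

theorem pre_lt {f : ℕ → ℕ} (h : ∀ i, f i < 16) (n : ℕ) : pre f n < 16 ^ n := by
  induction n with
  | zero => rw [pre_zero]; exact Nat.one_pos
  | succ n ih => rw [pre_succ, pow_succ]; nlinarith [h n]

theorem pa_pre {f : ℕ → ℕ} (h : ∀ i, f i < 16) {k n : ℕ} (hk : k < n) : pa (pre f n) k = f k := by
  induction n with
  | zero => omega
  | succ n ih =>
    rw [pre_succ, pa_eq]
    rcases Nat.lt_succ_iff_lt_or_eq.1 hk with h1 | rfl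
    · obtain ⟨m, rfl⟩ := Nat.exists_eq_add_of_lt h1
      rw [show f (k + m + 1) * 16 ^ (k + m + 1) = 16 * (f (k + m + 1) * 16 ^ m) * 16 ^ k by ring,
        Nat.add_mul_div_right _ _ (by positivity), Nat.add_mul_mod_self_left, ← pa_eq, ih h1]
    · rw [Nat.add_mul_div_right _ _ (by positivity), Nat.div_eq_of_lt (pre_lt h k), zero_add, Nat.mod_eq_of_lt (h k)]

theorem pre_congr {f g : ℕ → ℕ} {n : ℕ} (h : ∀ i < n, f i = g i) : pre f n = pre g n := by
  induction n with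
  | zero => rw [pre_zero, pre_zero]
  | succ n ih => rw [pre_succ, pre_succ, ih fun i hi => h i (by omega), h n (by omega)]

theorem fn_lt (σ : P9) (i : ℕ) : fn σ i < 9 := by unfold fn; split_ifs; exacts [Fin.is_lt _, by omega]
theorem fn_lt' (σ : P9) (i : ℕ) : fn σ i < 16 := (fn_lt σ i).trans (by omega)
theorem pa_cd (σ : P9) {i : ℕ} (h : i < 9) : pa (cd σ) i = fn σ i := pa_pre (fn_lt' σ) h
theorem fn_mul (σ τ : P9) {i : ℕ} (h : i < 9) : fn (σ * τ) i = fn σ (fn τ i) := by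
  simp only [fn, h, dite_true, Fin.is_lt, Fin.eta, mul_apply]
theorem fn_one {i : ℕ} (h : i < 9) : fn 1 i = i := by simp [fn, h]

theorem cd_mul (σ τ : P9) : cd (σ * τ) = pm (cd σ) (cd τ) := by
  rw [pm, frc_eq, frc_eq, cd]
  exact pre_congr fun i hi => by rw [pa_cd τ hi, pa_cd σ (fn_lt _ _), fn_mul _ _ hi]

theorem cd_inj {σ τ : P9} (h : cd σ = cd τ) : σ = τ := Equiv.ext fun i => Fin.ext (by
  have := (pa_cd σ i.2).symm.trans (h ▸ pa_cd τ i.2)
  simpa [fn] using this)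

theorem cd_one : cd 1 = I9 := by decide +kernel
theorem cd_eq_one {σ : P9} : cd σ = I9 ↔ σ = 1 := ⟨fun h => cd_inj (h.trans cd_one.symm), fun h => h ▸ cd_one⟩

attribute [irreducible] pm cd

noncomputable def pp (x n : ℕ) : ℕ := frc x fun x => Nat.rec I9 (fun _ r => pm r x) n
theorem cd_pow (σ : P9) (n : ℕ) : cd (σ ^ n) = pp (cd σ) n := by
  rw [pp, frc_eq]
  induction n with
  | zero => exact cd_one
  | succ n ih => rw [pow_succ, cd_mul, ih]

attribute [irreducible] pp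

noncomputable def go (pr : ℕ → ℕ → Bool) (fin : ℕ → Bool) (r : ℕ) : ℕ → ℕ → Bool :=
  Nat.rec (fun _ c => fin c) (fun _ ih n c => al (fun j => frc (Nat.add c (Nat.shiftLeft j (Nat.mul 4 n))) fun c' =>
    !(al (fun k => !(Nat.beq (pa c k) j)) n && pr n c') || frc (Nat.succ n) fun n => ih n c') 9) r

theorem go_sound {pr : ℕ → ℕ → Bool} {fin : ℕ → Bool} (σ : P9) (hp : ∀ n < 9, pr n (pre (fn σ) (n + 1)) = true)
    (h : go pr fin 9 0 0 = true) : fin (cd σ) = true := by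
  suffices ∀ r n, n + r = 9 → go pr fin r n (pre (fn σ) n) = true → fin (cd σ) = true from this 9 0 rfl (by rwa [pre_zero])
  intro r
  induction r with
  | zero => intro n hn h; rw [cd, ← hn]; exact h
  | succ r ih =>
    intro n hn h
    replace h : al (fun j => frc (Nat.add (pre (fn σ) n) (Nat.shiftLeft j (Nat.mul 4 n))) fun c' =>
      !(al (fun k => !(Nat.beq (pa (pre (fn σ) n) k) j)) n && pr n c') || frc (Nat.succ n) fun n => go pr fin r n c') 9 = true := h
    have := al_iff.1 h _ (fn_lt σ n)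
    rw [show Nat.add (pre (fn σ) n) (Nat.shiftLeft (fn σ n) (Nat.mul 4 n)) = pre (fn σ) (n + 1) by
      rw [pre_succ, show 16 = 2 ^ 4 from rfl, ← pow_mul, ← Nat.shiftLeft_eq]; rfl] at this
    simp only [frc_eq, Bool.or_eq_true, Bool.not_eq_true', Bool.and_eq_false_iff] at this
    rcases this with (h1 | h1) | h1
    · refine absurd h1 (Bool.not_eq_false _ ▸ al_iff.2 fun k hk => ?_)
      rw [pa_pre (fn_lt' σ) hk, Bool.not_eq_true', Bool.eq_false_iff, Ne, Nat.beq_eq, fn, fn, dif_pos (by omega : k < 9),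
        dif_pos (by omega : n < 9), Fin.val_inj, σ.injective.eq_iff, Fin.mk.injEq]
      omega
    · exact absurd (hp n (by omega)) (by rw [Bool.not_eq_true]; exact h1)
    · exact ih (n + 1) (by omega) h1

attribute [irreducible] go

/-- `σ x = y σ`, where `xi` is the inverse of `x` -/
noncomputable def com (x xi y n c : ℕ) : Bool :=
  (frc (pa x n) fun m => Nat.blt n m || Nat.beq (pa c m) (pa y (pa c n))) &&
    frc (pa xi n) fun k => Nat.blt n k || Nat.beq (pa c n) (pa y (pa c k))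
noncomputable def ivo (n c : ℕ) : Bool := frc (pa c n) fun m =>
  cond (Nat.blt n m) (al (fun k => !(Nat.beq (pa c k) n)) n) (Nat.beq (pa c m) n)

theorem blt_or {n m : ℕ} {b : Bool} (h : m ≤ n → b = true) : (Nat.blt n m || b) = true := by
  by_cases h1 : m ≤ n
  · rw [h h1, Bool.or_true]
  · rw [Nat.blt_eq.mpr (by omega), Bool.true_or]

theorem com_ok {σ X Y : P9} (h : σ * X = Y * σ) {x xi y : ℕ} (hx : cd X = x) (hi : cd X⁻¹ = xi) (hy : cd Y = y) {n : ℕ}
    (hn : n < 9) : com x xi y n (pre (fn σ) (n + 1)) = true := by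
  subst hx hi hy
  have k : ∀ i < 9, fn σ (fn X i) = fn Y (fn σ i) := fun i hi => by rw [← fn_mul _ _ hi, h, fn_mul _ _ hi]
  simp only [com, frc_eq, Bool.and_eq_true, pa_cd _ hn]
  refine ⟨blt_or fun h1 => ?_, blt_or fun h1 => ?_⟩ <;>
    rw [Nat.beq_eq, pa_pre (fn_lt' σ) (by omega), pa_pre (fn_lt' σ) (by omega), pa_cd _ (fn_lt _ _)]
  · exact k n hn
  · rw [← k _ (fn_lt _ _), ← fn_mul _ _ hn, mul_inv_cancel, fn_one hn]

theorem ivo_ok {σ : P9} (h : σ * σ = 1) {n : ℕ} (hn : n < 9) : ivo n (pre (fn σ) (n + 1)) = true := by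
  simp only [ivo, frc_eq, pa_pre (fn_lt' σ) (Nat.lt_succ_self n)]
  have k : ∀ i < 9, fn σ (fn σ i) = i := fun i hi => by rw [← fn_mul _ _ hi, h, fn_one hi]
  by_cases h1 : n < fn σ n
  · rw [Nat.blt_eq.mpr h1, cond_true, al_iff]
    intro i hi
    rw [pa_pre (fn_lt' σ) (by omega), Bool.not_eq_true', Bool.eq_false_iff, Ne, Nat.beq_eq]
    intro e
    rw [← e, k i (by omega)] at h1
    omega
  · rw [show Nat.blt n _ = false from Bool.eq_false_iff.2 fun e => h1 (Nat.blt_eq.mp e), cond_false, Nat.beq_eq,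
      pa_pre (fn_lt' σ) (by omega), k n hn]

theorem conj_of_prime {p : ℕ} [hp : Fact p.Prime] {σ τ : P9} (h1 : σ ^ p = 1) (h2 : τ ^ p = 1)
    (h : σ.support.card = τ.support.card) : IsConj σ τ := by
  rw [← sum_cycleType, ← sum_cycleType, cycleType_of_pow_prime_eq_one h1, cycleType_of_pow_prime_eq_one h2,
    Multiset.sum_replicate, Multiset.sum_replicate, smul_eq_mul, smul_eq_mul] at h
  rw [isConj_iff_cycleType_eq, cycleType_of_pow_prime_eq_one h1, cycleType_of_pow_prime_eq_one h2,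
    Nat.eq_of_mul_eq_mul_right hp.out.pos h]

theorem supp_prime {p : ℕ} [hp : Fact p.Prime] {σ : P9} (h1 : σ ^ p = 1) (h : σ ≠ 1) :
    ∃ k, 0 < k ∧ σ.support.card = k * p ∧ k * p ≤ 9 ∧ sign σ = (-1) ^ (k * p + k) := by
  have e : σ.cycleType.sum = σ.cycleType.card * p := by
    rw [cycleType_of_pow_prime_eq_one h1, Multiset.sum_replicate, smul_eq_mul, Multiset.card_replicate]
  exact ⟨_, card_cycleType_pos.2 h, by rw [← sum_cycleType, e], e ▸ (sum_cycleType_le σ).trans (by simp),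
    by rw [sign_of_cycleType, e]⟩

def pD : P9 := swap 0 1 * swap 3 4 * swap 5 6 * swap 7 8
def pE : P9 := swap 1 2 * swap 3 5 * swap 4 7 * swap 6 8
def pS : P9 := swap 2 3 * swap 3 6 * swap 6 8 * swap 8 7 * swap 7 5 * swap 5 4
def pT : P9 := swap 3 7 * swap 7 6 * swap 4 8 * swap 8 5
def pU : P9 := swap 3 7 * swap 4 5
def pF : P9 := swap 0 1 * swap 1 2 * swap 2 3 * swap 3 4
def cD : ℕ := 0x785634201
def cE : ℕ := 0x648375120
def cS : ℕ := 0x758426310
def cSi : ℕ := 0x683752410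
def cT : ℕ := 0x563487210
def cTi : ℕ := 0x437856210
def cU : ℕ := 0x836457210
def cF : ℕ := 0x876504321
def cFi : ℕ := 0x876532104
def cX : ℕ := 0x876543201
theorem cds : cd pD = cD ∧ cd pE = cE ∧ cd pS = cS ∧ cd pS⁻¹ = cSi ∧ cd pT = cT ∧ cd pT⁻¹ = cTi ∧ cd pU = cU ∧ cd pF = cF ∧
    cd pF⁻¹ = cFi ∧ cd (swap 0 1) = cX ∧ cd pE⁻¹ = cE ∧ cd pU⁻¹ = cU := by decide +kernel
theorem sgns : sign pD = 1 ∧ sign pE = 1 ∧ sign pS = 1 ∧ sign pT = 1 ∧ sign pU = 1 := by
  simp [pD, pE, pS, pT, pU, sign_swap]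

theorem invol {σ : P9} (h2 : σ * σ = 1) (h1 : σ ≠ 1) (hs : sign σ = 1) :
    ∃ g : P9, sign g = 1 ∧ (g * σ * g⁻¹ = pE ∨ g * σ * g⁻¹ = pU) := by
  haveI : Fact (Nat.Prime 2) := ⟨Nat.prime_two⟩
  have f : ∀ {τ : P9} (a b : Fin 9), a ≠ b → swap a b * τ * (swap a b)⁻¹ = τ → τ ^ 2 = 1 → σ.support.card = τ.support.card →
      ∃ g : P9, sign g = 1 ∧ g * σ * g⁻¹ = τ := fun {τ} a b hab h3 h4 h5 => by
    obtain ⟨g, hg⟩ := isConj_iff.1 (conj_of_prime (by rwa [pow_two]) h4 h5)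
    rcases Int.units_eq_one_or (sign g) with h | h
    · exact ⟨g, h, hg⟩
    · exact ⟨swap a b * g, by rw [map_mul, h, sign_swap hab]; rfl, by rw [← h3, ← hg]; group⟩
  obtain ⟨k, k0, k1, k2, k3⟩ := supp_prime (p := 2) (by rwa [pow_two]) h1
  have : k = 2 ∨ k = 4 := by
    have : k ≤ 4 := by omega
    rw [hs] at k3
    interval_cases k <;> simp at k3 ⊢ <;> exact absurd k3 (by decide)
  rcases this with rfl | rfl
  · exact (f (τ := pU) 3 7 (by decide) (by decide) (by decide) (k1.trans (by decide))).imp fun g h => ⟨h.1, Or.inr h.2⟩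
  · exact (f (τ := pE) 1 2 (by decide) (by decide) (by decide) (k1.trans (by decide))).imp fun g h => ⟨h.1, Or.inl h.2⟩

theorem five_aux : go ivo (fun y => Nat.beq y I9 || !(Nat.beq (pp (pm y cF) 5) I9) ||
    !(Nat.beq (pp (pm y (pm (pm cF y) cFi)) 4) I9)) 9 0 0 = true := by decide +kernel

theorem five {y f : P9} (h1 : y * y = 1) (h2 : f ^ 5 = 1) (h3 : (y * f) ^ 5 = 1) (h4 : (y * (f * y * f⁻¹)) ^ 4 = 1) : y = 1 := by
  haveI : Fact (Nat.Prime 5) := ⟨by norm_num⟩
  by_cases hf : f = 1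
  · rw [hf, mul_one, show y ^ 5 = (y * y) * (y * y) * y by simp only [pow_succ, pow_zero, one_mul, mul_assoc], h1] at h3
    simpa using h3
  obtain ⟨k, k0, k1, k2, -⟩ := supp_prime h2 hf
  obtain ⟨g, hg⟩ := isConj_iff.1 (conj_of_prime (τ := pF) h2 (by decide) (by rw [k1, show k = 1 by omega]; decide))
  have := go_sound (g * y * g⁻¹) (fun n hn => ivo_ok (by rw [conj_mul, h1]; simp) hn) five_aux
  obtain ⟨-, -, -, -, -, -, -, c1, c2, -⟩ := cds
  simp only [← c1, ← c2, ← cd_mul, ← cd_pow, Bool.or_eq_true, Bool.not_eq_true', Bool.eq_false_iff, Ne, Nat.beq_eq, cd_eq_one,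
    ← hg] at this
  rcases this with (h | h) | h
  · simpa using h
  · exact absurd (by rw [conj_mul, conj_pow, h3]; simp) h
  · exact absurd (by rw [show g * y * g⁻¹ * (g * f * g⁻¹ * (g * y * g⁻¹) * (g * f * g⁻¹)⁻¹) = g * (y * (f * y * f⁻¹)) * g⁻¹ by group,
      conj_pow, h4]; simp) h

noncomputable def mv (c : ℕ) : ℕ := ct (fun i => cond (Nat.beq (pa c i) i) 0 1) 9
theorem mv_cd (σ : P9) : mv (cd σ) = σ.support.card := by
  rw [mv, ct_eq, support, Finset.card_filter, Finset.sum_range]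
  refine Finset.sum_congr rfl fun i _ => ?_
  rw [pa_cd _ i.2, fn, dif_pos i.2]
  by_cases h : σ i = i
  · simp [h]
  · rw [if_pos h, show Nat.beq _ _ = false from Bool.eq_false_iff.2 fun e => h (Fin.ext (Nat.eq_of_beq_eq_true e))]; rfl

theorem cE_aux : go (com cE cE cE) (fun c => Nat.beq c I9 || (!(Nat.beq (pp c 7) I9) &&
    (!(Nat.beq (pp c 3) I9) || frc (pm c c) fun ci => go (fun n b => ivo n b && com cE cE cE n b && com c ci c n b)
      (fun b => Nat.beq b cE || Nat.beq b I9 || !(Nat.beq (Nat.mod (mv b) 4) 0)) 9 0 0) &&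
    (!(Nat.beq (pm c c) cE) || frc (pm c cE) fun ci => go (com c ci c) (fun x => Nat.beq x I9 || !(Nat.beq (pp x 3) I9)) 9 0 0))) 9 0 0
    = true := by decide +kernel

def RL : List ℕ := [35806200336, 27249820176, 35541701136, 26985320976, 35739092496, 35474593296, 10036398096, 9771898896, 35806200096, 27249819936, 35541700896, 26985320736, 35722314336, 35457815136, 9952512096, 9688012896, 5741429376, 5476930176, 5674321536, 5409822336, 35806200321, 27249820161, 35541701121, 26985320961, 35739092481, 35474593281, 10036398081, 9771898881, 35806199826, 27249819666, 35541700626, 26985320466, 35722313826, 35457814626, 5741428866, 5476929666, 35705537046, 35441037846, 9935734806, 9671235606, 35705536806, 35441037606, 5640766086, 5376266886, 1446461976, 1181962776, 1379354136, 1114854936, 1446461736, 1181962536, 1362575976, 1098076776]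
theorem cU_aux : go (com cU cU cU) (fun c => (Nat.beq c I9 || !(Nat.beq (pp c 7) I9)) &&
    (!(Nat.beq (pm c c) cU) || RL.any (Nat.beq c))) 9 0 0 = true ∧
    (RL.all fun i => RL.all fun j => !(Nat.beq (pp (pm i j) 2) cU)) = true := by decide +kernel

theorem cE_all {σ : P9} (h : σ * pE = pE * σ) (h1 : σ ≠ 1) : σ ^ 7 ≠ 1 ∧
    (σ ^ 3 = 1 → ∀ b : P9, b * b = 1 → sign b = 1 → b * pE = pE * b → b * σ = σ * b → b = pE ∨ b = 1) ∧
    (σ * σ = pE → ∀ x : P9, x * σ = σ * x → x ^ 3 = 1 → x = 1) := by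
  haveI : Fact (Nat.Prime 2) := ⟨Nat.prime_two⟩
  obtain ⟨-, c1, -, -, -, -, -, -, -, -, c2, -⟩ := cds
  have := go_sound σ (fun n hn => com_ok h c1 c2 c1 hn) cE_aux
  simp only [← cd_mul, ← cd_pow, Bool.or_eq_true, Bool.and_eq_true, Bool.not_eq_true', Bool.eq_false_iff, Ne, Nat.beq_eq,
    cd_eq_one, h1, false_or, frc_eq] at this
  refine ⟨this.1.1, fun h3 b b2 bs be bσ => ?_, fun h2 x hx x3 => ?_⟩
  · have k := go_sound b (fun n hn => by
      rw [ivo_ok b2 hn, com_ok be c1 c2 c1 hn, com_ok bσ rfl (by rw [eq_comm, ← mul_eq_one_iff_eq_inv.1 (by rw [← h3, pow_three'])]) rfl hn]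
      rfl) (this.1.2.resolve_left fun e => e h3)
    simp only [← c1, Bool.or_eq_true, Bool.not_eq_true', Bool.eq_false_iff, Ne, Nat.beq_eq, cd_eq_one, mv_cd] at k
    rcases k with (k | k) | k
    · exact Or.inl (cd_inj k)
    · exact Or.inr k
    · refine Or.inr (by_contra fun b1 => k ?_)
      obtain ⟨m, -, k1, k2, k3⟩ := supp_prime (p := 2) (by rwa [pow_two]) b1
      have : m ≤ 4 := by omega
      rw [bs] at k3
      rw [k1]
      interval_cases m <;> first | rfl | exact absurd k3 (by decide)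
  · have k := go_sound x (fun n hn => com_ok hx rfl (show cd σ⁻¹ = pm (cd σ) cE by
      rw [← c1, ← cd_mul, eq_comm, ← mul_eq_one_iff_eq_inv.1 (show σ * pE * σ = 1 by
        rw [h, mul_assoc, h2]; decide)]) rfl hn)
      (this.2.resolve_left fun e => e (by rw [h2, c1]))
    simpa [← cd_pow, cd_eq_one, x3, cd_one] using k

theorem cU_all {σ : P9} (h : σ * pU = pU * σ) : (σ ^ 7 = 1 → σ = 1) ∧ (σ * σ = pU → cd σ ∈ RL) := by
  obtain ⟨-, -, -, -, -, -, c1, -, -, -, -, c2⟩ := cds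
  have := go_sound σ (fun n hn => com_ok h c1 c2 c1 hn) cU_aux.1
  simp only [← cd_mul, ← cd_pow, Bool.or_eq_true, Bool.and_eq_true, Bool.not_eq_true', Bool.eq_false_iff, Ne, Nat.beq_eq,
    cd_eq_one, List.any_eq_true] at this
  exact ⟨fun h7 => this.1.resolve_right fun e => e h7, fun h2 => by
    obtain ⟨x, hx, e⟩ := this.2.resolve_left fun e => e (by rw [h2, c1])
    exact e ▸ hx⟩

theorem no_q8 {i j : P9} (hi : i * i = pU) (hj : j * j = pU) (h : (i * j) ^ 2 = pU) : False := by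
  have := List.all_eq_true.1 (List.all_eq_true.1 cU_aux.2 _ ((cU_all (by rw [← hi, mul_assoc])).2 hi)) _
    ((cU_all (by rw [← hj, mul_assoc])).2 hj)
  rw [← cd_mul, ← cd_pow, h, cds.2.2.2.2.2.2.1] at this
  exact absurd this (by decide)

/-- elements commuting with `X` are read off from a list of codes -/
theorem cen_list {X σ : P9} {x xi : ℕ} (hx : cd X = x) (hi : cd X⁻¹ = xi) {L : List ℕ}
    (h : go (com x xi x) (fun c => L.any (Nat.beq c) || L.any (Nat.beq (pm c cX))) 9 0 0 = true) (hL : ∀ c ∈ L, ∃ τ, sign τ = 1 ∧ cd τ = c)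
    (hσ : σ * X = X * σ) (hs : sign σ = 1) : cd σ ∈ L := by
  have := go_sound σ (fun n hn => com_ok hσ hx hi hx hn) h
  simp only [Bool.or_eq_true, List.any_eq_true, Nat.beq_eq] at this
  rcases this with ⟨c, hc, rfl⟩ | ⟨c, hc, e⟩
  · exact hc
  · obtain ⟨τ, h1, rfl⟩ := hL c hc
    rw [← cds.2.2.2.2.2.2.2.2.2.1, ← cd_mul] at e
    rw [← cd_inj e, map_mul, hs, sign_swap (by decide)] at h1
    exact absurd h1 (by decide)

end CfH3.Th
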