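import Cfsg.Agent.H3.Ta1
import Cfsg.Agent.OD.Helper3x5c70e40b14
/-! Coordinates for an extraspecial group of order 512 and plus type with an automorphism of order seven. -/
set_option autoImplicit false
set_option maxRecDepth 100000
open Subgroup CfH4
namespace CfH3.Th
open CfH3.He
open CfH3.Hf (p3 Cm al2 pow_md p3_mul cm0 cm1 csgn_aut csgn_pm aut_z basis)

theorem mq_lt {a b : ℕ} (ha : a < 512) (hb : b < 512) : mq a b < 512 := by
  have := al2 mq_aux ha hb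
  simp only [frc_eq, Bool.and_eq_true, Nat.blt_eq] at this
  exact this.1.1.1.1.1
theorem ext_id : ∀ c < 512, ext B8 c = c := fun c hc =>
  Nat.eq_of_beq_eq_true (al_iff.1 (show al (fun c => Nat.beq (ext B8 c) c) 512 = true by decide +kernel) c hc)
theorem lk_lt (t c : ℕ) : lk t c < 512 := Nat.lt_succ_of_le Nat.and_le_right
theorem lo_lt (c : ℕ) : lo c < 256 := Nat.lt_succ_of_le Nat.and_le_right
theorem one_aux : ∀ a < 512, mq a 0 = a ∧ mq a 256 = mq 256 a ∧ lo (mq a 256) = lo a ∧ (lo a = a ∨ mq (lo a) 256 = a) ∧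
    (mq a a = 0 ∨ mq a a = 256) ∧ mq a 256 ≠ a := by decide +kernel

variable {G : Type*} [Group G] {z : G} {ψ : ℕ → G}

structure Q0 (z : G) (ψ : ℕ → G) : Prop where
  mul : ∀ {a b}, a < 512 → b < 512 → ψ (mq a b) = ψ a * ψ b
  hz : ψ 256 = z
  ne : z ≠ 1

/-- `g` conjugates code `a` to code `b` -/
def Cq (ψ : ℕ → G) (g : G) (a b : ℕ) : Prop := a < 512 ∧ b < 512 ∧ g * ψ a * g⁻¹ = ψ b
def Act (ψ : ℕ → G) (g : G) (f : ℕ → ℕ) : Prop := ∀ c < 512, Cq ψ g c (f c)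

theorem Cq.mul {g h : G} {a b c : ℕ} (h1 : Cq ψ g b c) (h2 : Cq ψ h a b) : Cq ψ (g * h) a c :=
  ⟨h2.1, h1.2.1, by rw [← h1.2.2, ← h2.2.2]; group⟩
theorem Cq.inv {g : G} {a b : ℕ} (h : Cq ψ g a b) : Cq ψ g⁻¹ b a := ⟨h.2.1, h.1, by rw [← h.2.2]; group⟩
theorem Act.congr {g : G} {f f' : ℕ → ℕ} (h : Act ψ g f) (e : ∀ c < 512, f c = f' c) : Act ψ g f' :=
  fun c hc => e c hc ▸ h c hc
theorem Act.mul {g h : G} {f f' : ℕ → ℕ} (h1 : Act ψ g f) (h2 : Act ψ h f') : Act ψ (g * h) fun c => f (f' c) := fun c hc =>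
  (h1 _ (h2 c hc).2.1).mul (h2 c hc)
theorem Act.one : Act ψ 1 id := fun c hc => ⟨hc, hc, by simp⟩
theorem Act.pow {g : G} {f : ℕ → ℕ} (h : Act ψ g f) (n : ℕ) : Act ψ (g ^ n) f^[n] := by
  induction n with
  | zero => rw [pow_zero]; exact Act.one
  | succ n ih => rw [pow_succ]; exact ih.mul h
theorem Act.inv {g : G} {f : ℕ → ℕ} {t : ℕ} (h : Act ψ g f) (e : al (fun c => Nat.beq (f (lk t c)) c) 512 = true) :
    Act ψ g⁻¹ (lk t) := fun c hc => by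
  have := (h _ (lk_lt t c)).inv
  rwa [Nat.eq_of_beq_eq_true (al_iff.1 e c hc)] at this

namespace Q0
variable (D : Q0 z ψ)
include D

theorem one : ψ 0 = 1 := by
  have := D.mul (a := 0) (b := 0) (by omega) (by omega)
  exact mul_left_cancel (a := ψ 0) (by rw [← this, mul_one]; rfl)

theorem ker {c : ℕ} (hc : c < 512) (h : ψ c = 1) : c = 0 := by
  have : ∀ c < 512, c = 0 ∨ c = 256 ∨ ∃ e ∈ B8, mq c e = mq (mq e c) 256 := by decide +kernel
  rcases this c hc with h1 | rfl | ⟨e, he, h1⟩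
  · exact h1
  · exact absurd (D.hz.symm.trans h) D.ne
  · have h2 := congrArg ψ h1
    replace he : e < 512 := (by decide : ∀ e ∈ B8, e < 512) e he
    rw [D.mul (mq_lt he hc) (by omega), D.mul hc he, D.mul he hc, h, D.hz] at h2
    exact absurd (by simpa using h2) D.ne

theorem inj {a b : ℕ} (ha : a < 512) (hb : b < 512) (h : ψ a = ψ b) : a = b := by
  have := al2 inn_aux ha hb
  simp only [frc_eq, Bool.and_eq_true, Nat.beq_eq] at this
  have h1 := mq_lt (mq_lt ha (mq_lt ha ha)) hb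
  have h2 := D.mul ha h1
  rw [this.2.1.2, h, left_eq_mul] at h2
  rw [← this.2.1.2, D.ker h1 h2, (one_aux a ha).1]

theorem zz : z * z = 1 := by rw [← D.hz, ← D.mul (by omega) (by omega), ← D.one]; rfl
theorem mulz {a : ℕ} (ha : a < 512) : ψ (mq a 256) = ψ a * z := by rw [D.mul ha (by omega), D.hz]
theorem com {a : ℕ} (ha : a < 512) : ψ a * z = z * ψ a := by
  rw [← D.mulz ha, (one_aux a ha).2.1, D.mul (by omega) ha, D.hz]
theorem sq {a : ℕ} (ha : a < 512) : ψ a * ψ a = 1 ∨ ψ a * ψ a = z := by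
  rw [← D.mul ha ha]
  rcases (one_aux a ha).2.2.2.2.1 with h | h <;> rw [h]
  exacts [Or.inl D.one, Or.inr D.hz]
theorem pow4 {a : ℕ} (ha : a < 512) : ψ a ^ 4 = 1 := by
  rw [show ψ a ^ 4 = ψ a * ψ a * (ψ a * ψ a) by simp only [pow_succ, pow_zero, one_mul, mul_assoc]]
  rcases D.sq ha with h | h <;> rw [h]
  exacts [one_mul _, D.zz]
theorem eq {a b c : ℕ} (h : a < 512 ∧ b < 512 ∧ mq a b = c := by decide +kernel) : ψ a * ψ b = ψ c := by rw [← D.mul h.1 h.2.1, h.2.2]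
theorem lo_eq {a b : ℕ} (ha : a < 512) (hb : b < 512) (h : ψ a = ψ b ∨ ψ a = ψ b * z) : lo a = lo b := by
  rcases h with h | h
  · rw [D.inj ha hb h]
  · rw [D.inj ha (mq_lt hb (by omega)) (h.trans (D.mulz hb).symm), (one_aux b hb).2.2.1]

theorem cq_mul {g : G} {a b c d : ℕ} (h1 : Cq ψ g a b) (h2 : Cq ψ g c d) : Cq ψ g (mq a c) (mq b d) :=
  ⟨mq_lt h1.1 h2.1, mq_lt h1.2.1 h2.2.1, by
    rw [D.mul h1.1 h2.1, D.mul h1.2.1 h2.2.1, ← h1.2.2, ← h2.2.2]; group⟩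
theorem cq_z {g : G} (hg : g * z = z * g) : Cq ψ g 256 256 := ⟨by omega, by omega, by rw [D.hz, hg]; group⟩
theorem cq_0 (g : G) : Cq ψ g 0 0 := ⟨by omega, by omega, by rw [D.one]; group⟩
theorem cq_uniq {g : G} {a b c : ℕ} (h1 : Cq ψ g a b) (h2 : Cq ψ g a c) : b = c :=
  D.inj h1.2.1 h2.2.1 (h1.2.2.symm.trans h2.2.2)

theorem cq_exA {g : G} {l l' : List ℕ} (h : List.Forall₂ (Cq ψ g) l l') :
    ∀ c r r', Cq ψ g r r' → Cq ψ g (exA l c r) (exA l' c r') := by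
  induction h with
  | nil => exact fun _ _ _ h => h
  | cons h1 _ ih =>
    intro c r r' h
    simp only [exA, frc_eq] at ih ⊢
    refine ih _ _ _ ?_
    cases Nat.beq (Nat.land c 1) 1
    exacts [h, D.cq_mul h h1]

theorem act_ext {g : G} (hg : g * z = z * g) {l : List ℕ} (h : List.Forall₂ (Cq ψ g) B8 l) : Act ψ g (ext l) := fun c hc => by
  nth_rewrite 1 [← ext_id c hc]
  exact D.cq_exA (List.rel_append h (.cons (D.cq_z hg) .nil)) c 0 0 (D.cq_0 g)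

theorem act_inn {q : ℕ} (hq : q < 512) : Act ψ (ψ q) (inn q) := fun c hc => by
  have := al2 inn_aux hq hc
  simp only [frc_eq, Bool.and_eq_true, Nat.beq_eq, Nat.blt_eq] at this
  exact ⟨hc, this.1, by rw [← D.mul hq hc, this.2.1.1.1, D.mul this.1 hq, mul_inv_cancel_right]⟩

theorem bb_iff {a b : ℕ} (ha : a < 512) (hb : b < 512) : bb a b = 0 ↔ ψ a * ψ b = ψ b * ψ a := by
  have := al2 inn_aux ha hb
  simp only [frc_eq, Bool.and_eq_true, Nat.beq_eq, Bool.or_eq_true, Bool.not_eq_true', Bool.eq_false_iff, Ne] at this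
  rw [← mul_inv_eq_iff_eq_mul, (D.act_inn ha b hb).2.2]
  exact ⟨fun h => by rw [inn, h]; exact congrArg ψ (Nat.xor_zero b),
    fun h => this.2.2.resolve_right fun e => e (D.inj (D.act_inn ha b hb).2.1 hb h)⟩

theorem act_uniq {g : G} {f f' : ℕ → ℕ} (h1 : Act ψ g f) (h2 : Act ψ g f') {c : ℕ} (hc : c < 512) : f c = f' c :=
  D.cq_uniq (h1 c hc) (h2 c hc)

/-- conjugation by elements that differ by an element of `Q` -/
theorem cq_lo {g : G} {k c a b : ℕ} (hg : g * z = z * g) (hk : k < 512) (h1 : Cq ψ (g * ψ k) c a) (h2 : Cq ψ g c b) : lo a = lo b := by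
  have := al2 inn_aux hk h1.1
  simp only [frc_eq, Bool.and_eq_true, Nat.beq_eq, Nat.blt_eq] at this
  have h3 : Cq ψ g (inn k c) a := ⟨this.1, h1.2.1, by rw [← (D.act_inn hk c h1.1).2.2, ← h1.2.2]; group⟩
  have f : ∀ {c a}, Cq ψ g c a → ∃ a', lo a' = lo a ∧ Cq ψ g (lo c) a' := fun {c a} h => by
    rcases (one_aux c h.1).2.2.2.1 with e | e
    · exact ⟨a, rfl, e.symm ▸ h⟩
    · refine ⟨_, (one_aux a h.2.1).2.2.1, ?_⟩
      have h4 := D.cq_mul h (D.cq_z hg)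
      have : ∀ c < 256, mq (mq c 256) 256 = c := by decide +kernel
      rwa [← e, this _ (lo_lt c)] at h4
  obtain ⟨a', e1, k1⟩ := f h3
  obtain ⟨b', e2, k2⟩ := f h2
  rw [this.2.1.1.2] at k1
  rw [← e1, ← e2, D.cq_uniq k1 k2]

theorem comp {t : ℕ} (h : al (fun a => al (fun b => Nat.beq (lk t (mq a b)) (mq (lk t a) (lk t b))) 512) 512 = true)
    (h' : lk t 256 = 256) : Q0 z fun c => ψ (lk t c) :=
  ⟨fun ha hb => by rw [Nat.eq_of_beq_eq_true (al2 h ha hb), D.mul (lk_lt _ _) (lk_lt _ _)], by rw [h', D.hz], D.ne⟩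
end Q0

noncomputable def nm (f : ℕ → ℕ) (k n : ℕ) : ℕ := Nat.rec 0 (fun _ r => frc r fun r => mq k (f r)) n
theorem Q0.pow_mul (D : Q0 z ψ) {g : G} {f : ℕ → ℕ} (h : Act ψ g f) {k : ℕ} (hk : k < 512) (n : ℕ) :
    nm f k n < 512 ∧ (ψ k * g) ^ n = ψ (nm f k n) * g ^ n := by
  induction n with
  | zero => exact ⟨Nat.zero_lt_succ _, by rw [pow_zero, pow_zero, mul_one]; exact D.one.symm⟩
  | succ n ih =>
    have e : nm f k (n + 1) = mq k (f (nm f k n)) := frc_eq (nm f k n) fun r => mq k (f r)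
    have := h _ ih.1
    exact ⟨e ▸ mq_lt hk this.2.1, by rw [pow_succ', ih.2, e, D.mul hk this.2.1, ← this.2.2, pow_succ']; group⟩

theorem fixed [Finite G] (h : ES2 z) (σ : MulAut G) (h7 : σ ^ 7 = 1) (hn : Nat.card {x : G // x * x = 1} % 7 = 6) :
    ∃ c p : G, σ c = c ∧ σ p = p ∧ c * c = 1 ∧ p * p = 1 ∧ csgn c p = -1 := by
  classical
  haveI : Fact (Nat.Prime 7) := ⟨by norm_num⟩
  haveI := Fintype.ofFinite {x : G // x * x = 1}
  let f : Function.End {x : G // x * x = 1} := fun x => ⟨σ x, by rw [← map_mul, x.2, map_one]⟩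
  have hf : ∀ n x, ((f ^ n) x : G) = (σ ^ n) x := fun n x => by
    induction n with
    | zero => rfl
    | succ n ih => rw [pow_succ', pow_succ', MulAut.mul_apply, ← ih]; rfl
  have h1 := Equiv.Perm.card_fixedPoints_modEq (f := f) (p := 7) (n := 1) (funext fun x => Subtype.ext (by rw [hf, pow_one, h7]; rfl))
  obtain ⟨c, c1, c2, c3⟩ : ∃ c, σ c = c ∧ c * c = 1 ∧ ¬ (c = 1 ∨ c = z) := by
    by_contra hc
    push Not at hc
    have : Fintype.card f.fixedPoints ≤ Fintype.card Bool := Fintype.card_le_of_injective (fun x => decide ((x.1 : G) = 1))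
      fun x y e => Subtype.ext (Subtype.ext (by
        have e' : (x.1 : G) = 1 ↔ (y.1 : G) = 1 := by simpa using e
        rcases hc _ (congrArg Subtype.val x.2) x.1.2 with h1 | h1 <;> rcases hc _ (congrArg Subtype.val y.2) y.1.2 with h2 | h2
        · rw [h1, h2]
        · exact absurd (h2.symm.trans (e'.1 h1)) h.ne
        · exact absurd (h1.symm.trans (e'.2 h2)) h.ne
        · rw [h1, h2]))
    rw [Nat.card_eq_fintype_card] at hn
    rw [Nat.ModEq, hn, Fintype.card_bool] at *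
    omega
  obtain ⟨q, hq⟩ : ∃ q, c * q ≠ q * c := by
    by_contra hc
    push Not at hc
    exact c3 (h.center c hc)
  have k : ∀ x, csgn c (σ x) = csgn c x := fun x => by rw [← csgn_aut σ c x, c1]
  have s7 : ∀ x, σ (σ (σ (σ (σ (σ (σ x)))))) = x := fun x => by
    have := congrArg (· x) h7
    simpa [pow_succ] using this
  set p := q * σ q * σ (σ q) * σ (σ (σ q)) * σ (σ (σ (σ q))) * σ (σ (σ (σ (σ q)))) * σ (σ (σ (σ (σ (σ q))))) with hp
  have p1 : csgn c p = -1 := by simp only [hp, h.csgn_mul_right, k, csgn_of_not_comm hq]; rfl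
  have p2 : σ p = p := by
    have e : σ p * q = q * σ p ∨ _ := h.comm _ _
    have e' : q * σ p = p * q := by simp only [hp, map_mul, s7, mul_assoc]
    rcases e with e | e
    · exact mul_right_cancel (e.trans e')
    · have e1 : σ p = z * p := mul_right_cancel (e.trans (by rw [e']; exact (mul_assoc _ _ _).symm))
      have := s7 p
      simp only [e1, map_mul, aut_z h, h.z_mul_z_mul] at this
      exact absurd this (h.z_mul_ne p)
  rcases h.sq_eq p with e | e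
  · exact ⟨c, p, c1, p2, c2, e, p1⟩
  · refine ⟨c, c * p, c1, by rw [map_mul, c1, p2], c2, ?_, by rw [h.csgn_mul_right, p1, csgn_of_comm rfl]; rfl⟩
    have := h.anti (x := p) (y := c) fun e => by rw [csgn_of_comm e.symm] at p1; omega
    rw [mul_assoc, ← mul_assoc p, this, mul_assoc z, mul_assoc c, e, ← h.cent, h.z_mul_z_mul, c2]

theorem coord [Finite G] (h : ES2 z) (hc : Nat.card G = 512) (σ : MulAut G) (h7 : σ ^ 7 = 1) (hne : σ ≠ 1)
    (hn : Nat.card {x : G // x * x = 1} % 7 = 6) :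
    ∃ ψ : ℕ → G, Q0 z ψ ∧ (∀ g, ∃ c < 512, ψ c = g) ∧ List.Forall₂ (fun a b => σ (ψ a) = ψ b) B8 [2, 4, 3, 40, 8, 16, 64, 128] := by
  obtain ⟨w, u, ⟨w1, w2, w3, w4⟩, ⟨u1, u2, u3, u4⟩, g0, g1, g2⟩ := basis h σ h7 hne
  obtain ⟨c, p, c1, p1, c2, p2, cp⟩ := fixed h σ h7 hn
  have mv : ∀ x y, csgn x (σ⁻¹ y) = csgn (σ x) y := fun x y => by rw [← csgn_aut σ]; simp
  have g3 : csgn (σ (σ (σ w))) u = -1 := by rw [w4, h.csgn_mul_left, g0, g1]; rfl
  have g4 : csgn (σ (σ (σ (σ w)))) u = 1 := by rw [w4, map_mul, h.csgn_mul_left, g1, g2]; rfl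
  have sq : ∀ (τ : MulAut G) {x : G}, x * x = 1 → τ x * τ x = 1 := fun τ x e => by rw [← map_mul, e, map_one]
  have cm : ∀ (τ : MulAut G) {x : G}, x * τ x = τ x * x → Commute (τ x) (τ (τ x)) := fun τ x e => by
    rw [Commute, SemiconjBy, ← map_mul, e, map_mul]
  have fx : ∀ (τ : MulAut G) {x y : G}, τ y = y → τ (τ (τ x)) = x * τ x → ∀ i, Commute (p3 x (τ x) (τ (τ x)) i) y :=
    fun τ x y e e' i => by
    have k : ∀ x, csgn (τ x) y = csgn x y := fun x => by rw [← csgn_aut τ x y, e]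
    have k1 : csgn x y = 1 := by
      have := h.csgn_mul_left x (τ x) y
      rw [← e', k, k, k] at this
      rcases csgn_pm x y with h | h <;> rw [h] at this ⊢
      omega
    have k2 : ∀ {x}, csgn x y = 1 → Commute x y := csgn_eq_one_iff.1
    exact (((k2 k1).pow_left _).mul_left ((k2 ((k x).trans k1)).pow_left _)).mul_left ((k2 ((k _).trans ((k x).trans k1))).pow_left _)
  have iv : ∀ {y}, σ y = y → σ⁻¹ y = y := fun e => by rw [MulAut.inv_def, MulEquiv.symm_apply_eq, e]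
  have c0 : ∀ {x y : G}, Commute x y → Cm z x y 0 := fun e => by rw [Cm, pow_zero, mul_one, e.eq]
  let ψ := fun k => p3 w (σ w) (σ (σ w)) (Nat.land k 7) * c ^ Nat.shiftRight k 6 *
    (p3 u (σ⁻¹ u) (σ⁻¹ (σ⁻¹ u)) (Nat.land (Nat.shiftRight k 3) 7) * p ^ Nat.shiftRight k 7) * z ^ Nat.shiftRight k 8
  have D : Q0 z ψ := ⟨fun {a b} ha hb => by
    have := al2 mq_aux ha hb
    simp only [frc_eq, Bool.and_eq_true, Nat.beq_eq] at this
    obtain ⟨⟨⟨⟨⟨-, e1⟩, e2⟩, e6⟩, e7⟩, e3⟩ := this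
    have e5 : ∀ i < 8, ∀ j < 8, Hf.bq (Nat.mul 8 i) j % 2 =
      (i % 2 * (j % 2) + i / 2 % 2 * (j / 4 % 2) + i / 4 % 2 * (j / 2 % 2)) % 2 := by decide +kernel
    replace e5 := e5 (Nat.land (Nat.shiftRight a 3) 7) (Nat.lt_succ_of_le Nat.and_le_right) (Nat.land b 7)
      (Nat.lt_succ_of_le Nat.and_le_right)
    simp only [ψ]
    rw [(((Cm.p3 h g0 g1 g2 (by rw [mv, g1]) (by rw [mv, g2]) (by rw [mv, g3]) (by rw [mv, mv, g2]) (by rw [mv, mv, g3])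
      (by rw [mv, mv, g4]) _ _).mul_right h (c0 ((fx σ⁻¹ (iv c1) u4 _).pow_right _))).mul_left h
      ((c0 ((fx σ p1 w4 _).symm.pow_left _)).mul_right h ((cm1 h cp).pow h _ _))).prod h, e1, e2,
      p3_mul w1 (sq σ w1) (sq σ (sq σ w1)) w2 w3 (cm σ w2), p3_mul u1 (sq _ u1) (sq _ (sq _ u1)) u2 u3 (cm _ u2),
      pow_md c2 e6, pow_md p2 e7, ((fx σ c1 w4 _).symm.pow_left _).mul_mul_mul_comm,
      ((fx σ⁻¹ (iv p1) u4 _).symm.pow_left _).mul_mul_mul_comm, ← pow_add, ← pow_add]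
    congr 1
    refine pow_md h.sq (e3.trans ?_)
    simp only [Nat.add_eq, Nat.mul_eq, mul_one] at e5 ⊢
    show _ % 2 = _
    omega, by
      show _ ^ 0 * _ ^ 0 * _ ^ 0 * c ^ 4 * (_ ^ 0 * _ ^ 0 * _ ^ 0 * p ^ 2) * z ^ 1 = z
      rw [pow_md c2 (show 4 % 2 = 0 % 2 from rfl), pow_two, p2]; simp, h.ne⟩
  refine ⟨ψ, D, fun g => ?_, ?_⟩
  · have : Function.Bijective fun c : Fin 512 => ψ c := (Nat.bijective_iff_injective_and_card _).2
      ⟨fun a b e => Fin.ext (D.inj a.2 b.2 e), by rw [hc, Nat.card_fin]⟩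
    obtain ⟨c, e⟩ := this.2 g
    exact ⟨c, c.2, e⟩
  · have h2 := congrArg σ u4
    simp only [map_mul, MulAut.apply_inv_self] at h2
    have k1 : ψ 1 = w := show w ^ 1 * _ ^ 0 * _ ^ 0 * _ ^ 0 * (_ ^ 0 * _ ^ 0 * _ ^ 0 * _ ^ 0) * _ ^ 0 = _ by simp
    have k2 : ψ 2 = σ w := show w ^ 0 * _ ^ 1 * _ ^ 0 * _ ^ 0 * (_ ^ 0 * _ ^ 0 * _ ^ 0 * _ ^ 0) * _ ^ 0 = _ by simp
    have k4 : ψ 4 = σ (σ w) := show w ^ 0 * _ ^ 0 * _ ^ 1 * _ ^ 0 * (_ ^ 0 * _ ^ 0 * _ ^ 0 * _ ^ 0) * _ ^ 0 = _ by simp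
    have k8 : ψ 8 = u := show w ^ 0 * _ ^ 0 * _ ^ 0 * _ ^ 0 * (_ ^ 1 * _ ^ 0 * _ ^ 0 * _ ^ 0) * _ ^ 0 = _ by simp
    have k16 : ψ 16 = σ⁻¹ u := show w ^ 0 * _ ^ 0 * _ ^ 0 * _ ^ 0 * (_ ^ 0 * _ ^ 1 * _ ^ 0 * _ ^ 0) * _ ^ 0 = _ by simp
    have k32 : ψ 32 = σ⁻¹ (σ⁻¹ u) := show w ^ 0 * _ ^ 0 * _ ^ 0 * _ ^ 0 * (_ ^ 0 * _ ^ 0 * _ ^ 1 * _ ^ 0) * _ ^ 0 = _ by simp
    have k64 : ψ 64 = c := show w ^ 0 * _ ^ 0 * _ ^ 0 * _ ^ 1 * (_ ^ 0 * _ ^ 0 * _ ^ 0 * _ ^ 0) * _ ^ 0 = _ by simp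
    have k128 : ψ 128 = p := show w ^ 0 * _ ^ 0 * _ ^ 0 * c ^ 2 * (_ ^ 0 * _ ^ 0 * _ ^ 0 * _ ^ 1) * _ ^ 0 = _ by
      rw [pow_two, c2]; simp
    simp only [B8, List.forall₂_cons, ← D.eq (a := 1) (b := 2) (c := 3), ← D.eq (a := 8) (b := 32) (c := 40), k1, k2, k4, k8, k16,
      k32, k64, k128, c1, p1, w4, MulAut.apply_inv_self, true_and, List.Forall₂.nil, and_true]
    rw [u3, h2, mul_assoc, u1, mul_one]

end CfH3.Th
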