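import Cfsg.Agent.H3.Ta3
import Cfsg.Agent.OD.Helper3xdff23d0ca6
/-! The involution centraliser `2^{1+8}.A₉`: generators and their action on the extraspecial subgroup. -/
set_option autoImplicit false
set_option maxRecDepth 100000
open Subgroup CfH4 CfH9 CfH6 Equiv.Perm
namespace CfH3.Th
open CfH3.He
open CfH3.Hf (al2)

variable {G : Type*} [Group G] {z d e s t u : G} {ψ : ℕ → G} {π : G → P9}

structure Base (z : G) (ψ : ℕ → G) (π : G → P9) : Prop where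
  q : Q0 z ψ
  cen : ∀ g, (∀ c < 512, g * ψ c = ψ c * g) → g = 1 ∨ g = z
  mul : ∀ {g h}, g ∈ Cx(z) → h ∈ Cx(z) → π (g * h) = π g * π h
  ker : ∀ {g}, g ∈ Cx(z) → π g = 1 → ∃ k < 512, ψ k = g
  kq : ∀ {k}, k < 512 → π (ψ k) = 1
  sg : ∀ {g}, g ∈ Cx(z) → sign (π g) = 1
  sur : ∀ σ, sign σ = 1 → ∃ g ∈ Cx(z), π g = σ
  card : Nat.card Cx(z) = 92897280

theorem Q0.act_of (D : Q0 z ψ) {g : G} (hg : g ∈ Cx(z)) {T i : ℕ} (hT : T ∈ [TM, TN]) (hi : i < 16)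
    (h : ∀ b ∈ B8, Cq ψ g b (tb T i b)) : Act ψ g (tb T i) :=
  (D.act_ext (mem_Cx.1 hg) (l := B8.map (tb T i)) (by rw [List.forall₂_map_right_iff, List.forall₂_same]; exact h)).congr
    fun c hc => Nat.eq_of_beq_eq_true (al2 (List.all_eq_true.1 tb_ext T hT) hi hc)

theorem Act.inv' {g : G} {T i j : ℕ} (h : Act ψ g (tb T i)) (hT : T ∈ [TM, TN]) (hp : (i, j) ∈ [(5, 6), (7, 8), (8, 7), (9, 10)]) :
    Act ψ g⁻¹ (tb T j) := fun c hc => by
  have := (h _ (lk_lt T (Nat.add (Nat.mul 512 j) c))).inv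
  rwa [show tb T i (lk T _) = c from Nat.eq_of_beq_eq_true (al_iff.1 (List.all_eq_true.1 (List.all_eq_true.1 tb_inv.1 T hT) _ hp) c hc)] at this

theorem Q0.cq_zb (D : Q0 z ψ) {g : G} {a b c d : ℕ} (h1 : Cq ψ g a b) (h2 : Cq ψ g c d) : zb b d = zb a c := by
  rw [Bool.eq_iff_iff, zb, zb, Nat.beq_eq, Nat.beq_eq, D.bb_iff h1.2.1 h2.2.1, D.bb_iff h1.1 h2.1, ← h1.2.2, ← h2.2.2, conj_mul, conj_mul,
    conj_injective.eq_iff]

theorem Q0.cq_sgl (D : Q0 z ψ) {g : G} {a b : ℕ} (h1 : Cq ψ g a b) (h : mq a a = 0 := by decide) : sgl b = true := by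
  have := D.cq_mul h1 h1
  rw [h] at this
  rw [sgl, D.cq_uniq this (D.cq_0 g)]; rfl

theorem Q0.cq_sign (D : Q0 z ψ) {g : G} {q b a : ℕ} (hq : q < 512) (hg : g * z = z * g) (h : Cq ψ g b a)
    (k : inn q b = cond (Nat.blt a 256) b (mq b 256)) : Cq ψ (g * ψ q) b (lo a) := by
  refine Cq.mul ?_ (D.act_inn hq b h.1)
  have : ∀ a < 512, lo a = cond (Nat.blt a 256) a (mq a 256) := by decide +kernel
  rw [k, this a h.2.1]
  cases Nat.blt a 256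
  exacts [D.cq_mul h (D.cq_z hg), h]

namespace Base
variable (B : Base z ψ π)
include B

theorem mem {k : ℕ} (hk : k < 512) : ψ k ∈ Cx(z) := mem_Cx.2 (B.q.com hk)
theorem one : π 1 = 1 := by rw [← B.q.one]; exact B.kq (by omega)
theorem pz : π z = 1 := by rw [← B.q.hz]; exact B.kq (by omega)
theorem inv {g : G} (hg : g ∈ Cx(z)) : π g⁻¹ = (π g)⁻¹ := eq_inv_of_mul_eq_one_left (by rw [← B.mul (inv_mem hg) hg, inv_mul_cancel, B.one])
theorem pow {g : G} (hg : g ∈ Cx(z)) (n : ℕ) : π (g ^ n) = π g ^ n := by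
  induction n with
  | zero => rw [pow_zero, pow_zero, B.one]
  | succ n ih => rw [pow_succ, pow_succ, B.mul (pow_mem hg n) hg, ih]
theorem cj {g h : G} (hg : g ∈ Cx(z)) (hh : h ∈ Cx(z)) : π (g * h * g⁻¹) = π g * π h * (π g)⁻¹ := by
  rw [B.mul (mul_mem hg hh) (inv_mem hg), B.mul hg hh, B.inv hg]
theorem modr {g h : G} (hg : g ∈ Cx(z)) (hh : h ∈ Cx(z)) (e : π g = π h) : ∃ k < 512, g = h * ψ k := by
  obtain ⟨k, hk, e⟩ := B.ker (mul_mem (inv_mem hh) hg) (by rw [B.mul (inv_mem hh) hg, B.inv hh, e, inv_mul_cancel])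
  exact ⟨k, hk, by rw [e]; group⟩
theorem modl {g h : G} (hg : g ∈ Cx(z)) (hh : h ∈ Cx(z)) (e : π g = π h) : ∃ k < 512, g = ψ k * h := by
  obtain ⟨k, hk, e⟩ := B.ker (mul_mem hg (inv_mem hh)) (by rw [B.mul hg (inv_mem hh), B.inv hh, e, mul_inv_cancel])
  exact ⟨k, hk, by rw [e]; group⟩
theorem nrm {g : G} (hg : g ∈ Cx(z)) {c : ℕ} (hc : c < 512) : ∃ a, Cq ψ g c a := by
  obtain ⟨k, hk, e⟩ := B.ker (mul_mem (mul_mem hg (B.mem hc)) (inv_mem hg)) (by rw [B.cj hg (B.mem hc), B.kq hc]; group)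
  exact ⟨k, hc, hk, e.symm⟩
theorem pow4 {g : G} (hg : g ∈ Cx(z)) (h : π g = 1) : g ^ 4 = 1 := by
  obtain ⟨k, hk, rfl⟩ := B.ker hg h
  exact B.q.pow4 hk

theorem twist (τ : P9) : Base z ψ fun g => τ * π g * τ⁻¹ :=
  ⟨B.q, B.cen, fun hg hh => by rw [B.mul hg hh, conj_mul], fun hg h => B.ker hg (by simpa using h),
    fun hk => by rw [B.kq hk]; group, fun hg => by simp [B.sg hg], fun σ hσ => by
      obtain ⟨g, hg, e⟩ := B.sur (τ⁻¹ * σ * τ) (by simp [hσ])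
      exact ⟨g, hg, by rw [e]; group⟩, B.card⟩

theorem rho (b : Bool) : Base z (fun c => ψ (rr b c)) π ∧ (∀ c < 512, rr b c < 512) ∧ ∀ c < 512, rr b (rr b c) = c := by
  cases b
  · exact ⟨B, fun _ h => h, fun _ _ => rfl⟩
  have k : ∀ c < 512, lk tR (lk tR c) = c := by decide +kernel
  exact ⟨⟨B.q.comp tR_aux (by decide +kernel), fun g h => B.cen g fun c hc => k c hc ▸ h _ (lk_lt _ _), B.mul, fun hg h => by
    obtain ⟨c, hc, e⟩ := B.ker hg h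
    exact ⟨_, lk_lt tR c, (congrArg ψ (k c hc)).trans e⟩, fun _ => B.kq (lk_lt _ _), B.sg, B.sur, B.card⟩, fun c _ => lk_lt _ _, k⟩

theorem enum_sound {g T T1 : G} {j : ℕ} (hj : j ∈ [7, 8]) (hg : g ∈ Cx(z)) (hT : T ∈ Cx(z)) (hT1 : T1 ∈ Cx(z)) (a : Act ψ T (tb TM 8))
    (a1 : Act ψ T1 (tb TM j)) (h : π g * π T = π T1 * π g) :
    ∃ g' ∈ Cx(z), ∃ l, π g' = π g ∧ Act ψ g' (ext l) ∧ ∀ fin, enum j fin = true → fin l = true := by
  obtain ⟨b0, c0⟩ := B.nrm hg (c := 1) (by omega)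
  obtain ⟨b1, c1⟩ := B.nrm hg (c := 2) (by omega)
  obtain ⟨b2, c2⟩ := B.nrm hg (c := 4) (by omega)
  obtain ⟨b3, c3⟩ := B.nrm hg (c := 8) (by omega)
  obtain ⟨b4, c4⟩ := B.nrm hg (c := 16) (by omega)
  obtain ⟨b5, c5⟩ := B.nrm hg (c := 32) (by omega)
  obtain ⟨b6, c6⟩ := B.nrm hg (c := 64) (by omega)
  obtain ⟨b7, c7⟩ := B.nrm hg (c := 128) (by omega)
  obtain ⟨q, hq, -, k⟩ := sgn_aux (Nat.blt b0 256) (Nat.blt b1 256) (Nat.blt b2 256) (Nat.blt b3 256) (Nat.blt b4 256) (Nat.blt b5 256)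
    (Nat.blt b6 256) (Nat.blt b7 256)
  simp only [B8, List.forall₂_cons] at k
  obtain ⟨k0, k1, k2, k3, k4, k5, k6, k7, -⟩ := k
  have D := B.q
  have h1 := mem_Cx.1 hg
  replace c0 := D.cq_sign hq h1 c0 k0
  replace c1 := D.cq_sign hq h1 c1 k1
  replace c2 := D.cq_sign hq h1 c2 k2
  replace c3 := D.cq_sign hq h1 c3 k3
  replace c4 := D.cq_sign hq h1 c4 k4
  replace c5 := D.cq_sign hq h1 c5 k5
  replace c6 := D.cq_sign hq h1 c6 k6
  replace c7 := D.cq_sign hq h1 c7 k7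
  have hg' := mul_mem hg (B.mem hq)
  have e : π (g * ψ q) = π g := by rw [B.mul hg (B.mem hq), B.kq hq, mul_one]
  refine ⟨_, hg', [lo b0, lo b1, lo b2, lo b3, lo b4, lo b5, lo b6, lo b7], e, D.act_ext (mem_Cx.1 hg') (by
    simp only [B8, List.forall₂_cons, c0, c1, c2, c3, c4, c5, c6, c7, List.Forall₂.nil, and_self]), fun fin E => ?_⟩
  obtain ⟨m, hm, e'⟩ := B.modr (mul_mem hg' hT) (mul_mem hT1 hg') (by rw [B.mul hg' hT, B.mul hT1 hg', e, h])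
  have key : ∀ {x y x' y'}, Cq ψ (g * ψ q) x x' → Cq ψ (g * ψ q) y y' → tb TM 8 x = y → lo y' = lo (tb TM j x') :=
    fun {x y x' y'} p1 p2 p3 => D.cq_lo (mem_Cx.1 (mul_mem hT1 hg')) hm (e' ▸ p2.mul (p3 ▸ a x p1.1)) ((a1 _ p1.2.1).mul p1)
  have ll : ∀ b, lo (lo b) = lo b := fun b => by rw [lo, lo]; exact (Nat.and_assoc _ _ _).trans (by rw [Nat.and_self]; rfl)
  have fx : ∀ {x b}, Cq ψ (g * ψ q) x (lo b) → tb TM 8 x = x → lo b ∈ Fx := fun p1 p2 => (mem_Fx j hj _ (lo_lt _)).1 (key p1 p1 p2)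
  have e2 := (ll b2).symm.trans (key c1 c2 (by decide +kernel))
  have e5 := (ll b5).symm.trans (key c4 c5 (by decide +kernel))
  have m1 : lo b1 ∈ Mv := (mem_Fx j hj _ (lo_lt _)).2 (e2 ▸ key c2 (D.cq_mul c1 c2) (by decide +kernel))
  have m4 : lo b4 ∈ Mv := (mem_Fx j hj _ (lo_lt _)).2 (e5 ▸ key c5 (D.cq_mul c4 c5) (by decide +kernel))
  simp only [enum, List.all_eq_true, frc_eq, Bool.or_eq_true, Bool.not_eq_true', Bool.eq_false_iff, Ne] at E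
  replace E := ((E _ (fx c0 (by decide +kernel))).resolve_left fun n => n (D.cq_sgl c0)) _ m1
  replace E := (E.resolve_left fun n => n (D.cq_sgl c1)) _ (fx c3 (by decide +kernel))
  rw [← e2] at E
  replace E := (E.resolve_left fun n => n (by rw [D.cq_sgl c3, D.cq_zb c3 c0]; decide)) _ m4
  replace E := (E.resolve_left fun n => n (by rw [D.cq_sgl c4, D.cq_zb c4 c1, D.cq_zb c4 c2]; decide)) _ (fx c6 (by decide +kernel))
  rw [← e5] at E
  replace E := (E.resolve_left fun n => n (by rw [D.cq_sgl c6, D.cq_zb c6 c0, D.cq_zb c6 c3]; decide)) _ (fx c7 (by decide +kernel))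
  exact E.resolve_left fun n => n (by rw [D.cq_sgl c7, D.cq_zb c7 c0, D.cq_zb c7 c3, D.cq_zb c7 c6]; decide)

/-- a letter with known action and known image -/
def Gd (_ : Base z ψ π) (g : G) (f : ℕ → ℕ) (c : ℕ) : Prop := g ∈ Cx(z) ∧ Act ψ g f ∧ cd (π g) = c

theorem word {ev : ℕ → G} {f : ℕ → ℕ → ℕ} {w : List ℕ} (h : ∀ i ∈ w, B.Gd (ev i) (f i) (PL i)) : B.Gd (evw ev w) (wa f w) (pw w) := by
  induction w with
  | nil => exact ⟨one_mem _, Act.one, by rw [evw_nil, B.one, cd_one]; rfl⟩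
  | cons i w ih =>
    obtain ⟨h1, h2, h3⟩ := h i List.mem_cons_self
    obtain ⟨h4, h5, h6⟩ := ih fun j hj => h j (List.mem_cons_of_mem _ hj)
    rw [evw_cons]
    exact ⟨mul_mem h1 h4, (h2.mul h5).congr fun c _ => (frc_eq (wa f w c) (f i)).symm, by rw [B.mul h1 h4, cd_mul, h3, h6]; rfl⟩

end Base

theorem Base.Gd.triv {B : Base z ψ π} {g : G} {f : ℕ → ℕ} {c : ℕ} (h : B.Gd g f c) (e : c = I9) : triv f = true := by
  obtain ⟨k, hk, rfl⟩ := B.ker h.1 (cd_eq_one.1 (h.2.2.trans e))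
  simp only [Th.triv, List.all_eq_true, Nat.beq_eq]
  intro c hc
  have h1 : c < 512 ∧ lo c = c := (by decide : ∀ c ∈ B8, c < 512 ∧ lo c = c) c hc
  rw [B.q.cq_lo (g := 1) (by simp) hk (by rw [one_mul]; exact h.2.1 c h1.1) (Act.one c h1.1)]
  exact h1.2

theorem exists_base [Finite G] (hz : orderOf z = 2) (Q : Subgroup Cx(z)) [Q.Normal] (hQ : Cfsg.IsExtraspecial 2 Q)
    (hcard : Nat.card Q = 2 ^ 9) (hplus : ∃ E : Subgroup Q, Cfsg.IsElementaryAbelian 2 E ∧ Nat.card E = 2 ^ 5) (h2c : Cz(Q) ≤ Q)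
    (e : Cx(z) ⧸ Q ≃* alternatingGroup (Fin 9)) :
    ∃ ψ π s, Base z ψ π ∧ s ∈ Cx(z) ∧ s ^ 7 = 1 ∧ π s = pS ∧ Act ψ s (tb TM 5) := by
  classical
  obtain ⟨z0, h⟩ := exists_es2 hQ
  let π : Cx(z) →* alternatingGroup (Fin 9) := e.toMonoidHom.comp (QuotientGroup.mk' Q)
  have hπ : ∀ g, π g = 1 ↔ g ∈ Q := fun g => e.map_eq_one_iff.trans (QuotientGroup.eq_one_iff g)
  have sπ : Function.Surjective π := e.surjective.comp (QuotientGroup.mk'_surjective Q)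
  have cq : ∀ g : Cx(z), (∀ q : Q, g * q = q * g) → g = 1 ∨ g = z0 := fun g hg => by
    have m : g ∈ Q := h2c fun q hq => (hg ⟨q, hq⟩).symm
    rcases h.center ⟨g, m⟩ fun y => Subtype.ext (hg y) with h1 | h1
    exacts [Or.inl (congrArg Subtype.val h1), Or.inr (congrArg Subtype.val h1)]
  have e0 : ((z0 : Cx(z)) : G) = z := by
    rcases cq ⟨z, mem_Cx.2 rfl⟩ fun q => Subtype.ext (mem_Cx.1 (q : Cx(z)).2).symm with h1 | h1
    · rw [show z = 1 from congrArg Subtype.val h1, orderOf_one] at hz; omega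
    · rw [← h1]
  obtain ⟨x0, hx0⟩ := sπ ⟨pS, mem_alternatingGroup.2 sgns.2.2.1⟩
  have x7 : (x0 ^ 8) ^ 7 = 1 := by
    have m : x0 ^ 7 ∈ Q := (hπ _).1 (by rw [map_pow, hx0]; exact Subtype.ext (by decide))
    have : (⟨_, m⟩ : Q) ^ 8 = 1 := by
      rw [show 8 = 2 * 4 from rfl, pow_mul, pow_two]
      rcases h.sq_eq ⟨_, m⟩ with h1 | h1 <;> rw [h1]
      · exact one_pow _
      · rw [show 4 = 2 * 2 from rfl, pow_mul, pow_two z0, h.sq, one_pow]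
    rw [← pow_mul, mul_comm, pow_mul]
    exact congrArg Subtype.val this
  have hx : (π (x0 ^ 8) : P9) = pS := by rw [map_pow, hx0]; decide
  generalize x0 ^ 8 = x at x7 hx
  obtain ⟨ψ, D0, sur, a⟩ := coord h hcard (MulAut.conjNormal x) (by rw [← map_pow, x7, map_one]) (fun h1 => by
    have m : x ∈ Q := h2c fun q hq => (mul_inv_eq_iff_eq_mul.1 (congrArg (fun f : MulAut Q => (f ⟨q, hq⟩ : Cx(z))) h1)).symm
    rw [(hπ x).2 m] at hx
    exact absurd hx (by decide)) (by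
      obtain ⟨E, hE, cE⟩ := hplus
      have h1 := h.card_order_four (m := 4) hcard hE cE
      have h2 := Nat.card_congr (Equiv.sumCompl fun x : Q => x * x = 1)
      rw [Nat.card_sum, hcard, ← Nat.card_congr (Equiv.subtypeEquivRight fun x => h.orderOf_eq_four_iff), h1] at h2
      omega)
  have D : Q0 z fun c => ((ψ c : Cx(z)) : G) := ⟨fun ha hb => by rw [D0.mul ha hb]; rfl, by rw [D0.hz, e0],
    fun h1 => by rw [h1, orderOf_one] at hz; omega⟩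
  let p : G → P9 := fun g => if h : g ∈ Cx(z) then π ⟨g, h⟩ else 1
  have hp : ∀ g : Cx(z), p g = π g := fun g => dif_pos g.2
  refine ⟨_, p, x, ⟨D, fun g hg => ?_, fun {g h} hg hh => ?_, fun {g} hg h1 => ?_, fun hk => ?_, fun {g} hg => ?_, fun σ hσ => ?_, ?_⟩,
    x.2, congrArg Subtype.val x7, (hp x).trans hx, D.act_of x.2 (by simp) (by omega) ?_⟩
  · rcases cq ⟨g, mem_Cx.2 (D.hz ▸ hg 256 (by omega))⟩ fun q => (by
      obtain ⟨c, hc, rfl⟩ := sur q; exact Subtype.ext (hg c hc)) with h1 | h1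
    exacts [Or.inl (congrArg Subtype.val h1), Or.inr ((congrArg Subtype.val h1).trans e0)]
  · exact (hp (⟨g, hg⟩ * ⟨h, hh⟩)).trans ((congrArg Subtype.val (map_mul π _ _)).trans (congrArg₂ (· * ·) (hp ⟨g, hg⟩).symm (hp ⟨h, hh⟩).symm))
  · obtain ⟨c, hc, h1⟩ := sur ⟨⟨g, hg⟩, (hπ _).1 (Subtype.ext ((hp ⟨g, hg⟩).symm.trans h1))⟩
    exact ⟨c, hc, by rw [h1]⟩
  · rw [hp, (hπ _).2 (ψ _).2]; rfl
  · rw [hp ⟨g, hg⟩]; exact mem_alternatingGroup.1 (π _).2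
  · obtain ⟨g, hg⟩ := sπ ⟨σ, mem_alternatingGroup.2 hσ⟩
    exact ⟨g, g.2, by rw [hp, hg]⟩
  · have := two_mul_nat_card_alternatingGroup (α := Fin 9)
    rw [Nat.card_perm, Nat.card_fin, show Nat.factorial 9 = 362880 from rfl] at this
    rw [card_eq_card_quotient_mul_card_subgroup Q, hcard, Nat.card_congr e.toEquiv]
    omega
  · have : [2, 4, 3, 40, 8, 16, 64, 128] = B8.map (tb TM 5) := by decide +kernel
    rw [this, List.forall₂_map_right_iff, List.forall₂_same] at a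
    exact fun b hb => ⟨(by decide : ∀ b ∈ B8, b < 512) b hb, lk_lt _ _, by beta_reduce; rw [← a b hb]; rfl⟩

structure Pre (z : G) (ψ : ℕ → G) (π : G → P9) (s t : G) : Prop where
  b : Base z ψ π
  gs : b.Gd s (tb TM 5) cS
  gt : b.Gd t (tb TM 7) cT
  s7 : s ^ 7 = 1
  t3 : t ^ 3 = 1
  st : t⁻¹ * s * t = s ^ 2

theorem exists_pre (B : Base z ψ π) (hs : s ∈ Cx(z)) (s7 : s ^ 7 = 1) (ps : π s = pS) (a : Act ψ s (tb TM 5)) :
    ∃ π t, Pre z ψ π s t := by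
  have D := B.q
  have a2 : Act ψ (s ^ 2) f2 := a.pow 2
  obtain ⟨t0, h0, p0⟩ := B.sur pT sgns.2.2.2.1
  obtain ⟨k, hk, e⟩ := B.modl (mul_mem (mul_mem (inv_mem h0) hs) h0) (pow_mem hs 2) (by
    rw [B.mul (mul_mem (inv_mem h0) hs) h0, B.mul (inv_mem h0) hs, B.inv h0, B.pow hs, p0, ps]; decide)
  obtain ⟨n1, n2⟩ := D.pow_mul a2 hk 7
  rw [← e, ← pow_mul, mul_comm 2, pow_mul, s7, one_pow, mul_one, ← inv_inv t0, inv_inv t0⁻¹, conj_pow, s7] at n2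
  obtain ⟨j, hj, e1⟩ := t_aux1 k hk (D.ker n1 (by rw [← n2]; group))
  replace hj : j < 512 := by omega
  have h1 := mul_mem h0 (inv_mem (B.mem hj))
  have p1 : π (t0 * (ψ j)⁻¹) = pT := by rw [B.mul h0 (inv_mem (B.mem hj)), B.inv (B.mem hj), B.kq hj, p0]; group
  have e2 : (t0 * (ψ j)⁻¹)⁻¹ * s * (t0 * (ψ j)⁻¹) = s ^ 2 := by
    rw [show (t0 * (ψ j)⁻¹)⁻¹ * s * (t0 * (ψ j)⁻¹) = ψ j * (t0⁻¹ * s * t0) * (ψ j)⁻¹ by group, e, ← mul_assoc, ← D.mul hj hk, e1,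
      ← (a2 j hj).2.2]; group
  generalize t0 * (ψ j)⁻¹ = t1 at h1 p1 e2
  have h2 := pow_mem h1 4
  have p2 : π (t1 ^ 4) = pT := by rw [B.pow h1, p1]; decide
  have t3 : (t1 ^ 4) ^ 3 = 1 := by rw [← pow_mul, mul_comm, pow_mul]; exact B.pow4 (pow_mem h1 3) (by rw [B.pow h1, p1]; decide)
  have cp : ∀ {t : G} {m : ℕ}, t⁻¹ * s * t = s ^ m → ∀ n, t⁻¹ * s ^ n * t = s ^ (m * n) := fun {t m} h n => by
    rw [pow_mul, ← h, ← inv_inv t, inv_inv t⁻¹, conj_pow]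
  have e3 : (t1 ^ 4)⁻¹ * s * t1 ^ 4 = s ^ 2 := by
    rw [show (t1 ^ 4)⁻¹ * s * t1 ^ 4 = t1⁻¹ * (t1⁻¹ * (t1⁻¹ * (t1⁻¹ * s * t1) * t1) * t1) * t1 by
      simp only [pow_succ, pow_zero, one_mul, mul_inv_rev, mul_assoc], e2, cp e2, cp e2, cp e2,
      pow_eq_pow_mod _ s7]
  generalize t1 ^ 4 = t at h2 p2 t3 e3
  have step : ∀ {t : G}, t⁻¹ * s * t = s ^ 2 → ∀ {x y}, Cq ψ t⁻¹ x y → ∀ n, Cq ψ t⁻¹ ((tb TM 5)^[n] x) (f2^[n] y) := fun {t} h x y c n => by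
    induction n with
    | zero => exact c
    | succ n ih =>
      rw [Function.iterate_succ_apply', Function.iterate_succ_apply', show t⁻¹ = s ^ 2 * t⁻¹ * s⁻¹ by rw [← h]; group]
      exact ((a2 _ ih.2.1).mul ih).mul (a _ ih.1).inv
  obtain ⟨k, c0⟩ := B.nrm (inv_mem h2) (c := 1) (by omega)
  obtain ⟨i, -, e4⟩ := (t_aux2 k c0.2.1 (D.cq_uniq (step e3 c0 3) (by
    have := D.cq_mul c0 (step e3 c0 1)
    rwa [show mq 1 ((tb TM 5)^[1] 1) = (tb TM 5)^[3] 1 by decide +kernel] at this))).resolve_left fun h => by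
      have := c0.inv
      rw [h] at this
      exact absurd (D.cq_uniq this (D.cq_0 _)) (by decide)
  have hi := pow_mem hs i
  have h3 := mul_mem (mul_mem (inv_mem hi) h2) hi
  have e5 : ((s ^ i)⁻¹ * t * s ^ i)⁻¹ * s * ((s ^ i)⁻¹ * t * s ^ i) = s ^ 2 := by
    rw [show ((s ^ i)⁻¹ * t * s ^ i)⁻¹ * s * ((s ^ i)⁻¹ * t * s ^ i) = (s ^ i)⁻¹ * (t⁻¹ * s * t) * s ^ i by group, e3]; group
  have c0 : Cq ψ ((s ^ i)⁻¹ * t * s ^ i)⁻¹ 1 1 := by
    rw [show ((s ^ i)⁻¹ * t * s ^ i)⁻¹ = (s ^ i)⁻¹ * (t⁻¹ * s ^ i) by group]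
    exact (a.pow i 1 (by omega)).inv.mul (e4 ▸ (step e3 c0 i).mul (a.pow i 1 (by omega)))
  have t3' : ((s ^ i)⁻¹ * t * s ^ i) ^ 3 = 1 := by rw [← inv_inv (s ^ i), inv_inv (s ^ i)⁻¹, conj_pow, t3]; group
  have p3 : pS ^ i * π ((s ^ i)⁻¹ * t * s ^ i) * (pS ^ i)⁻¹ = pT := by
    rw [B.mul (mul_mem (inv_mem hi) h2) hi, B.mul (inv_mem hi) h2, B.inv hi, B.pow hs, ps, p2]; group
  generalize (s ^ i)⁻¹ * t * s ^ i = t at h3 e5 c0 t3' p3
  have c1 : Cq ψ t⁻¹ 2 4 := by have := step e5 c0 1; rwa [show (tb TM 5)^[1] 1 = 2 by decide +kernel, show f2^[1] 1 = 4 by decide +kernel] at this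
  have c2 : Cq ψ t⁻¹ 4 6 := by have := step e5 c0 2; rwa [show (tb TM 5)^[2] 1 = 4 by decide +kernel, show f2^[2] 1 = 6 by decide +kernel] at this
  obtain ⟨k, c3⟩ := B.nrm (inv_mem h3) (c := 8) (by omega)
  obtain rfl := t_aux3 k c3.2.1 (D.cq_uniq (step e5 c3 1) (by
    have := D.cq_mul c3 (step e5 c3 5)
    rwa [show mq 8 ((tb TM 5)^[5] 8) = (tb TM 5)^[1] 8 by decide +kernel] at this)) (D.cq_zb c3 c0) (D.cq_zb c3 c1) (D.cq_zb c3 c2)
  have c4 : Cq ψ t⁻¹ 16 32 := by have := step e5 c3 6; rwa [show (tb TM 5)^[6] 8 = 16 by decide +kernel, show f2^[6] 8 = 32 by decide +kernel] at this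
  have c5 : Cq ψ t⁻¹ 32 48 := by have := step e5 c3 5; rwa [show (tb TM 5)^[5] 8 = 32 by decide +kernel, show f2^[5] 8 = 48 by decide +kernel] at this
  obtain ⟨x, c6⟩ := B.nrm (inv_mem h3) (c := 64) (by omega)
  obtain ⟨y, c7⟩ := B.nrm (inv_mem h3) (c := 128) (by omega)
  have A := (D.act_ext (mem_Cx.1 (inv_mem h3)) (l := [1, 4, 6, 8, 32, 48, x, y]) (by
    simp only [B8, List.forall₂_cons, c0, c1, c2, c3, c4, c5, c6, c7, List.Forall₂.nil, and_self])).pow 3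
  rw [inv_pow, t3', inv_one] at A
  have E := al_iff.1 t_aux4 x c6.2.1
  simp only [Bool.or_eq_true, Bool.not_eq_true', Bool.eq_false_iff, Ne, Nat.beq_eq, al_iff, Bool.and_eq_true] at E
  obtain ⟨rfl, rfl⟩ := ((E.resolve_left fun n => n (D.cq_uniq (by
    have := step e5 c6 1; rwa [show (tb TM 5)^[1] 64 = 64 by decide +kernel] at this) c6)) y c7.2.1).resolve_left fun n => n
    ⟨⟨D.cq_uniq (by have := step e5 c7 1; rwa [show (tb TM 5)^[1] 128 = 128 by decide +kernel] at this) c7,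
      D.act_uniq A Act.one (by omega)⟩, D.act_uniq A Act.one (by omega)⟩
  have A := (D.act_of (inv_mem h3) (T := TM) (i := 8) (by simp) (by omega) (List.forall₂_same.1 (List.forall₂_map_right_iff.1 (by
    rw [show B8.map (tb TM 8) = [1, 4, 6, 8, 32, 48, 64, 128] by decide +kernel]
    simp only [B8, List.forall₂_cons, c0, c1, c2, c3, c4, c5, c6, c7, List.Forall₂.nil, and_self])))).inv' (j := 7) (by simp) (by simp)
  rw [inv_inv] at A
  exact ⟨_, t, B.twist (pS ^ i), ⟨hs, a, by beta_reduce; rw [ps, ← cds.2.2.1]; congr 1; group⟩,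
    ⟨h3, A, by beta_reduce; rw [p3, cds.2.2.2.2.1]⟩, s7, t3', e5⟩

def lt (z : G) (ψ : ℕ → G) (d e s t u : G) (i : ℕ) : G :=
  cond (Nat.blt i 16) ([z, 1, ψ 64, d, e, s, s⁻¹, t, t⁻¹, u, u⁻¹].getD i 1) (ψ (Nat.land (Nat.sub i 16) 511))

structure Dat (z : G) (ψ : ℕ → G) (π : G → P9) (d e s t u : G) (T : ℕ) : Prop where
  b : Base z ψ π
  hT : T ∈ [TM, TN]
  gd : ∀ i, b.Gd (lt z ψ d e s t u i) (ap T i) (PL i)
  s7 : s ^ 7 = 1
  t3 : t ^ 3 = 1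
  st : t⁻¹ * s * t = s ^ 2

theorem Base.gd_q (B : Base z ψ π) (T : ℕ) {i : ℕ} (h : ¬ i < 16) : B.Gd (lt z ψ d e s t u i) (ap T i) (PL i) := by
  have e : Nat.blt i 16 = false := Bool.eq_false_iff.2 fun e => h (Nat.blt_eq.mp e)
  have k : Nat.land (Nat.sub i 16) 511 < 512 := Nat.lt_succ_of_le Nat.and_le_right
  unfold lt ap PL
  rw [e]
  exact ⟨B.mem k, B.q.act_inn k, by rw [cond_false, B.kq k, cd_one]; rfl⟩

theorem Base.gd_all (B : Base z ψ π) {T : ℕ} (hT : T ∈ [TM, TN]) (i : ℕ)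
    (h : ∀ j ∈ [3, 4, 5, 7, 9], j = i ∨ j + 1 = i ∧ 5 ≤ j → B.Gd (lt z ψ d e s t u j) (tb T j) (PL j)) :
    B.Gd (lt z ψ d e s t u i) (ap T i) (PL i) := by
  by_cases hi : i < 16
  swap
  · exact B.gd_q T hi
  have k := List.all_eq_true.1 tb_inv.2 T hT
  simp only [al_iff, Bool.and_eq_true, Nat.beq_eq, List.all_eq_true] at k
  have k1 : ∀ i ∈ [0, 1, 11, 12, 13, 14, 15], PL i = I9 → B.Gd 1 (tb T i) (PL i) := fun i hi e =>
    ⟨one_mem _, Act.one.congr fun c hc => ((k c hc).2 i hi).symm, by rw [B.one, cd_one, e]⟩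
  have k2 : ∀ {g i j σ}, B.Gd g (tb T i) (PL i) → (i, j) ∈ [(5, 6), (7, 8), (8, 7), (9, 10)] → cd σ = PL i → cd σ⁻¹ = PL j →
      B.Gd g⁻¹ (tb T j) (PL j) := fun h hp e1 e2 => ⟨inv_mem h.1, h.2.1.inv' hT hp, by rw [B.inv h.1, cd_inj (h.2.2.trans e1.symm), e2]⟩
  obtain ⟨p0, p1, p2, -, -, p5, p6, p7, p8, p9, p10, p11, p12, p13, p14, p15⟩ := pls
  obtain ⟨-, -, c1, c2, c3, c4, c5, -, -, -, -, c6⟩ := cds
  interval_cases i
  · exact ⟨mem_Cx.2 rfl, fun c hc => ⟨hc, lk_lt _ _, by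
      rw [show ap T 0 c = c from (k c hc).2 0 (by simp)]; exact mul_inv_eq_of_eq_mul (B.q.com hc).symm⟩, by rw [p0, ← cd_one, ← B.pz]; rfl⟩
  · exact k1 1 (by simp) p1
  · exact ⟨B.mem (by omega), (B.q.act_inn (by omega)).congr fun c hc => (k c hc).1.symm, by rw [p2, ← cd_one, ← B.kq (k := 64) (by omega)]; rfl⟩
  · exact h 3 (by simp) (by simp)
  · exact h 4 (by simp) (by simp)
  · exact h 5 (by simp) (by simp)
  · exact k2 (h 5 (by simp) (by simp)) (by simp) (c1.trans p5.symm) (c2.trans p6.symm)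
  · exact h 7 (by simp) (by simp)
  · exact k2 (h 7 (by simp) (by simp)) (by simp) (c3.trans p7.symm) (c4.trans p8.symm)
  · exact h 9 (by simp) (by simp)
  · exact k2 (h 9 (by simp) (by simp)) (by simp) (c5.trans p9.symm) (c6.trans p10.symm)
  · exact k1 11 (by simp) p11
  · exact k1 12 (by simp) p12
  · exact k1 13 (by simp) p13
  · exact k1 14 (by simp) p14
  · exact k1 15 (by simp) p15

theorem Pre.gd_aq (P : Pre z ψ π s t) {D E U : List ℕ} (S : List ℕ) (hd : 3 ∈ S → P.b.Gd d (ext D) cD) (he : 4 ∈ S → P.b.Gd e (ext E) cE)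
    (hu : 9 ∈ S → P.b.Gd u (ext U) cU) {w : List ℕ} (hw : ∀ i ∈ w, i ≠ 10 ∧ (i ∈ [3, 4, 9] → i ∈ S)) :
    P.b.Gd (evw (lt z ψ d e s t u) w) (wa (aq D E U) w) (pw w) := P.b.word fun i hi => by
  obtain ⟨h1, h2⟩ := hw i hi
  obtain ⟨-, -, -, p3, p4, p5, -, p7, -, p9, -⟩ := pls
  by_cases h3 : i = 3
  · subst h3; exact p3 ▸ hd (h2 (by simp))
  by_cases h4 : i = 4
  · subst h4; exact p4 ▸ he (h2 (by simp))
  by_cases h9 : i = 9
  · subst h9; exact p9 ▸ hu (h2 (by simp))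
  have b : ∀ {j}, i ≠ j → Nat.beq i j = false := fun h => Bool.eq_false_iff.2 fun e => h (Nat.eq_of_beq_eq_true e)
  rw [show aq D E U i = ap TM i from funext fun c => by rw [aq, b h3, b h4, b h9]; rfl]
  refine P.b.gd_all (by simp) i fun j hj k => ?_
  simp only [List.mem_cons, List.not_mem_nil, or_false] at hj
  rcases hj with rfl | rfl | rfl | rfl | rfl
  · omega
  · omega
  · exact p5 ▸ P.gs
  · exact p7 ▸ P.gt
  · omega

theorem Base.rd_sound (B : Base z ψ π) {g : G} {f : ℕ → ℕ → ℕ} {w : List ℕ} (h : B.Gd g (wa f w) (pw w)) {b b' : Bool} {T i : ℕ}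
    (hT : T ∈ [TM, TN]) (hi : i < 16) (k : rd f (rr b) (kk b') T i w = true) :
    ((B.rho b).1.twist (cond b' (Equiv.swap 0 1) 1)).Gd g (tb T i) (PL i) := by
  simp only [rd, Bool.and_eq_true, List.all_eq_true, Nat.beq_eq] at k
  obtain ⟨-, r1, r2⟩ := B.rho b
  refine ⟨h.1, (B.rho b).1.q.act_of h.1 hT hi fun c hc => ?_, ?_⟩
  · have c5 : c < 512 := (by decide : ∀ c ∈ B8, c < 512) c hc
    have := h.2.1 _ (r1 c c5)
    exact ⟨c5, lk_lt _ _, by rw [← k.1.2 c hc]; beta_reduce; rw [r2 _ this.2.1]; exact this.2.2⟩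
  · rw [← k.2, ← h.2.2]
    cases b'
    · simp [kk]
    · simp only [kk, cond_true, Equiv.swap_inv, cd_mul, cds.2.2.2.2.2.2.2.2.2.1]

theorem exists_dat (P : Pre z ψ π s t) : ∃ ψ π d e u T, Dat z ψ π d e s t u T := by
  have B := P.b
  have ps : π s = pS := cd_inj (P.gs.2.2.trans cds.2.2.1.symm)
  have pt : π t = pT := cd_inj (P.gt.2.2.trans cds.2.2.2.2.1.symm)
  have aT := P.gt.2.1.inv' (j := 8) (by simp) (by simp)
  have hT := inv_mem P.gt.1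
  obtain ⟨d, hd, pd⟩ := B.sur pD sgns.1
  obtain ⟨e, he, pe⟩ := B.sur pE sgns.2.1
  obtain ⟨u, hu, pu⟩ := B.sur pU sgns.2.2.2.2
  obtain ⟨d, hd, D, pd', ad, fd⟩ := B.enum_sound (j := 8) (by simp) hd hT hT aT aT (by rw [B.inv P.gt.1, pt, pd]; decide)
  obtain ⟨e, he, E, pe', ae, fe⟩ := B.enum_sound (j := 8) (by simp) he hT hT aT aT (by rw [B.inv P.gt.1, pt, pe]; decide)
  obtain ⟨u, hu, U, pu', au, fu⟩ := B.enum_sound (j := 7) (by simp) hu hT P.gt.1 aT P.gt.2.1 (by rw [B.inv P.gt.1, pt, pu]; decide)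
  have gd : B.Gd d (ext D) cD := ⟨hd, ad, by rw [pd', pd, cds.1]⟩
  have ge : B.Gd e (ext E) cE := ⟨he, ae, by rw [pe', pe, cds.2.1]⟩
  have gu : B.Gd u (ext U) cU := ⟨hu, au, by rw [pu', pu, cds.2.2.2.2.2.2.1]⟩
  have tr : ∀ {D' E' U'} (S w : List ℕ), (3 ∈ S → D' = D) → (4 ∈ S → E' = E) → (9 ∈ S → U' = U) →
      ((∀ i ∈ w, i ≠ 10 ∧ (i ∈ [3, 4, 9] → i ∈ S)) ∧ pw w = I9) → triv (wa (aq D' E' U') w) = true := fun S w h1 h2 h3 h4 =>
    (P.gd_aq (d := d) (e := e) (u := u) S (fun h => h1 h ▸ gd) (fun h => h2 h ▸ ge) (fun h => h3 h ▸ gu) h4.1).triv h4.2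
  have h1 := fd _ enD
  have h2 := fe _ enE
  rw [tr [3] _ (fun _ => rfl) (by simp) (by simp) (by decide +kernel)] at h1
  rw [tr [4] _ (by simp) (fun _ => rfl) (by simp) (by decide +kernel), tr [4] _ (by simp) (fun _ => rfl) (by simp) (by decide +kernel)] at h2
  simp only [Bool.not_true, Bool.false_or, Bool.or_eq_true, beq_iff_eq, Bool.and_self, Bool.and_eq_true, Bool.not_eq_true',
    Bool.eq_false_iff, List.contains_iff_mem] at h1 h2
  obtain rfl : D = D1 := h1.resolve_left fun h => h2.1 (tr [3, 4] _ (fun _ => h.symm) (fun _ => rfl) (by simp) (by decide +kernel))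
  have h3 := fu _ (List.all_eq_true.1 enU E (h2.2.resolve_left fun h =>
    h (tr [3, 4] _ (fun _ => rfl) (fun _ => rfl) (by simp) (by decide +kernel))))
  have tr' : ∀ w : List ℕ, ((∀ i ∈ w, i ≠ 10 ∧ (i ∈ [3, 4, 9] → i ∈ [3, 4, 9])) ∧ pw w = I9) → triv (wa (aq D1 E U) w) = true :=
    fun w => tr _ w (fun _ => rfl) (fun _ => rfl) (fun _ => rfl)
  rw [finU, tr' _ (by decide +kernel), tr' _ (by decide +kernel), tr' _ (by decide +kernel), tr' _ (by decide +kernel)] at h3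
  simp only [Bool.and_self, Bool.not_true, Bool.false_or, List.any_eq_true, Bool.and_eq_true, List.all_eq_true] at h3
  obtain ⟨⟨_, b, b', n, we, wu⟩, -, -, h3⟩ := h3
  have hT : cond n TN TM ∈ [TM, TN] := by cases n <;> simp
  have k : ∀ i < 16, ∀ w, (i, w) ∈ [(3, [3]), (4, we), (5, [5]), (7, [7]), (9, wu)] →
      ((B.rho b).1.twist (cond b' (Equiv.swap 0 1) 1)).Gd (evw (lt z ψ d e s t u) w) (tb (cond n TN TM) i) (PL i) := fun i hi w hw =>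
    B.rd_sound (P.gd_aq [3, 4, 9] (fun _ => gd) (fun _ => ge) (fun _ => gu) fun j hj => ⟨by
      have := h3 _ hw
      simp only [rd, Bool.and_eq_true, List.all_eq_true, Bool.not_eq_true', Bool.eq_false_iff, Ne, Nat.beq_eq] at this
      exact this.1.1 j hj, id⟩) hT hi (h3 _ hw)
  refine ⟨_, _, d, evw (lt z ψ d e s t u) we, evw (lt z ψ d e s t u) wu, _, (B.rho b).1.twist (cond b' (Equiv.swap 0 1) 1), hT,
    fun i => Base.gd_all _ hT i fun j hj _ => ?_, P.s7, P.t3, P.st⟩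
  simp only [List.mem_cons, List.not_mem_nil, or_false] at hj
  rcases hj with rfl | rfl | rfl | rfl | rfl
  · exact mul_one (lt z ψ d e s t u 3) ▸ k 3 (by omega) [3] (by simp)
  · exact k 4 (by omega) we (by simp)
  · exact mul_one (lt z ψ d e s t u 5) ▸ k 5 (by omega) [5] (by simp)
  · exact mul_one (lt z ψ d e s t u 7) ▸ k 7 (by omega) [7] (by simp)
  · exact k 9 (by omega) wu (by simp)

end CfH3.Th
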