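import Cfsg.Agent.H3.Ta5
/-! Groups of Thompson type: the involution interchanging two central involutions. -/
set_option autoImplicit false
set_option maxRecDepth 100000
open Subgroup CfH4 CfH9 CfH6 Equiv.Perm
namespace CfH3.Th
open CfH3.He
open CfH3.Hf (al2)

def CT : List (List ℕ) := [[], [3], [4], [7], [8], [3, 4], [3, 7], [3, 8], [4, 3], [4, 7], [4, 8], [3, 4, 3], [3, 4, 7], [3, 4, 8], [4, 3, 7], [4, 3, 8], [9, 3, 9], [3, 4, 3, 7], [3, 4, 3, 8], [3, 9, 3, 9], [4, 9, 3, 9], [7, 9, 3, 9], [8, 9, 3, 9], [9, 3, 4, 9], [9, 3, 9, 3], [3, 4, 9, 3, 9], [3, 7, 9, 3, 9], [3, 8, 9, 3, 9], [3, 9, 3, 4, 9], [3, 9, 3, 9, 3], [4, 3, 9, 3, 9], [4, 7, 9, 3, 9], [4, 8, 9, 3, 9], [4, 9, 3, 4, 9], [7, 9, 3, 4, 9], [7, 9, 3, 9, 3], [8, 9, 3, 4, 9], [8, 9, 3, 9, 3], [3, 4, 3, 9, 3, 9], [3, 4, 7, 9, 3, 9], [3, 4, 8, 9, 3, 9], [3, 4, 9, 3, 4, 9], [3, 7, 9, 3, 4, 9], [3, 7, 9, 3, 9, 3], [3, 8, 9,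 3, 4, 9], [3, 8, 9, 3, 9, 3], [4, 3, 7, 9, 3, 9], [4, 3, 8, 9, 3, 9], [4, 7, 9, 3, 4, 9], [4, 8, 9, 3, 4, 9], [3, 4, 3, 7, 9, 3, 9], [3, 4, 3, 8, 9, 3, 9], [3, 4, 7, 9, 3, 4, 9], [3, 4, 8, 9, 3, 4, 9]]
def CTc : List ℕ := [36344967696, 32302645761, 26981388576, 23140528656, 18111357456, 22402326561, 27182727681, 14100615681, 18849558786, 15124021536, 31480578336, 14301954066, 19168309281, 36026216481, 35288015106, 23459279106, 14301954561, 31279239186, 28004794386, 18849559056, 22402326786, 31279239681, 28004794881, 18849558561, 22402327056, 26981388306, 35288015376, 23459279376, 14301954336, 26981388801, 32302645536, 19168309506, 36026216706, 32302645266, 35288014881, 19168309776, 23459278881, 36026216976, 36344967201, 15124021266, 31480578066, 36344967426, 31279239456, 15124021761, 28004794656, 31480578561, 27182727456, 14100615456, 27182727186, 14100615186, 23140528161, 18111356961,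 23140528386, 18111357186]
def CSc : List ℕ := [36344967696, 31545516816, 22668346896, 17804195856, 9469187856, 14537934096, 27975296016]
def K16 : List ℕ := [0, 1, 8, 9, 64, 65, 72, 73, 256, 257, 264, 265, 320, 321, 328, 329]
def LT : List (List ℕ) := [[], [4], [7], [8], [4, 7], [4, 8]].flatMap fun w => K16.map fun k => w ++ [q k]
theorem ct_aux : CT.map pw = CTc ∧ go (com cT cTi cT) (fun c => CTc.any (Nat.beq c) || CTc.any (Nat.beq (pm c cX))) 9 0 0 = true ∧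
    (CT.all fun w => !(Nat.beq (lo (wa (ap TM) w 64)) 64) || al (fun k => !(Nat.beq (wa (ap TM) (w ++ [q k]) 64) 64 &&
      same TM ((w ++ [q k]) ++ [7]) ([7] ++ (w ++ [q k]))) || LT.contains (w ++ [q k])) 512) = true := by decide +kernel
theorem cs_aux : (List.range 7).map (pp cS) = CSc ∧
    go (com cS cSi cS) (fun c => CSc.any (Nat.beq c) || CSc.any (Nat.beq (pm c cX))) 9 0 0 = true ∧
    ∀ k < 512, ap TM 5 k = k → k ∈ [0, 64, 128, 192, 256, 320, 384, 448] := by decide +kernel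
theorem ty_aux : ∀ l ∈ LT, same TM (l ++ l) [] = true →
    (same TM ([5, 5, 5] ++ l ++ [6, 6, 6]) (l ++ [5] ++ l ++ [6]) = true → same TM l [] = true ∨ same TM l [q 1] = true) ∧
    (same TM ([6, 6, 6] ++ l ++ [5, 5, 5]) (l ++ [6] ++ l ++ [5]) = true → same TM l [] = true ∨ same TM l [q 8] = true ∨
      same TM l [4] = true ∨ same TM l [q 128, 4, q 128] = true) := by decide +kernel

variable {G : Type*} [Group G] {z d e s t u n w : G} {ψ : ℕ → G} {π : G → P9} {T : ℕ}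

structure Spn (z : G) (ψ : ℕ → G) (π : G → P9) (d e s t u : G) : Prop extends Nor z ψ π d e s t u TM where
  us : u * (s * (u * (s * (u * s)))) = ψ 320

theorem Nor.spn (N : Nor z ψ π d e s t u TM) : ∃ u, Spn z ψ π d e s t u := by
  have := N.eqz [9, 5, 9, 5, 9, 5] [q 320] (by decide +kernel)
  simp only [lts, lq (show 320 < 512 by omega), evw_cons, evw_nil, mul_one] at this
  rcases this with h | h
  · exact ⟨u, N, h⟩
  have hs := mem_Cx.1 N.hs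
  refine ⟨u * z, ⟨N.flip (Or.inl rfl) (Or.inl rfl) (Or.inr rfl), N.e2, N.d2, N.de, N.wb⟩, ?_⟩
  simp only [mem_Cx.1 N.hu, mul_assoc, ← mul_assoc s z, ← mul_assoc u z, hs]
  rw [h, ← mul_assoc z z, N.b.q.zz, one_mul, N.b.q.com (by omega), ← mul_assoc, N.b.q.zz, one_mul]

/-- the relation satisfied by a basis vector of a three-dimensional module for a cyclic group of order seven -/
def Ty (s y : G) : Prop := (s ^ 3)⁻¹ * y * s ^ 3 = y * (s⁻¹ * y * s)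
theorem Ty.cj {y : G} (h : Ty s y) (n : G) : Ty (n * s * n⁻¹) (n * y * n⁻¹) := by
  rw [Ty, conj_pow, conj_inv, conj_inv]
  simp only [conj_mul]
  rw [h]
theorem Ty.sgn {y y0 : G} (h : Ty s y) (h0 : Ty s y0) (e : y = y0 ∨ y = y0 * z) (z2 : z * z = 1) (z1 : z ≠ 1) (hs : s ∈ Cx(z))
    (hy : y0 ∈ Cx(z)) : y = y0 := e.resolve_right fun e => z1 (by
  rw [Ty, e, mul_assoc, mul_assoc y0, ← mem_Cx.1 (pow_mem hs 3), ← mul_assoc, ← mul_assoc, h0, mul_assoc s⁻¹ (y0 * z), mul_assoc y0 z s,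
    ← mem_Cx.1 hs, ← mul_assoc y0 s, ← mul_assoc s⁻¹, ← mul_assoc s⁻¹, mul_assoc y0 z, ← mul_assoc z,
    ← mem_Cx.1 (mul_mem (mul_mem (inv_mem hs) hy) hs), mul_assoc _ z z, z2, mul_one] at h
  simpa using h)

/-- involutions commuting with `z`, `t` and `c` -/
def Kc (z : G) (ψ : ℕ → G) (t y : G) : Prop := y * z = z * y ∧ y * t = t * y ∧ y * ψ 64 = ψ 64 * y
def Sw (z : G) (ψ : ℕ → G) (n : G) : Prop := n * z * n⁻¹ = ψ 64 ∧ n * ψ 64 * n⁻¹ = z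
theorem Sw.cz (h : Sw z ψ n) {y : G} (hy : y * ψ 64 = ψ 64 * y) : n * y * n⁻¹ * z = z * (n * y * n⁻¹) := by
  rw [← h.2, conj_mul, conj_mul, hy]
theorem Sw.cc (h : Sw z ψ n) {y : G} (hy : y * z = z * y) : n * y * n⁻¹ * ψ 64 = ψ 64 * (n * y * n⁻¹) := by
  rw [← h.1, conj_mul, conj_mul, hy]
theorem Sw.mul (h : Sw z ψ n) {g : G} (h1 : g * z = z * g) (h2 : g * ψ 64 = ψ 64 * g) : Sw z ψ (g * n) :=
  ⟨by rw [show g * n * z * (g * n)⁻¹ = g * (n * z * n⁻¹) * g⁻¹ by group, h.1, h2]; group,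
    by rw [show g * n * ψ 64 * (g * n)⁻¹ = g * (n * ψ 64 * n⁻¹) * g⁻¹ by group, h.2, h1]; group⟩
theorem Kc.cj {y : G} (h : Kc z ψ t y) (hn : Sw z ψ n) (ht : n * t = t * n) : Kc z ψ t (n * y * n⁻¹) :=
  ⟨hn.cz h.2.2, by rw [← mul_inv_eq_of_eq_mul ht, conj_mul, conj_mul, h.2.1], hn.cc h.1⟩

namespace Dat
variable (D : Dat z ψ π d e s t u TM)
include D
local notation "ev" => evw (lt z ψ d e s t u)

theorem cs {a b : ℕ} (i : ℕ) (h : a < 512 ∧ ap TM i a = b := by decide +kernel) :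
    lt z ψ d e s t u i * ψ a = ψ b * lt z ψ d e s t u i := mul_inv_eq_iff_eq_mul.1 (h.2 ▸ ((D.gd i).2.1 a h.1).2.2)

theorem ut : u⁻¹ * t * u = t⁻¹ := odd_lift D.b.q.zz D.b.q.ne (by simpa [lts, mul_assoc] using D.eqz [10, 7, 9] [8] (by decide +kernel))
  (mem_Cx.1 (inv_mem D.ht)) (n := 3) (by rw [← inv_inv u, inv_inv u⁻¹, conj_pow, D.t3]; group) (by rw [inv_pow, D.t3, inv_one])

theorem fix {l : List ℕ} {a b : ℕ} (ha : a < 512) (hb : b < 512) (h : ev l * ψ a = ψ b * ev l) : wa (ap TM) l a = b :=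
  D.b.q.cq_uniq ((D.w l).2.1 a ha) ⟨ha, hb, mul_inv_eq_of_eq_mul h⟩

theorem solT {y : G} (h : Kc z ψ t y) : ∃ l ∈ LT, y = ev l := by
  have hy := mem_Cx.2 h.1
  have := cen_list cds.2.2.2.2.1 cds.2.2.2.2.2.1 ct_aux.2.1 (by
    rw [← ct_aux.1]
    exact List.forall_mem_map.2 fun w _ => ⟨_, D.b.sg (D.mem w), (D.w w).2.2⟩)
    (by rw [← D.pt, ← D.b.mul hy D.ht, h.2.1, D.b.mul D.ht hy]) (D.b.sg hy)
  rw [← ct_aux.1] at this
  obtain ⟨w, hw, e⟩ := List.mem_map.1 this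
  obtain ⟨k, hk, rfl⟩ := D.b.modr hy (D.mem w) (cd_inj (e.symm.trans (D.w w).2.2.symm))
  have e1 : ev w * ψ k = ev (w ++ [q k]) := by simp [lq hk]
  have := List.all_eq_true.1 ct_aux.2.2 w hw
  rw [← D.b.q.cq_lo (mem_Cx.1 (D.mem w)) hk ⟨by omega, by omega, mul_inv_eq_of_eq_mul h.2.2⟩ ((D.w w).2.1 64 (by omega))] at this
  have := al_iff.1 ((Bool.or_eq_true _ _ ▸ this).resolve_left (by decide)) k hk
  rw [D.fix (by omega) (by omega) (e1 ▸ h.2.2), D.same_of (by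
    rw [evw_append, evw_append _ [7], ← e1]; simpa [lts] using h.2.1)] at this
  exact ⟨_, by simpa using this, e1⟩

theorem solS {y : G} (hy : y ∈ Cx(z)) (h : y * s = s * y) : ∃ i < 7, ∃ k ∈ [0, 64, 128, 192, 256, 320, 384, 448], y = s ^ i * ψ k := by
  have := cen_list cds.2.2.1 cds.2.2.2.1 cs_aux.2.1 (by
    rw [← cs_aux.1]
    exact List.forall_mem_map.2 fun i _ => ⟨pS ^ i, by rw [map_pow, sgns.2.2.1, one_pow], by rw [cd_pow, cds.2.2.1]⟩)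
    (by rw [← D.ps, ← D.b.mul hy D.hs, h, D.b.mul D.hs hy]) (D.b.sg hy)
  rw [← cs_aux.1] at this
  obtain ⟨i, hi, e⟩ := List.mem_map.1 this
  obtain ⟨k, hk, rfl⟩ := D.b.modr hy (pow_mem D.hs i) (cd_inj (by rw [← e, D.b.pow D.hs, D.ps, cd_pow, cds.2.2.1]))
  refine ⟨i, List.mem_range.1 hi, k, cs_aux.2.2 k hk (D.b.q.cq_uniq ((D.gd 5).2.1 k hk) ⟨hk, hk, mul_inv_eq_of_eq_mul ?_⟩), rfl⟩
  rw [mul_assoc, ← mul_assoc s, ← pow_succ', pow_succ, mul_assoc, mul_right_inj] at h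
  exact h.symm

theorem ty1 : Ty s⁻¹ (ψ 1) := by
  have h1 := D.cq [5, 5, 5] (a := 1) (b := 3) (by decide +kernel)
  have h2 := D.cq [5] (a := 1) (b := 2) (by decide +kernel)
  simp only [lts, evw_cons, evw_nil, mul_one] at h1 h2
  rw [Ty, inv_pow, inv_inv, inv_inv, h2, pow_three, h1, D.b.q.eq (c := 3)]

theorem tyA {y : G} (h : Kc z ψ t y) (y2 : y * y = 1) (r : Ty s⁻¹ y) : y = 1 ∨ y = ψ 1 := by
  obtain ⟨l, hl, rfl⟩ := D.solT h
  have Q := D.b.q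
  rcases (ty_aux l hl (D.same_of (by simpa using y2))).1 (D.same_of (by simpa [lts, Ty, pow_succ, mul_assoc] using r)) with k | k
  · exact Or.inl (r.sgn (by simp [Ty]) (D.eqz _ _ k) Q.zz Q.ne (inv_mem D.hs) (one_mem _))
  · replace k := D.eqz _ _ k
    simp (disch := omega) only [lq, evw_cons, evw_nil, mul_one] at k
    exact Or.inr (r.sgn D.ty1 k Q.zz Q.ne (inv_mem D.hs) (D.b.mem (by omega)))

theorem ty8 : Ty s (ψ 8) := by
  have h1 := D.cq [6, 6, 6] (a := 8) (b := 24) (by decide +kernel)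
  have h2 := D.cq [6] (a := 8) (b := 16) (by decide +kernel)
  simp only [lts, evw_cons, evw_nil, mul_one, inv_inv, mul_inv_rev] at h1 h2
  rw [Ty, h2, pow_three', mul_inv_rev, mul_inv_rev, h1, D.b.q.eq (c := 24)]

theorem swap (h : IsConj z (ψ 64)) : ∃ n, Sw z ψ n := by
  obtain ⟨g, hg⟩ := isConj_iff.1 h.symm
  have B := D.b
  have c1 := (B.q.com (a := 64) (by omega)).symm
  have c2 : s * ψ 64 = ψ 64 * s := D.cs 5
  have key : ∀ {g}, g * ψ 64 * g⁻¹ = z → π (g * s * g⁻¹) ≠ 1 ∧ π (g * s * g⁻¹) ^ 7 = 1 ∧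
      π (g * s * g⁻¹) * π (g * z * g⁻¹) = π (g * z * g⁻¹) * π (g * s * g⁻¹) := fun {g} hg =>
    ⟨fun e => by
      have := B.pow4 (B.cmem hg c2) e
      rw [conj_pow, conj_eq_one_iff] at this
      have h1 := D.ps
      rw [← one_mul s, ← D.s7, ← pow_succ, show 7 + 1 = 4 * 2 from rfl, pow_mul, this, one_pow, B.one] at h1
      exact absurd h1 (by decide), by rw [B.cpow hg c2, D.s7, B.cone], by rw [B.cmul hg c2 c1, B.cmul hg c1 c2, mem_Cx.1 D.hs]⟩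
  rcases B.cls (B.cmem hg c1) (by rw [conj_mul, B.q.zz]; group) with ⟨k, hk, e⟩ | ⟨h, hh, e⟩
  · obtain ⟨w, hw⟩ := D.orb1 hk (by rw [e, conj_mul, B.q.zz]; group) (fun e1 => B.q.ne (conj_eq_one_iff.1 (e.symm.trans e1))) fun e1 =>
      absurd (B.q.inj (by omega) (by omega) ((conj_injective (hg.trans (e1.symm.trans e))).trans B.q.hz.symm)) (by omega)
    exact ⟨ev w * g, by rw [← hw, e]; group, by
      rw [show ev w * g * ψ 64 * (ev w * g)⁻¹ = ev w * (g * ψ 64 * g⁻¹) * (ev w)⁻¹ by group, hg, mem_Cx.1 (D.mem w)]; group⟩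
  · obtain ⟨k1, k2, k3⟩ := key (g := h * g) (by rw [← mul_inv_eq_of_eq_mul (mem_Cx.1 hh), ← hg]; group)
    rw [show h * (g * z * g⁻¹) * h⁻¹ = h * g * z * (h * g)⁻¹ by group] at e
    rcases e with e | e <;> rw [e] at k3
    exacts [absurd k2 (cE_all k3 k1).1, absurd ((cU_all k3).1 k2) k1]

theorem syl [Finite G] (h : Sw z ψ n) : ∃ n, Sw z ψ n ∧ (n * s * n⁻¹ = s ∨ n * s * n⁻¹ = s⁻¹) := by
  classical
  haveI : Fact (Nat.Prime 7) := ⟨by norm_num⟩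
  have c2 : s * ψ 64 = ψ 64 * s := D.cs 5
  have c3 : t * ψ 64 = ψ 64 * t := D.cs 7
  have c4 : t⁻¹ * ψ 64 = ψ 64 * t⁻¹ := D.cs 8
  have s1 : s ≠ 1 := fun e => by have := D.ps; rw [e, D.b.one] at this; exact absurd this (by decide)
  have o := orderOf_eq_prime D.s7 s1
  have S : SylIn 7 (zpowers s) Cx(z) := sylIn_of_not_dvd (zpowers_le.2 D.hs) (IsPGroup.of_card (n := 1) (by rw [Nat.card_zpowers, o, pow_one])) (by
    have := card_mul_relIndex (zpowers_le.2 D.hs)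
    rw [Nat.card_zpowers, o, D.b.card] at this
    omega)
  obtain ⟨g, hg, e⟩ := (S.mono (K := Cx(z) ⊓ Cx(ψ 64)) (zpowers_le.2 ⟨D.hs, mem_Cx.2 c2⟩) inf_le_left).exists_conj_mem
    (x := n * s * n⁻¹) ⟨mem_Cx.2 (h.cz c2), mem_Cx.2 (h.cc (mem_Cx.1 D.hs))⟩ (k := 1) (by rw [pow_one, conj_pow, D.s7]; group)
  obtain ⟨i, hi, e⟩ := Finset.mem_image.1 (mem_zpowers_iff_mem_range_orderOf.1 e)
  rw [o, Finset.mem_range] at hi
  have h1 := h.mul (mem_Cx.1 hg.1) (mem_Cx.1 hg.2)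
  replace e : g * n * s * (g * n)⁻¹ = s ^ i := by rw [e]; group
  generalize g * n = m at h1 e
  have cp : ∀ n, t⁻¹ * s ^ n * t = s ^ (2 * n) := fun n => by rw [pow_mul, ← D.st, ← inv_inv t, inv_inv t⁻¹, conj_pow]
  have s6 : s ^ 6 = s⁻¹ := eq_inv_of_mul_eq_one_left (by rw [← pow_succ, D.s7])
  have k1 : t⁻¹ * m * s * (t⁻¹ * m)⁻¹ = s ^ (2 * i) := by rw [← cp, ← e]; group
  have k2 : t⁻¹ * (t⁻¹ * m) * s * (t⁻¹ * (t⁻¹ * m))⁻¹ = s ^ (2 * (2 * i)) := by rw [← cp, ← k1]; simp only [mul_inv_rev, inv_inv, mul_assoc]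
  have h2 := h1.mul (mem_Cx.1 (inv_mem D.ht)) c4
  have h3 := h2.mul (mem_Cx.1 (inv_mem D.ht)) c4
  rw [pow_eq_pow_mod _ D.s7] at k1 k2
  interval_cases i
  · exact absurd (conj_eq_one_iff.1 (e.trans (pow_zero s))) s1
  · exact ⟨_, h1, Or.inl (e.trans (pow_one s))⟩
  · exact ⟨_, h3, Or.inl (k2.trans (pow_one s))⟩
  · exact ⟨_, h2, Or.inr (k1.trans s6)⟩
  · exact ⟨_, h2, Or.inl (k1.trans (pow_one s))⟩
  · exact ⟨_, h3, Or.inr (k2.trans s6)⟩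
  · exact ⟨_, h1, Or.inr (e.trans s6)⟩

theorem cent (h : Sw z ψ n) (hs : n * s * n⁻¹ = s ∨ n * s * n⁻¹ = s⁻¹) :
    ∃ n, Sw z ψ n ∧ (n * s * n⁻¹ = s ∨ n * s * n⁻¹ = s⁻¹) ∧ n * t = t * n := by
  have Q := D.b.q
  have c2 : s * ψ 64 = ψ 64 * s := D.cs 5
  have c3 : t * ψ 64 = ψ 64 * t := D.cs 7
  have e1 : (n * t * n⁻¹)⁻¹ * s * (n * t * n⁻¹) = s ^ 2 := by
    have : (n * t * n⁻¹)⁻¹ * (n * s * n⁻¹) * (n * t * n⁻¹) = (n * s * n⁻¹) ^ 2 := by rw [conj_pow, ← D.st]; group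
    rcases hs with e | e <;> rw [e] at this
    · exact this
    · rw [← inv_inj, ← inv_pow, ← this]; group
  have m := mem_Cx.2 (h.cz c3)
  have c1 := h.cc (mem_Cx.1 D.ht)
  have t3 : (n * t * n⁻¹) ^ 3 = 1 := by rw [conj_pow, D.t3]; group
  obtain ⟨i, -, k, hk, e⟩ := D.solS (mul_mem m (inv_mem D.ht)) (by
    rw [show s * (n * t * n⁻¹ * t⁻¹) = n * t * n⁻¹ * ((n * t * n⁻¹)⁻¹ * s * (n * t * n⁻¹)) * t⁻¹ by group, e1, ← D.st]; group)
  have k5 : k < 512 := by simp at hk; omega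
  have si : Commute (s ^ i) (ψ 64) := Commute.pow_left c2 i
  have c4 : ψ k * ψ 64 = ψ 64 * ψ k := by
    rw [← inv_mul_cancel_left (s ^ i) (ψ k), ← e]
    exact (si.inv_left.mul_left (Commute.mul_left c1 (Commute.inv_left c3))).eq
  have c5 := (Q.bb_iff k5 (by omega)).2 c4
  have c6 : mq k k = 0 ∧ ap TM 5 k = k ∧ ap TM 7 k = k := by revert hk c5; generalize k = j; revert j; decide +kernel
  have c7 : s * ψ k = ψ k * s := D.cs 5 ⟨k5, c6.2.1⟩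
  have c8 : t * ψ k = ψ k * t := D.cs 7 ⟨k5, c6.2.2⟩
  have e2 : s ^ (2 * i) * t * (s ^ (2 * i))⁻¹ = s ^ i * t := by
    have cp : t⁻¹ * s ^ i * t = s ^ (2 * i) := by rw [pow_mul, ← D.st, ← inv_inv t, inv_inv t⁻¹, conj_pow]
    rw [mul_inv_eq_iff_eq_mul, mul_assoc, ← cp, ← mul_assoc t, mul_inv_cancel_left, cp, two_mul, pow_add, mul_assoc]
  have e3 : n * t * n⁻¹ = s ^ i * t * ψ k := by rw [mul_assoc (s ^ i), c8, ← mul_assoc, ← e]; group
  have e4 : n * t * n⁻¹ = s ^ i * t := by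
    by_cases h1 : ψ k = 1
    · rw [e3, h1, mul_one]
    · exact odd_lift (by rw [← Q.mul k5 k5, c6.1, Q.one]) h1 (Or.inr e3) (Commute.mul_left (Commute.pow_left c7 i) c8).eq t3
        (by rw [← e2, conj_pow, D.t3]; group)
  have m1 := inv_mem (pow_mem D.hs (2 * i))
  refine ⟨(s ^ (2 * i))⁻¹ * n, h.mul (mem_Cx.1 m1) (Commute.pow_left c2 _).inv_left.eq, ?_, ?_⟩
  · rw [show (s ^ (2 * i))⁻¹ * n * s * ((s ^ (2 * i))⁻¹ * n)⁻¹ = (s ^ (2 * i))⁻¹ * (n * s * n⁻¹) * s ^ (2 * i) by group]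
    exact hs.imp (fun e => by rw [e]; group) fun e => by rw [e]; group
  · rw [← mul_inv_eq_iff_eq_mul, show (s ^ (2 * i))⁻¹ * n * t * ((s ^ (2 * i))⁻¹ * n)⁻¹ = (s ^ (2 * i))⁻¹ * (n * t * n⁻¹) * s ^ (2 * i) by
      group, e4, ← e2]; group
end Dat

structure Wd (z : G) (ψ : ℕ → G) (e s t w : G) : Prop where
  sw : Sw z ψ w
  ws : w * s = s * w
  wt : w * t = t * w
  wx : w * ψ 1 = ψ 1 * w
  we : w * e = e * w
  wy : w * ψ 8 * w⁻¹ = ψ 128 * (e * ψ 128)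

namespace Nor
variable (N : Nor z ψ π d e s t u TM)
include N

theorem tye : Ty s e := by
  have ei : e⁻¹ = e := inv_eq_of_mul_eq_one_left N.e2
  have h : e * (s⁻¹ * e * s) * ((s ^ 3)⁻¹ * e * s ^ 3) = 1 := by rw [← N.wb]; simp only [pow_three, mul_inv_rev, mul_assoc, mul_inv_cancel_left]
  rw [Ty, eq_inv_of_mul_eq_one_left h, mul_inv_rev, mul_inv_rev, ei]; group
theorem pi : (ψ 128)⁻¹ = ψ 128 := inv_eq_of_mul_eq_one_left (by rw [N.b.q.eq (c := 0), N.b.q.one])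
theorem typ : Ty s (ψ 128 * (e * ψ 128)) := by
  have := N.tye.cj (ψ 128)
  rwa [← (show s * ψ 128 = ψ 128 * s from N.cs 5), mul_inv_cancel_right, N.pi, mul_assoc] at this
theorem kq {k : ℕ} (h : k < 512 ∧ ap TM 7 k = k ∧ bb k 64 = 0 := by decide +kernel) : Kc z ψ t (ψ k) :=
  ⟨N.b.q.com h.1, (N.cs 7 ⟨h.1, h.2.1⟩).symm, (N.b.q.bb_iff h.1 (by omega)).1 h.2.2⟩
theorem ke : Kc z ψ t e := ⟨mem_Cx.1 N.he, N.te.symm, N.cs 4⟩

theorem tyB {y : G} (h : Kc z ψ t y) (y2 : y * y = 1) (r : Ty s y) : y = 1 ∨ y = ψ 8 ∨ y = e ∨ y = ψ 128 * (e * ψ 128) := by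
  obtain ⟨l, hl, rfl⟩ := N.solT h
  have Q := N.b.q
  rcases (ty_aux l hl (N.same_of (by simpa using y2))).2 (N.same_of (by simpa [lts, Ty, pow_succ, mul_assoc] using r)) with k | k | k | k <;>
    replace k := N.eqz _ _ k <;> simp (disch := omega) only [lts, lq, evw_cons, evw_nil, mul_one] at k
  · exact Or.inl (r.sgn (by simp [Ty]) (mul_one (1 : G) ▸ k) Q.zz Q.ne N.hs (one_mem _))
  · exact Or.inr (Or.inl (r.sgn N.ty8 k Q.zz Q.ne N.hs (N.b.mem (by omega))))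
  · exact Or.inr (Or.inr (Or.inl (r.sgn N.tye k Q.zz Q.ne N.hs N.he)))
  · exact Or.inr (Or.inr (Or.inr (r.sgn N.typ k Q.zz Q.ne N.hs (mul_mem (N.b.mem (by omega)) (mul_mem N.he (N.b.mem (by omega)))))))

theorem wd (h : Sw z ψ n) (hs : n * s * n⁻¹ = s ∨ n * s * n⁻¹ = s⁻¹) (ht : n * t = t * n) : Wd z ψ e s t n := by
  have Q := N.b.q
  have n1 : ∀ {k}, k < 512 → k ≠ 0 → n * ψ k * n⁻¹ ≠ 1 := fun hk h0 e => h0 (Q.ker hk (conj_eq_one_iff.1 e))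
  have sq : ∀ {k}, k < 512 → mq k k = 0 → n * ψ k * n⁻¹ * (n * ψ k * n⁻¹) = 1 := fun hk e => by
    rw [conj_mul, ← Q.mul hk hk, e, Q.one]; group
  have e1 : n * e * n⁻¹ ≠ 1 := fun h => by have := N.pe; rw [conj_eq_one_iff.1 h, N.b.one] at this; exact absurd this (by decide)
  have e2 : n * e * n⁻¹ * (n * e * n⁻¹) = 1 := by rw [conj_mul, N.e2]; group
  rcases hs with hs | hs
  swap
  · have h1 := (N.tyA ((N.kq (k := 8)).cj h ht) (sq (by omega) (by decide)) (hs ▸ N.ty8.cj n)).resolve_left (n1 (by omega) (by omega))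
    have h2 := (N.tyA (N.ke.cj h ht) e2 (hs ▸ N.tye.cj n)).resolve_left e1
    have := N.pe
    rw [← conj_injective (h1.trans h2.symm), N.b.kq (by omega)] at this
    exact absurd this (by decide)
  have h1 := (N.tyA ((N.kq (k := 1)).cj h ht) (sq (by omega) (by decide)) (by
    have := N.ty1.cj n; rwa [← conj_inv, hs] at this)).resolve_left (n1 (by omega) (by omega))
  have ex : e * ψ 1 = ψ 321 * e := N.cs 4
  have s1 : ψ 1 * ψ 8 * (ψ 1 * ψ 8) = ψ 256 := by rw [Q.eq (c := 9), Q.eq (c := 256)]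
  have s2 : ψ 1 * e * (ψ 1 * e) = ψ 320 := by rw [mul_assoc, ← mul_assoc e, ex, mul_assoc _ e, N.e2, mul_one, Q.eq (c := 320)]
  have s3 : ψ 1 * (ψ 128 * (e * ψ 128)) * (ψ 1 * (ψ 128 * (e * ψ 128))) = ψ 64 := by
    rw [show ψ 1 * (ψ 128 * (e * ψ 128)) * (ψ 1 * (ψ 128 * (e * ψ 128))) = ψ 1 * ψ 128 * (e * (ψ 128 * ψ 1 * ψ 128)) * e * ψ 128 by group,
      Q.eq (a := 128) (c := 129), Q.eq (a := 129) (c := 1), ex, mul_assoc _ _ e, mul_assoc _ e, N.e2, mul_one, Q.eq (c := 129),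
      Q.eq (c := 192), Q.eq (c := 64)]
  have cj : ∀ {y c}, ψ 1 * y * (ψ 1 * y) = c → ψ 1 * (n * y * n⁻¹) * (ψ 1 * (n * y * n⁻¹)) = n * c * n⁻¹ := fun e => by
    rw [← e]; nth_rewrite 1 [← h1]; nth_rewrite 2 [← h1]; simp only [conj_mul]
  have t1 := cj s1
  have t2 := cj s2
  rw [Q.hz, h.1] at t1
  rw [← Q.eq (a := 64) (b := 256) (c := 320), Q.hz, ← conj_mul, h.1, h.2, ← Q.hz, Q.eq (c := 320)] at t2
  have ne : ∀ {a b}, ψ a = ψ b → (a < 512 ∧ b < 512 ∧ a ≠ b) → False := fun e h => h.2.2 (Q.inj h.1 h.2.1 e)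
  refine ⟨h, mul_inv_eq_iff_eq_mul.1 hs, ht, mul_inv_eq_iff_eq_mul.1 h1, mul_inv_eq_iff_eq_mul.1 ?_, ?_⟩
  · rcases N.tyB (N.ke.cj h ht) e2 (by have := N.tye.cj n; rwa [hs] at this) with k | k | k | k
    exacts [absurd k e1, (ne (s1.symm.trans (k ▸ t2)) (by omega)).elim, k, (ne (s3.symm.trans (k ▸ t2)) (by omega)).elim]
  · rcases N.tyB ((N.kq (k := 8)).cj h ht) (sq (by omega) (by decide)) (by have := N.ty8.cj n; rwa [hs] at this) with k | k | k | k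
    exacts [absurd k (n1 (by omega) (by omega)), (ne (s1.symm.trans (k ▸ t1)) (by omega)).elim,
      (ne (s2.symm.trans (k ▸ t1)) (by omega)).elim, k]

theorem solST {y : G} (hy : y ∈ Cx(z)) (h : y * s = s * y) (h' : y * t = t * y) : ∃ k ∈ [0, 64, 128, 192, 256, 320, 384, 448], y = ψ k := by
  obtain ⟨i, hi, k, hk, rfl⟩ := N.solS hy h
  have k5 : k < 512 := by simp at hk; omega
  have := congrArg π h'
  rw [N.b.mul hy N.ht, N.b.mul N.ht hy, N.b.mul (pow_mem N.hs i) (N.b.mem k5), N.b.kq k5, N.b.pow N.hs, N.ps, N.pt] at this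
  obtain rfl : i = 0 := by revert hi this; generalize i = j; revert j; decide +kernel
  exact ⟨k, hk, by rw [pow_zero, one_mul]⟩

theorem exists_w [Finite G] (h : IsConj z (ψ 64)) : ∃ w, Wd z ψ e s t w ∧ w * w = 1 := by
  obtain ⟨n, h⟩ := N.swap h
  obtain ⟨n, h, hs⟩ := N.syl h
  obtain ⟨n, h, hs, ht⟩ := N.cent h hs
  have W := N.wd h hs ht
  have Q := N.b.q
  have c1 : n * n * z * (n * n)⁻¹ = z := by rw [show n * n * z * (n * n)⁻¹ = n * (n * z * n⁻¹) * n⁻¹ by group, h.1, h.2]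
  have c2 : n * n * ψ 64 * (n * n)⁻¹ = ψ 64 := by rw [show n * n * ψ 64 * (n * n)⁻¹ = n * (n * ψ 64 * n⁻¹) * n⁻¹ by group, h.2, h.1]
  obtain ⟨k, hk, e⟩ := N.solST (mem_Cx.2 (mul_inv_eq_iff_eq_mul.1 c1)) (Commute.mul_left W.ws W.ws).eq (Commute.mul_left ht ht).eq
  have k5 : k < 512 := by simp at hk; omega
  have c3 := (Q.bb_iff k5 (by omega)).2 (e ▸ mul_inv_eq_iff_eq_mul.1 c2)
  have c4 : n * ψ k * n⁻¹ = ψ k := by rw [← e]; group
  have : k = 0 ∨ k = 64 ∨ k = 256 ∨ k = 320 := by revert hk c3; generalize k = j; revert j; decide +kernel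
  rcases this with rfl | rfl | rfl | rfl
  · exact ⟨n, W, e.trans Q.one⟩
  · exact absurd (Q.inj (by omega) (by omega) (c4.symm.trans (h.2.trans Q.hz.symm))) (by omega)
  · exact absurd (Q.inj (by omega) (by omega) (c4.symm.trans (by rw [Q.hz, h.1]))) (show 256 ≠ 64 by omega)
  · have h' := h.mul rfl (Q.com (by omega)).symm
    refine ⟨z * n, N.wd h' (Or.inl ?_) (Commute.mul_left (mem_Cx.1 N.ht).symm ht).eq, ?_⟩
    · exact mul_inv_eq_of_eq_mul (Commute.mul_left (mem_Cx.1 N.hs).symm W.ws).eq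
    · rw [show z * n * (z * n) = z * (n * z * n⁻¹) * (n * n) by group, h.1, e, ← Q.hz, Q.eq (c := 320), Q.eq (c := 0), Q.one]
end Nor

end CfH3.Th
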