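import Cfsg.Agent.OD.Pre
import Cfsg.Agent.H4.D8b
/-! Products of two involutions in `SL₃(2)` and `A₆`. -/
set_option autoImplicit false
set_option maxRecDepth 100000
open Equiv Equiv.Perm CfH4
namespace CfH3.Th

theorem a6_aux : ∀ σ : Perm (Fin 6), sign σ = 1 → σ ^ 3 = 1 ∨ σ ^ 4 = 1 ∨ σ ^ 5 = 1 := by decide +kernel
theorem sl_aux : ∀ c : Matrix (Fin 3) (Fin 3) (ZMod 2), c * c = 1 → ∀ d : Matrix (Fin 3) (Fin 3) (ZMod 2), d * d = 1 →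
    (c * d) ^ 3 = 1 ∨ (c * d) ^ 4 = 1 := by decide +kernel

theorem tri {X : Type*} [Group X] (h : Nonempty (X ≃* SL32) ∨ Nonempty (X ≃* alternatingGroup (Fin 6))) {c d : X} (c2 : c * c = 1)
    (d2 : d * d = 1) : (c * d) ^ 3 = 1 ∨ (c * d) ^ 4 = 1 ∨ (c * d) ^ 5 = 1 := by
  rcases h with ⟨⟨e⟩⟩ | ⟨⟨e⟩⟩
  · have k : ∀ n : ℕ, ((e c).1 * (e d).1) ^ n = 1 → (c * d) ^ n = 1 := fun n h =>
      e.map_eq_one_iff.1 (Subtype.ext (by rw [map_pow, map_mul]; exact h))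
    have s : ∀ {c : X}, c * c = 1 → (e c).1 * (e c).1 = 1 := fun h => congrArg Subtype.val (by rw [← map_mul, h, map_one] : e _ * e _ = 1)
    exact (sl_aux _ (s c2) _ (s d2)).imp (k 3) fun h => Or.inl (k 4 h)
  · have k : ∀ n : ℕ, (e (c * d)).1 ^ n = 1 → (c * d) ^ n = 1 := fun n h => e.map_eq_one_iff.1 (Subtype.ext (by rw [map_pow]; exact h))
    exact (a6_aux _ (mem_alternatingGroup.1 (e (c * d)).2)).imp (k 3) (Or.imp (k 4) (k 5))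

end CfH3.Th
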