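import Cfsg.Agent.H3.Ta6
import Cfsg.Agent.H3.Ta7a
import Cfsg.Agent.H3.ThTcA
import Cfsg.Agent.H3.ThTcB
import Cfsg.Agent.H3.ThTcC
import Cfsg.Agent.H3.ThTcV1
import Cfsg.Agent.H3.ThTcV2
import Cfsg.Agent.H3.ThTcV3
import Cfsg.Agent.H3.ThTcV4
import Cfsg.Agent.H3.ThTcV5
import Cfsg.Agent.H3.ThTcV6
import Cfsg.Agent.H3.ThTcV7
import Cfsg.Agent.H6.Pres
/-! Groups of Thompson type: the defining relations. -/
set_option autoImplicit false
set_option maxRecDepth 100000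
open Subgroup CfH4 CfH9 CfH6 Equiv.Perm DihedralGroup
namespace CfH3.Th
open CfH3.He
open CfH3.Hf (al2)

def il (i : ℕ) : ℕ := [0, 1, 2, 3, 4, 6, 5, 8, 7, 10, 9, 11, 12, 13, 14, 15].getD i 0
def qc (i : ℕ) : ℕ := cond (Nat.beq i 0) 256 (cond (Nat.beq i 2) 64 (Nat.land (Nat.sub i 16) 511))
def isQ (i : ℕ) : Bool := Nat.beq i 0 || Nat.beq i 2 || !(Nat.blt i 16)
noncomputable def cancel (i : ℕ) (r : List ℕ) : List ℕ := List.rec [i] (fun j r' _ => cond (Nat.beq j (il i)) r' (i :: j :: r')) r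
/-- collection of the letters in the extraspecial group -/
noncomputable def col (w : List ℕ) : ℕ × List ℕ :=
  List.rec (0, []) (fun i _ p => frc p.1 fun k => cond (isQ i) (mq (qc i) k, p.2) (ap TM i k, cancel i p.2)) w
noncomputable def cz (ex : List (List ℕ × ℕ)) (r : List ℕ) : Bool :=
  !(r.contains 1) && ex.any fun p => (col r).2 == p.1 && Nat.beq (mq (col r).1 p.2) 0
def W9 : List ℕ := [1, 3, 10, 3, 1, 3, 9, 3, 1]
def WK : List ℕ := [9, 3, 9, 3, 4, 2]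
def sg : List (List ℕ) := [[0], [2], [3], [4], [1], [q 1], [9], [10]]
noncomputable def okr (ex : List (List ℕ × ℕ)) (exw : List (List ℕ)) (r : List ℕ) : Bool := cz ex r || exw.contains r
noncomputable def okv (ex : List (List ℕ × ℕ)) (exw : List (List ℕ)) (k : ℕ) (r : List ℕ) : Bool :=
  okr ex exw r || (r.take 9 == W9 && cz ex ((WK ++ [q k]) ++ r.drop 9))
def X0 : List (List ℕ × ℕ) := [([], 0), ([3, 4, 3, 4, 3, 4], 0)]
def X1 : List (List ℕ × ℕ) := X0 ++ [([9, 9], 320), ([10, 4, 9, 4], 0), ([3, 4, 10, 3, 9, 3, 4, 10, 3, 9], 0)]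
def Y0 : List (List ℕ) := [[1, 0, 1, 2], [1, 4, 1, 4], [1, q 1, 1, q 1], [1, 3, 2, 3, 1, 3, 2, 3, 1, 3, 2, 3],
  [1, 3, q 1, 3, 1, 3, 2, 3, 4, 3, 2, 3]]
def Y1 : List (List ℕ) := Y0 ++ [[1, 3, 1, 3, 1, 3, 1, 3, 1, 3, 1, 3, 1, 3, 1, 3], [10, 1, 9, 1, 4]]
def c4 : D4 → ℕ | r i => [0, 192, 256, 448].getD i.val 0 | sr i => [64, 128, 320, 384].getD i.val 0
theorem c4_aux : (∀ a, c4 a < 512 ∧ ap TM 5 (c4 a) = c4 a ∧ ap TM 7 (c4 a) = c4 a ∧ (c4 a = 0 → a = 1)) ∧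
    (∀ a b, mq (c4 a) (c4 b) = c4 (a * b)) ∧ ∀ k ∈ [0, 64, 128, 192, 256, 320, 384, 448], ∃ a, c4 a = k := by decide +kernel
theorem uw_aux : ∀ l ∈ LT, wa (ap TM) ([9] ++ l) 1 = 257 →
    same TM ([9] ++ l ++ [5] ++ ([9] ++ l ++ [5] ++ ([9] ++ l ++ [5]))) [q 320] = true →
    (same TM ([9] ++ l ++ [4]) ([4] ++ ([9] ++ l)) = true → same TM l [4] = true) ∧
    (same TM ([9] ++ l ++ [4]) ([4] ++ ([9] ++ l) ++ [2]) = true → same TM ([9] ++ l ++ ([9] ++ l)) [0] = false) := by decide +kernel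
theorem k_aux : ∀ l ∈ LT, wa (ap TM) l 1 = 1 → same TM (WK ++ l ++ (WK ++ l)) [] = true →
    ∃ k ∈ [0, 256, 64, 320, 1, 257, 65, 321], l = [q k] := by decide +kernel

variable {G : Type*} [Group G] {z d e s t u n w : G} {ψ : ℕ → G} {π : G → P9} {T : ℕ}

def lw (z : G) (ψ : ℕ → G) (d e s t u w : G) (i : ℕ) : G := cond (Nat.beq i 1) w (lt z ψ d e s t u i)
theorem lw_eq {r : List ℕ} (h : 1 ∉ r) : evw (lw z ψ d e s t u w) r = evw (lt z ψ d e s t u) r := by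
  induction r with
  | nil => rfl
  | cons i r ih =>
    rw [List.mem_cons, not_or] at h
    rw [evw_cons, evw_cons, ih h.2, lw, show Nat.beq i 1 = false from Bool.eq_false_iff.2 fun e => h.1 (Nat.eq_of_beq_eq_true e).symm]; rfl
theorem lws : lw z ψ d e s t u w 0 = z ∧ lw z ψ d e s t u w 1 = w ∧ lw z ψ d e s t u w 2 = ψ 64 ∧ lw z ψ d e s t u w 3 = d ∧
    lw z ψ d e s t u w 4 = e ∧ lw z ψ d e s t u w 5 = s ∧ lw z ψ d e s t u w 6 = s⁻¹ ∧ lw z ψ d e s t u w 7 = t ∧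
    lw z ψ d e s t u w 8 = t⁻¹ ∧ lw z ψ d e s t u w 9 = u ∧ lw z ψ d e s t u w 10 = u⁻¹ ∧ lw z ψ d e s t u w (q 1) = ψ 1 :=
  ⟨rfl, rfl, rfl, rfl, rfl, rfl, rfl, rfl, rfl, rfl, rfl, rfl⟩

theorem inv_cj {a : G} (h : a⁻¹ * t * a = t⁻¹) : a⁻¹ * t⁻¹ * a = t :=
  (show a⁻¹ * t⁻¹ * a = (a⁻¹ * t * a)⁻¹ by group).trans (by rw [h, inv_inv])
theorem inv_inv_comm {a b : G} (ha : a⁻¹ * t * a = t⁻¹) (hb : b⁻¹ * t * b = t⁻¹) : a⁻¹ * b * t = t * (a⁻¹ * b) :=
  calc a⁻¹ * b * t = a⁻¹ * b * (b⁻¹ * t⁻¹ * b) := by rw [inv_cj hb]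
    _ = a⁻¹ * t⁻¹ * a * (a⁻¹ * b) := by group
    _ = _ := by rw [inv_cj ha]

namespace Nor
variable (N : Nor z ψ π d e s t u TM)
include N
local notation "ev" => evw (lt z ψ d e s t u)

theorem di : d⁻¹ = d := inv_eq_of_mul_eq_one_left N.d2
theorem ei : e⁻¹ = e := inv_eq_of_mul_eq_one_left N.e2
theorem qi {k : ℕ} (h : k < 512 ∧ mq k k = 0 := by decide) : ψ k * ψ k = 1 := by rw [← N.b.q.mul h.1 h.1, h.2, N.b.q.one]

theorem lt_il {i : ℕ} (h : i < 16) : lt z ψ d e s t u i * lt z ψ d e s t u (il i) = 1 := by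
  interval_cases i
  exacts [N.b.q.zz, mul_one _, N.qi (k := 64), N.d2, N.e2, mul_inv_cancel s, inv_mul_cancel s, mul_inv_cancel t, inv_mul_cancel t,
    mul_inv_cancel u, inv_mul_cancel u, mul_one _, mul_one _, mul_one _, mul_one _, mul_one _]

theorem col_sound (r : List ℕ) : (col r).1 < 512 ∧ ev r = ψ (col r).1 * ev (col r).2 := by
  induction r with
  | nil => exact ⟨Nat.zero_lt_succ _, by rw [show col [] = (0, []) from rfl, N.b.q.one, one_mul]⟩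
  | cons i r ih =>
    rw [show col (i :: r) = cond (isQ i) (mq (qc i) (col r).1, (col r).2) (ap TM i (col r).1, cancel i (col r).2) from
      frc_eq (col r).1 fun k => cond (isQ i) (mq (qc i) k, (col r).2) (ap TM i k, cancel i (col r).2), evw_cons, ih.2]
    cases h : isQ i
    · have hi : i < 16 := by
        simp only [isQ, Bool.or_eq_false_iff, Bool.not_eq_false', Nat.blt_eq] at h; exact h.2
      have a := (N.gd i).2.1 _ ih.1
      refine ⟨a.2.1, ?_⟩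
      rw [cond_false, ← mul_assoc, mul_inv_eq_iff_eq_mul.1 a.2.2, mul_assoc]
      congr 1
      generalize (col r).2 = v
      cases v with
      | nil => rfl
      | cons j v =>
        show _ = ev (cond (Nat.beq j (il i)) v (i :: j :: v))
        cases h1 : Nat.beq j (il i)
        · rfl
        · rw [Nat.eq_of_beq_eq_true h1, evw_cons, ← mul_assoc, N.lt_il hi, one_mul]; rfl
    · have : qc i < 512 ∧ lt z ψ d e s t u i = ψ (qc i) := by
        by_cases h0 : i = 0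
        · subst h0; exact ⟨by decide, N.b.q.hz.symm⟩
        by_cases h2 : i = 2
        · subst h2; exact ⟨by decide, rfl⟩
        have b : ∀ {j}, i ≠ j → Nat.beq i j = false := fun h => Bool.eq_false_iff.2 fun e => h (Nat.eq_of_beq_eq_true e)
        rw [isQ, b h0, b h2, Bool.or_false, Bool.false_or, Bool.not_eq_true'] at h
        rw [qc, lt, b h0, b h2, h]
        exact ⟨Nat.lt_succ_of_le Nat.and_le_right, rfl⟩
      exact ⟨mq_lt this.1 ih.1, by rw [cond_true, N.b.q.mul this.1 ih.1, this.2, mul_assoc]⟩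

theorem cz_sound {ex : List (List ℕ × ℕ)} (h : ∀ p ∈ ex, p.2 < 512 ∧ ev p.1 = ψ p.2) {r : List ℕ} (k : cz ex r = true) :
    evw (lw z ψ d e s t u w) r = 1 := by
  simp only [cz, Bool.and_eq_true, Bool.not_eq_true', List.contains_eq_mem, decide_eq_false_iff_not, List.any_eq_true, beq_iff_eq,
    Nat.beq_eq] at k
  obtain ⟨h1, p, hp, h2, h3⟩ := k
  rw [lw_eq h1, (N.col_sound r).2, h2, (h p hp).2, ← N.b.q.mul (N.col_sound r).1 (h p hp).1, h3, N.b.q.one]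

theorem okr_sound {ex : List (List ℕ × ℕ)} (h : ∀ p ∈ ex, p.2 < 512 ∧ ev p.1 = ψ p.2) {exw : List (List ℕ)}
    (h' : ∀ r ∈ exw, evw (lw z ψ d e s t u w) r = 1) {r : List ℕ} (k : okr ex exw r = true) : evw (lw z ψ d e s t u w) r = 1 := by
  rcases Bool.or_eq_true _ _ ▸ k with k | k
  exacts [N.cz_sound h k, h' r (by simpa using k)]

theorem sqt (g h : List ℕ) (r k m n : ℕ) (hr : lt z ψ d e s t u r * lt z ψ d e s t u r = ψ m)
    (c : same TM (g ++ h) (h ++ [r, q k]) = true ∧ k < 512 ∧ m < 512 ∧ wa (ap TM) h (mq (mq (ap TM r k) m) k) = n := by decide +kernel) :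
    ev (g ++ g) = ψ n := by
  obtain ⟨c1, hk, hm, c2⟩ := c
  have Q := N.b.q
  have a := (N.gd r).2.1 k hk
  have h1 := N.eqz _ _ c1
  have h2 := N.cq h ⟨mq_lt (mq_lt a.2.1 hm) hk, c2⟩
  simp only [evw_append, evw_cons, evw_nil, mul_one, lq hk] at h1 ⊢
  rw [← h2, Q.mul (mq_lt a.2.1 hm) hk, Q.mul a.2.1 hm, ← a.2.2, ← hr]
  rcases h1 with h1 | h1 <;> rw [← mul_inv_cancel_right (ev g) (ev h), h1]
  · group
  · have := mem_Cx.1 (mul_mem (mul_mem (N.mem h) (mul_mem (N.gd r).1 (N.b.mem hk))) (inv_mem (N.mem h)))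
    rw [mul_assoc _ z, ← mem_Cx.1 (inv_mem (N.mem h)), ← mul_assoc _ _ z, mul_assoc _ z, ← mul_assoc z, ← this, mul_assoc _ z z, Q.zz]
    group

theorem x0 : ∀ p ∈ X0, p.2 < 512 ∧ ev p.1 = ψ p.2 := by
  simp only [X0, List.forall_mem_cons, lts, evw_cons, evw_nil, mul_one, N.b.q.one, N.de]
  simp

variable (W : Wd z ψ e s t w) (w2 : w * w = 1)
include W w2

theorem tri' [Finite G] : w * ψ 128 * (w * ψ 128) * (w * ψ 128) = 1 ∧ ((w * d) ^ 6 = 1 ∨ (w * d) ^ 8 = 1 ∨ (w * d) ^ 10 = 1) := by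
  have Q := N.b.q
  obtain ⟨a1, a2, a3⟩ := c4_aux
  let φ0 : D4 →* G := MonoidHom.mk' (fun a => ψ (c4 a)) fun a b => by rw [← a2, Q.mul (a1 a).1 (a1 b).1]
  let φ : D4 →* (Cx(s) ⊓ Cx(t) : Subgroup G) := φ0.codRestrict _ fun a =>
    ⟨mem_Cx.2 (N.cs 5 ⟨(a1 a).1, (a1 a).2.1⟩).symm, mem_Cx.2 (N.cs 7 ⟨(a1 a).1, (a1 a).2.2.1⟩).symm⟩
  have C : CM φ (r 2) := ⟨(injective_iff_map_eq_one φ).2 fun a h => (a1 a).2.2.2 (Q.ker (a1 a).1 (congrArg Subtype.val h)), by decide,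
    fun g hg => by
      obtain ⟨k, hk, e⟩ := N.solST (mem_Cx.2 (Q.hz ▸ congrArg Subtype.val hg)) (mem_Cx.1 g.2.1) (mem_Cx.1 g.2.2)
      obtain ⟨a, rfl⟩ := a3 k hk
      exact ⟨a, Subtype.ext e.symm⟩⟩
  have m1 : w ∈ Cx(s) ⊓ Cx(t) := ⟨mem_Cx.2 W.ws, mem_Cx.2 W.wt⟩
  have m2 : d * w * d⁻¹ ∈ Cx(s) ⊓ Cx(t) := ⟨mem_Cx.2 (by
      have := mul_inv_eq_of_eq_mul N.ds
      rw [← inv_inv s, ← this, conj_inv, conj_mul, conj_mul, (Commute.inv_right W.ws).eq]),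
    mem_Cx.2 (by rw [← mul_inv_eq_of_eq_mul N.td.symm, conj_mul, conj_mul, W.wt])⟩
  have dc : d * ψ 64 * d⁻¹ = ψ 128 := mul_inv_eq_of_eq_mul (N.cs 3)
  have hp := (a1 (sr 1)).1
  refine ⟨congrArg Subtype.val (C.d8_cube (x := ⟨w, m1⟩ * φ (sr 1)) (Subtype.ext ?_) (Subtype.ext ?_)), ?_⟩
  · show w * ψ 128 * ψ 256 * (w * ψ 128)⁻¹ = ψ 64
    rw [Q.hz, mul_assoc w, Q.com (by omega), ← W.sw.1]; group
  · show w * ψ 128 * ψ 64 * (w * ψ 128)⁻¹ = ψ 64 * ψ 256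
    rw [mul_assoc w, Q.eq (a := 128) (c := 448), ← Q.eq (a := 320) (b := 128) (c := 448), ← Q.eq (a := 256) (b := 64) (c := 320), Q.hz]
    nth_rewrite 2 [← W.sw.1]
    nth_rewrite 3 [← W.sw.2]
    group
  have k : ∀ n : ℕ, ((⟨w, m1⟩ * ⟨_, m2⟩ : (Cx(s) ⊓ Cx(t) : Subgroup G))) ^ n = 1 → (w * d) ^ (2 * n) = 1 := fun n h => by
    rw [pow_mul, pow_two, ← N.di, ← mul_assoc, N.di, mul_assoc w, mul_assoc w]
    nth_rewrite 2 [← N.di]
    exact congrArg Subtype.val h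
  refine (tri (C.d8_both (isConj_iff.2 ⟨⟨w, m1⟩, Subtype.ext ?_⟩) (isConj_iff.2 ⟨⟨_, m2⟩, Subtype.ext ?_⟩)) (Subtype.ext w2)
    (Subtype.ext ?_)).imp (k 3) (Or.imp (k 4) (k 5))
  · show w * ψ 256 * w⁻¹ = ψ 64
    rw [Q.hz, W.sw.1]
  · show d * w * d⁻¹ * ψ 256 * (d * w * d⁻¹)⁻¹ = ψ 128
    rw [Q.hz, ← dc, ← W.sw.1]
    nth_rewrite 1 [← mul_inv_eq_of_eq_mul (mem_Cx.1 N.hd)]
    group
  · show d * w * d⁻¹ * (d * w * d⁻¹) = 1
    rw [conj_mul, w2]; group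

theorem y0 [Finite G] : ∀ r ∈ Y0, evw (lw z ψ d e s t u w) r = 1 := by
  have wi : w⁻¹ = w := inv_eq_of_mul_eq_one_left w2
  have dc : ∀ x, d * (ψ 64 * (d * x)) = ψ 128 * x := fun x => by
    rw [← mul_assoc, show d * ψ 64 = ψ 128 * d from N.cs 3, mul_assoc, ← mul_assoc d, N.d2, one_mul]
  have dx : ∀ x, d * (ψ 1 * (d * x)) = ψ 8 * x := fun x => by
    rw [← mul_assoc, show d * ψ 1 = ψ 8 * d from N.cs 3, mul_assoc, ← mul_assoc d, N.d2, one_mul]
  simp only [Y0, List.forall_mem_cons, lws, evw_cons, evw_nil, dc, dx, List.not_mem_nil, false_imp_iff, implies_true, and_true]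
  refine ⟨?_, ?_, ?_, ?_, ?_⟩
  · nth_rewrite 2 [← wi]
    rw [← mul_assoc, ← mul_assoc, W.sw.1, mul_one, N.qi]
  · rw [← mul_assoc, W.we, mul_assoc, ← mul_assoc w, w2, one_mul, mul_one, N.e2]
  · rw [← mul_assoc, W.wx, mul_assoc, ← mul_assoc w, w2, one_mul, mul_one, N.qi]
  · simpa only [mul_one, mul_assoc] using (N.tri' W w2).1
  · nth_rewrite 2 [← wi]
    rw [← mul_assoc, ← mul_assoc, W.wy, mul_one, ← N.pi, ← N.ei]; nth_rewrite 1 [N.pi, N.ei, N.pi]; group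

omit N W w2 in
theorem sg_rel {L : List (List ℕ)} (h : ∀ r ∈ L.map (subst sg), evw (lw z ψ d e s t u w) r = 1) :
    ∀ r ∈ L, evw (byW (lw z ψ d e s t u w) sg) r = 1 := fun r hr => by rw [← evw_subst]; exact h _ (List.mem_map_of_mem hr)

omit W in
theorem sg_inv : ∀ x < 8, byW (lw z ψ d e s t u w) sg ([0, 1, 2, 3, 4, 5, 7, 6].getD x 0) = (byW (lw z ψ d e s t u w) sg x)⁻¹ := fun x hx => by
  have k : ∀ {a b : G}, a * b = 1 → b * 1 = (a * 1)⁻¹ := fun h => by rw [mul_one, mul_one, eq_inv_of_mul_eq_one_right h]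
  interval_cases x
  exacts [k N.b.q.zz, k (N.qi (k := 64)), k N.d2, k N.e2, k w2, k (N.qi (k := 1)), k (mul_inv_cancel u), k (inv_mul_cancel u)]

omit W in
theorem sg_inv6 : ∀ x < 6, byW (lw z ψ d e s t u w) sg ([0, 1, 2, 3, 4, 5].getD x 0) = (byW (lw z ψ d e s t u w) sg x)⁻¹ := fun x hx => by
  rw [← N.sg_inv w2 x (by omega)]
  interval_cases x <;> rfl

omit w2 in
theorem not_mem : evw (byW (lw z ψ d e s t u w) sg) [4] ∉ Cx(z) := fun h => by
  have h1 := mul_inv_eq_of_eq_mul (mem_Cx.1 h)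
  simp only [evw_cons, evw_nil, byW, sg, List.getD_cons_succ, List.getD_cons_zero, lws, mul_one] at h1
  exact absurd (N.b.q.inj (by omega) (by omega) (W.sw.1.symm.trans (h1.trans N.b.q.hz.symm))) (by omega)

omit W w2 in
theorem sub_mem : ∀ r ∈ [[0], [1], [2], [3], [5], [6]], evw (byW (lw z ψ d e s t u w) sg) r ∈ Cx(z) := fun r hr => by
  rw [← evw_subst, lw_eq (by revert r; decide)]
  exact N.mem _

theorem wd8 [Finite G] : (w * d) ^ 8 = 1 := by
  have k : ∀ (n : ℕ) (v : List ℕ), (w * d) ^ n = 1 → evw (lw z ψ d e s t u w) v = (w * d) ^ n → ∀ L : List (List ℕ),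
      (L.map (subst sg)).all (okr X0 (Y0 ++ [v])) = true → ∀ r ∈ L, evw (byW (lw z ψ d e s t u w) sg) r = 1 := fun n v h1 h2 L h =>
    sg_rel fun r hr => N.okr_sound N.x0 (forall_app (N.y0 W w2) (forall_cons (h2.trans h1) forall_nil)) (List.all_eq_true.1 h r hr)
  rcases (N.tri' W w2).2 with h | h | h
  · exact absurd (ThTcB.words _ _ (N.sg_inv6 w2) (k 6 [1, 3, 1, 3, 1, 3, 1, 3, 1, 3, 1, 3] h (by simp [lws, pow_succ, mul_assoc]) _
      (by decide +kernel)) (fun r hr => N.sub_mem r (by revert r; decide)) [4] (by decide)) (N.not_mem W)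
  · exact h
  · exact absurd (ThTcC.words _ _ (N.sg_inv6 w2) (k 10 [1, 3, 1, 3, 1, 3, 1, 3, 1, 3, 1, 3, 1, 3, 1, 3, 1, 3, 1, 3] h
      (by simp [lws, pow_succ, mul_assoc]) _ (by decide +kernel)) (fun r hr => N.sub_mem r (by revert r; decide)) [4] (by decide)) (N.not_mem W)

theorem tca [Finite G] : ∀ r ∈ ThTcA.ws.map (subst sg), evw (lw z ψ d e s t u w) r = 1 := List.forall_mem_map.2 fun r hr => by
  rw [evw_subst]
  exact mem_bot.1 (ThTcA.words _ ⊥ (N.sg_inv6 w2) (sg_rel fun r hr => N.okr_sound N.x0 (forall_app (N.y0 W w2)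
    (forall_cons (a := [1, 3, 1, 3, 1, 3, 1, 3, 1, 3, 1, 3, 1, 3, 1, 3]) (by rw [← N.wd8 W w2]; simp [lws, pow_succ, mul_assoc]) forall_nil))
    (List.all_eq_true.1 (by decide +kernel) r hr)) forall_nil r hr)
end Nor

namespace Spn
variable (S : Spn z ψ π d e s t u) (W : Wd z ψ e s t w) (w2 : w * w = 1)
include S W w2
local notation "ev" => evw (lt z ψ d e s t u)

theorem uw : u * u = ψ 320 ∧ u * e = e * u ∧ w * u * w⁻¹ = u * e := by
  have Q := S.b.q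
  have h1 := S.sqt [9, 4] [7, 5, 4, 3, 9, 3, 6] 4 26 0 320 (S.e2.trans Q.one.symm)
  have h2 := S.eqz [9, 4] [4, 9] (by decide +kernel)
  simp only [List.cons_append, List.nil_append, evw_cons, evw_nil, lts, mul_one] at h1 h2
  have uc : u * ψ 64 = ψ 64 * u := S.cs 9
  have uz := mem_Cx.1 S.hu
  have w3 : w * ψ 320 * w⁻¹ = ψ 320 := by
    rw [← Q.eq (a := 64) (b := 256) (c := 320), Q.hz, ← conj_mul, W.sw.1, W.sw.2, Q.com (by omega)]
  have wt : w * t * w⁻¹ = t := mul_inv_eq_of_eq_mul W.wt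
  have t1 : (w * u * w⁻¹)⁻¹ * t * (w * u * w⁻¹) = t⁻¹ := by rw [← wt, conj_inv, conj_mul, conj_mul, S.ut, conj_inv]
  obtain ⟨l, hl, e1⟩ := S.solT (y := u⁻¹ * (w * u * w⁻¹)) ⟨(Commute.mul_left (Commute.inv_left uz) (W.sw.cz uc)).eq, inv_inv_comm S.ut t1,
    (Commute.mul_left (Commute.inv_left uc) (W.sw.cc uz)).eq⟩
  have e2 : ev ([9] ++ l) = w * u * w⁻¹ := by simp [lts, ← e1]
  have k := uw_aux l hl (S.fix (by omega) (by omega) (by
    rw [e2, ← mul_inv_eq_of_eq_mul W.wx, conj_mul, show u * ψ 1 = ψ 65 * u from S.cs 9, ← conj_mul, ← Q.eq (a := 1) (b := 64) (c := 65),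
      ← conj_mul, W.sw.2, mul_inv_eq_of_eq_mul W.wx, ← Q.hz, Q.eq (c := 257)])) (S.same_of (by
    simp (disch := omega) only [evw_append _ _ [5], evw_append _ (_ ++ [5]), e2, evw_cons, evw_nil, lts, lq, mul_one]
    rw [← mul_inv_eq_of_eq_mul W.ws]
    simp only [conj_mul]
    rw [← w3, ← S.us]
    simp only [mul_assoc]))
  have we : w * e * w⁻¹ = e := mul_inv_eq_of_eq_mul W.we
  rcases h2 with h2 | h2
  · have h3 := S.eqz _ _ (k.1 (S.same_of (by
      simp only [evw_append _ _ [4], evw_append _ [4], e2, evw_cons, evw_nil, lts, mul_one]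
      rw [← we, conj_mul, conj_mul, h2])))
    simp only [← e1, evw_cons, evw_nil, lts, mul_one, inv_mul_eq_iff_eq_mul] at h3
    refine ⟨by rw [← h1, ← mul_assoc e, ← h2, mul_assoc, S.e2, mul_one], h2, h3.resolve_right fun h3 => ?_⟩
    have h4 : w * (w * u * w⁻¹) * w⁻¹ = u := by rw [show w * (w * u * w⁻¹) * w⁻¹ = w * w * u * (w * w)⁻¹ by group, w2]; group
    rw [h3, ← conj_mul, ← conj_mul, h3, we, W.sw.1, mul_assoc, mul_eq_left, mem_Cx.1 S.he, mul_assoc, ← mul_assoc e, S.e2, one_mul,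
      ← Q.hz, Q.eq (c := 320)] at h4
    exact absurd (Q.ker (by omega) h4) (by omega)
  · have h3 := k.2 (S.same_of (by
      simp only [evw_append _ _ [4], evw_append _ _ [2], evw_append _ [4], e2, evw_cons, evw_nil, lts, mul_one]
      rw [← we, conj_mul, conj_mul, h2, ← W.sw.1, conj_mul]))
    rw [S.same_of (by
      simp only [evw_append _ (_ ++ l), e2, evw_cons, evw_nil, lts, mul_one]
      have : u * u = ψ 64 := by
        rwa [h2, ← mul_assoc e, ← mul_assoc e, S.e2, one_mul, ← mul_assoc, ← Q.eq (a := 64) (b := 256) (c := 320), Q.hz,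
          mul_left_inj] at h1
      rw [conj_mul, this, W.sw.2])] at h3
    exact absurd h3 (by decide)

theorem x1 : ∀ p ∈ X1, p.2 < 512 ∧ ev p.1 = ψ p.2 := forall_app S.x0 (by
  obtain ⟨h1, h2, -⟩ := S.uw W w2
  refine forall_cons ⟨by omega, by simpa [lts] using h1⟩ (forall_cons ⟨by omega, ?_⟩ (forall_cons ⟨by omega,
    S.sqt [3, 4, 10, 3, 9] [3, 4, 3, 9, 3] 4 73 0 0 (S.e2.trans S.b.q.one.symm)⟩ forall_nil))
  simp only [evw_cons, evw_nil, lts, mul_one]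
  rw [h2, ← mul_assoc e, S.e2, one_mul, inv_mul_cancel, S.b.q.one])

theorem y1 [Finite G] : ∀ r ∈ Y1, evw (lw z ψ d e s t u w) r = 1 := forall_app (S.y0 W w2) (forall_cons
  (by rw [← S.wd8 W w2]; simp [lws, pow_succ, mul_assoc]) (forall_cons (by
    have := (S.uw W w2).2.2
    rw [inv_eq_of_mul_eq_one_left w2] at this
    simp only [evw_cons, evw_nil, lws, mul_one]
    rw [← mul_assoc w, ← mul_assoc (w * u), this, mul_assoc u, S.e2, mul_one, inv_mul_cancel]) forall_nil))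

theorem krel [Finite G] : evw (lw z ψ d e s t u w) W9 = ev WK := by
  have Q := S.b.q
  have wi : w⁻¹ = w := inv_eq_of_mul_eq_one_left w2
  have e0 : evw (lw z ψ d e s t u w) W9 = w * (ev [3, 10, 3] * (w * (ev [3, 9, 3] * w))) := by simp [W9, lws, lts, mul_assoc]
  have e1 : evw (lw z ψ d e s t u w) W9 = w * d * u⁻¹ * d * w * (w * d * u⁻¹ * d)⁻¹ := by
    simp [W9, lws, mul_assoc, wi, S.di]
  have w1 : Cq ψ w 256 64 := ⟨by omega, by omega, Q.hz ▸ W.sw.1⟩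
  have w3 : Cq ψ w 64 256 := ⟨by omega, by omega, Q.hz ▸ W.sw.2⟩
  have w4 : Cq ψ w 1 1 := ⟨by omega, by omega, mul_inv_eq_of_eq_mul W.wx⟩
  have w5 : Cq ψ w 65 257 := Q.cq_mul w4 w3
  have w6 : Cq ψ w 257 65 := Q.cq_mul w4 w1
  have w7 : Cq ψ w 320 320 := Q.cq_mul w3 w1
  have w8 : Cq ψ w 321 321 := Q.cq_mul w4 w7
  have c : ∀ (l : List ℕ) (a b : ℕ), (a < 512 ∧ wa (ap TM) l a = b) → Cq ψ (ev l) a b := fun l a b h => h.2 ▸ (S.w l).2.1 a h.1
  have k1 := w3.mul ((c [3, 10, 3] 321 64 (by decide +kernel)).mul (w8.mul ((c [3, 9, 3] 64 321 (by decide +kernel)).mul w1)))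
  have k2 := w5.mul ((c [3, 10, 3] 64 65 (by decide +kernel)).mul (w1.mul ((c [3, 9, 3] 256 256 (by decide +kernel)).mul w3)))
  have k3 := w7.mul ((c [3, 10, 3] 65 320 (by decide +kernel)).mul (w6.mul ((c [3, 9, 3] 1 257 (by decide +kernel)).mul w4)))
  have k4 : evw (lw z ψ d e s t u w) W9 * t = t * evw (lw z ψ d e s t u w) W9 := by
    have h1 : (w * d * u⁻¹ * d)⁻¹ * t * (w * d * u⁻¹ * d) = t⁻¹ := by
      rw [show (w * d * u⁻¹ * d)⁻¹ * t * (w * d * u⁻¹ * d) = d⁻¹ * (u * (d⁻¹ * (w⁻¹ * (t * w)) * d) * u⁻¹) * d by group, ← W.wt,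
        inv_mul_cancel_left, mul_assoc d⁻¹ t, S.td, inv_mul_cancel_left, show u * t * u⁻¹ = t⁻¹ by
          rw [mul_inv_eq_iff_eq_mul, eq_comm, ← inv_mul_eq_iff_eq_mul, ← mul_assoc, inv_cj S.ut], mul_assoc, (Commute.inv_left S.td).eq,
        inv_mul_cancel_left]
    rw [e1]
    generalize w * d * u⁻¹ * d = h at h1
    calc h * w * h⁻¹ * t = h * (w * (h⁻¹ * t * h)) * h⁻¹ := by group
      _ = h * (h⁻¹ * t * h * w) * h⁻¹ := by rw [h1, (Commute.inv_right W.wt).eq]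
      _ = _ := by group
  have k5 : evw (lw z ψ d e s t u w) W9 * evw (lw z ψ d e s t u w) W9 = 1 := by rw [e1, conj_mul, w2]; group
  rw [← e0] at k1 k2 k3
  have m := S.mem WK
  have k6 : t * ev WK = ev WK * t := S.b.comm_odd S.ht (by
    have := S.eqz (7 :: WK) (WK ++ [7]) (by decide +kernel)
    rwa [evw_cons, evw_append, evw_cons, evw_nil, mul_one] at this) S.t3
  obtain ⟨l, hl, e2⟩ := S.solT (y := (ev WK)⁻¹ * evw (lw z ψ d e s t u w) W9)
    ⟨(Commute.mul_left (Commute.inv_left (mem_Cx.1 m)) (Q.hz ▸ mul_inv_eq_iff_eq_mul.1 k1.2.2)).eq,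
      (Commute.mul_left (Commute.inv_left k6.symm) k4).eq,
      mul_inv_eq_iff_eq_mul.1 ((c WK 64 257 (by decide +kernel)).inv.mul k2).2.2⟩
  have e3 : evw (lw z ψ d e s t u w) W9 = ev (WK ++ l) := by rw [evw_append, ← e2]; group
  obtain ⟨k, hk, rfl⟩ := k_aux l hl (S.fix (by omega) (by omega)
    (e2 ▸ mul_inv_eq_iff_eq_mul.1 ((c WK 1 320 (by decide +kernel)).inv.mul k3).2.2)) (S.same_of (by rw [evw_append _ (WK ++ l), ← e3, k5]; rfl))
  have key : ∀ L : List (List ℕ), (L.map (subst sg)).all (okv X1 Y1 k) = true → ∀ r ∈ L, evw (byW (lw z ψ d e s t u w) sg) r = 1 :=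
    fun L h => Nor.sg_rel fun r hr => by
      rcases Bool.or_eq_true _ _ ▸ List.all_eq_true.1 h r hr with h | h
      · exact S.okr_sound (S.x1 W w2) (S.y1 W w2) h
      · rw [Bool.and_eq_true, beq_iff_eq] at h
        have := S.cz_sound (w := w) (S.x1 W w2) h.2
        rwa [evw_append, lw_eq (r := WK ++ [q k]) (by revert hk; generalize k = j; revert j; decide), ← e3, ← h.1, ← evw_append, List.take_append_drop] at this
  have n := S.not_mem W
  have i := S.sg_inv w2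
  simp only [List.mem_cons, List.not_mem_nil, or_false] at hk
  rcases hk with rfl | rfl | rfl | rfl | rfl | rfl | rfl | rfl
  · rw [e3, evw_append, evw_cons, lq (by omega), Q.one]; simp
  · exact absurd (ThTcV1.words _ _ i (key _ (by decide +kernel)) S.sub_mem [4] (by decide)) n
  · exact absurd (ThTcV2.words _ _ i (key _ (by decide +kernel)) S.sub_mem [4] (by decide)) n
  · exact absurd (ThTcV3.words _ _ i (key _ (by decide +kernel)) S.sub_mem [4] (by decide)) n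
  · exact absurd (ThTcV4.words _ _ i (key _ (by decide +kernel)) S.sub_mem [4] (by decide)) n
  · exact absurd (ThTcV5.words _ _ i (key _ (by decide +kernel)) S.sub_mem [4] (by decide)) n
  · exact absurd (ThTcV6.words _ _ i (key _ (by decide +kernel)) S.sub_mem [4] (by decide)) n
  · exact absurd (ThTcV7.words _ _ i (key _ (by decide +kernel)) S.sub_mem [4] (by decide)) n
end Spn

end CfH3.Th
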