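import Cfsg.Agent.H3.Ta8
import Cfsg.Agent.H6.ThG
import Cfsg.Agent.BS.Final
/-! Groups of Thompson type. -/
set_option autoImplicit false
set_option maxRecDepth 100000
open Subgroup CfH4 CfH9 CfH6 Equiv.Perm
namespace CfH3.Th

variable {G : Type*} [Group G] {z d e s t u w : G} {ψ : ℕ → G} {π : G → P9}

theorem Base.syl [Finite G] (B : Base z ψ π) : ∃ S : Subgroup G, SylIn 2 S Cx(z) ∧ Nm(S) ≤ Cx(z) ∧ ∀ k < 512, ψ k ∈ S := by
  let Q : Subgroup G := ⟨⟨⟨{g | g ∈ Cx(z) ∧ π g = 1}, fun ha hb => ⟨mul_mem ha.1 hb.1, by rw [B.mul ha.1 hb.1, ha.2, hb.2, mul_one]⟩⟩,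
    one_mem _, B.one⟩, fun ha => ⟨inv_mem ha.1, by rw [B.inv ha.1, ha.2, inv_one]⟩⟩
  obtain ⟨S, hS, h⟩ := exists_sylIn_ge (p := 2) (Q := Q) (H := Cx(z)) (fun g => ⟨2, Subtype.ext (B.pow4 g.2.1 g.2.2)⟩) fun g hg => hg.1
  have m : ∀ k < 512, ψ k ∈ S := fun k hk => h ⟨B.mem hk, B.kq hk⟩
  refine ⟨S, hS, fun g hg => ?_, m⟩
  rcases B.cen (g * z * g⁻¹) fun c hc => (by
    have := mem_Cx.1 (hS.le ((mem_normalizer_iff.1 (inv_mem hg) _).1 (m c hc)))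
    rw [show ψ c = g * (g⁻¹ * ψ c * g⁻¹⁻¹) * g⁻¹ by group, conj_mul, conj_mul, this]) with h1 | h1
  exacts [absurd (conj_eq_one_iff.1 h1) B.q.ne, mem_Cx.2 (mul_inv_eq_iff_eq_mul.1 h1)]

theorem Spn.top [Finite G] (S : Spn z ψ π d e s t u) (W : Wd z ψ e s t w) (w2 : w * w = 1) {H : Subgroup G} (h1 : Cx(z) ≤ H) (h2 : w ∈ H) :
    H = ⊤ := by
  by_contra hne
  have : Fact (Nat.Prime 2) := ⟨Nat.prime_two⟩
  have Q := S.b.q
  obtain ⟨P, hP, hN, m⟩ := S.b.syl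
  have hS : SylIn 2 P H := hP.of_Nm_le h1 (inf_le_right.trans hN)
  have spe : SPE 2 H ⊤ := spe_of_centralizers hS le_top hne (inf_le_right.trans (hN.trans h1)) fun x hx ho g hg => by
    obtain ⟨h, hh, e⟩ := S.cj W w2 h1 h2 (hP.le hx) (by rw [← pow_two, ← ho, pow_orderOf_eq_one]) fun e => by
      rw [e, orderOf_one] at ho; omega
    have := h1 (S.b.cmem e (mem_Cx.1 hg.2))
    rwa [mul_mem_cancel_right (inv_mem hh), mul_mem_cancel_left hh] at this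
  have := (CfH5.BS.benderSuzuki G H P spe hS (by_contra fun n => absurd (Q.inj (by omega) (by omega) ((CfH5.BS.eq_of_rank_one n
    ⟨Q.zz, Q.ne⟩ ⟨S.qi (k := 64), fun e => absurd (Q.ker (by omega) e) (by omega)⟩ (Q.com (by omega))).trans Q.hz.symm)) (by omega))).central
    _ (m 64 (by omega)) (by rw [pow_two, S.qi]) _ (m 128 (by omega))
  exact absurd ((Q.bb_iff (by omega) (by omega)).2 this) (by decide)

theorem main [Finite G] [IsSimpleGroup G] (hz : orderOf z = 2) (Q : Subgroup Cx(z)) [Q.Normal] (hQ : Cfsg.IsExtraspecial 2 Q)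
    (hcard : Nat.card Q = 2 ^ 9) (hplus : ∃ E : Subgroup Q, Cfsg.IsElementaryAbelian 2 E ∧ Nat.card E = 2 ^ 5) (h2c : Cz(Q) ≤ Q)
    (e : Cx(z) ⧸ Q ≃* alternatingGroup (Fin 9)) :
    Nonempty (G ≃* ThB.G) ∧ ∀ x y : G, orderOf x = 2 → orderOf y = 2 → IsConj x y := by
  obtain ⟨ψ, π, s, B, hs, s7, ps, a⟩ := exists_base hz Q hQ hcard hplus h2c e
  obtain ⟨π, t, P⟩ := exists_pre B hs s7 ps a
  obtain ⟨ψ, π, d, e, u, T, D⟩ := exists_dat P
  obtain ⟨d, e, N⟩ := D.nor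
  obtain ⟨rfl, h⟩ := N.fused
  obtain ⟨u, S⟩ := N.spn
  obtain ⟨w, W, w2⟩ := S.exists_w h
  obtain ⟨h1, h2, h3⟩ := S.rels W w2
  generalize z * (w * d) ^ 4 * z = b at h1 h2 h3
  let ε : Shrink.{0} G ≃* G := Shrink.mulEquiv
  obtain ⟨ρ0, hρ0⟩ := ThB.hhom (fun x => ε.symm (lw z ψ d e s t u b x)) (fun x hx => by rw [h2 x hx, map_inv])
    fun r hr => (map_evw ε.symm.toMonoidHom _ r).symm.trans (by rw [h3 r hr, map_one])
  let ρ := ε.toMonoidHom.comp ρ0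
  have hρ : ∀ x < 11, lw z ψ d e s t u b x ∈ ρ.range := fun x hx => ⟨ThB.el x, by simp [ρ, hρ0 x hx]⟩
  have top : ρ.range = ⊤ := S.top W w2 (S.gen fun i hi => by
    by_cases h : i = 1
    · subst h; exact one_mem _
    · have := hρ i hi
      rwa [lw, show Nat.beq i 1 = false from Bool.eq_false_iff.2 fun e => h (Nat.eq_of_beq_eq_true e)] at this)
    (h1 ▸ mul_mem (hρ 1 (by omega)) (mul_mem (hρ 2 (by omega)) (mul_mem (hρ 0 (by omega)) (hρ 1 (by omega)))))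
  have := ThG.simple
  refine ⟨⟨(MulEquiv.ofBijective ρ ⟨(MonoidHom.ker_eq_bot_iff ρ).1 ((ρ.normal_ker.eq_bot_or_eq_top).resolve_right fun h => ?_),
    MonoidHom.range_eq_top.1 top⟩).symm⟩, ?_⟩
  · obtain ⟨x, hx⟩ := hρ 0 (by omega)
    exact S.b.q.ne (hx.symm.trans (show x ∈ ρ.ker from h ▸ mem_top x))
  have : Fact (Nat.Prime 2) := ⟨Nat.prime_two⟩
  obtain ⟨P, hP, hN, -⟩ := S.b.syl
  have hS : SylIn 2 P ⊤ := hP.of_Nm_le le_top (inf_le_right.trans hN)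
  have k : ∀ x : G, orderOf x = 2 → IsConj x z := fun x ho => by
    have x2 : x ^ 2 = 1 := by rw [← ho, pow_orderOf_eq_one]
    obtain ⟨g, -, hg⟩ := hS.exists_conj_mem (mem_top x) (k := 1) x2
    obtain ⟨h, -, e⟩ := S.cj W w2 le_top (mem_top w) (hP.le hg) (by rw [← pow_two, conj_pow, x2]; group) fun e => by
      rw [conj_eq_one_iff.1 e, orderOf_one] at ho; omega
    exact (isConj_iff.2 ⟨g, rfl⟩).trans (isConj_iff.2 ⟨h, e⟩)
  exact fun x y hx hy => (k x hx).trans (k y hy).symm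

end CfH3.Th
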