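import Cfsg.Agent.H8.W0

/-! The two orbits of components. -/

set_option autoImplicit false
set_option linter.unusedSectionVars false

namespace CfH3.W

open Subgroup CfH9 Cfsg CfH8 CfH8.W
open scoped commutatorElement
open CfH7 (OZ)

universe u

variable {G : Type*} [Group G] [Finite G]

theorem cz2 {X : Subgroup G} (h : Nat.card X = 2) : Nm(X) ≤ Cz(X) := fun g hg => by
  obtain ⟨z, -, hz⟩ := (Nat.card_eq_two_iff' (1 : X)).1 h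
  rw [mem_centralizer_iff]
  intro x hx
  by_cases e : x = 1
  · rw [e, one_mul, mul_one]
  have hy : g * x * g⁻¹ ∈ X := (mem_normalizer_iff.1 hg x).1 hx
  have a := hz ⟨x, hx⟩ fun c => e (congrArg Subtype.val c)
  have b := hz ⟨_, hy⟩ fun c => e (by simpa using congrArg Subtype.val c)
  have c : g * x * g⁻¹ = x := congrArg Subtype.val (b.trans a.symm)
  rw [mul_inv_eq_iff_eq_mul] at c
  exact c.symm

theorem nm_ne {R : Subgroup G} (h : IsPGroup 2 R) (h1 : R ≠ ⊥) : pCoreOf 2 Nm(R) ≠ ⊥ :=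
  ne_bot_of_le (CfH7.le_pCoreOf le_normalizer le_rfl h) h1

variable {T : Subgroup G} (g : GH T) (tw : Two T)
include g

theorem pc_le {H : Subgroup G} (hT : T ≤ H) : pCoreOf 2 H ≤ T :=
  CfH7.sylIn_pCoreOf_le (g.syl.mono hT le_top)

include tw

theorem orb {H K : Subgroup G} (hT : T ≤ H) (h1 : pCoreOf 2 H ≠ ⊥) (hK : JC (JJ 2 T) K)
    (hKH : K ≤ H) : ∃ K₂, Orb T K K₂ := by
  have c : ∀ t ∈ T, JC (JJ 2 T) (cj t K) ∧ cj t K ≤ H := fun t ht =>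
    ⟨hK.cj_of_mem (le_Nm_J T ht), (cj_mono t hKH).trans (cj_eq_of_mem (hT ht)).le⟩
  have l : ∀ X, X ≤ H → pCoreOf 2 (K ⊔ X ⊔ T) ≠ ⊥ := fun X hX =>
    ne_bot_of_le (CfH7.le_pCoreOf ((pc_le g hT).trans le_sup_right)
      ((sup_le (sup_le hKH hX) hT).trans (CfH7.le_normalizer_pCoreOf H))
      (CfH7.isPGroup_pCoreOf H)) h1
  by_cases e : ∀ t ∈ T, cj t K = K
  · exact ⟨K, hK, fun t ht => .inl (e t ht), ⟨1, one_mem _, cj_one _⟩, l K hKH⟩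
  push Not at e
  obtain ⟨s, hs, e⟩ := e
  refine ⟨cj s K, hK, fun t ht => ?_, ⟨s, hs, rfl⟩, l _ (c s hs).2⟩
  rcases tw H K _ _ hT h1 hK (c s hs).1 (c t ht).1 hKH (c s hs).2 (c t ht).2 with a | a | a
  exacts [absurd a.symm e, .inl a.symm, .inr a.symm]

theorem res {H K : Subgroup G} (hT : T ≤ H) (h1 : pCoreOf 2 H ≠ ⊥) (hK : JC (JJ 2 T) K)
    (hKH : K ≤ H) : pResidualOf 2 H ≤ Nm(K) := by
  have ll := g.ll hT h1 hK hKH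
  have c : ∀ t ∈ H, JC (JJ 2 T) (cj t K) ∧ cj t K ≤ H := fun t ht =>
    ⟨comp_cj ll hK hKH ht, (cj_mono t hKH).trans (cj_eq_of_mem ht).le⟩
  refine CfH7.pResidualOf_le_iff.2 fun x hx ho => ?_
  have s : x ^ 2 ∈ Nm(K) := by
    rw [mem_normalizer_iff_cj]
    have h2 := pow_mem hx 2
    rcases tw H K _ _ hT h1 hK (c x hx).1 (c _ h2).1 hKH (c x hx).2 (c _ h2).2 with a | a | a
    · rw [sq, cj_mul, ← a, ← a]
    · exact a.symm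
    · rw [sq, cj_mul, cj_inj] at a
      rw [sq, cj_mul, ← a, ← a]
  obtain ⟨m, hm⟩ := exists_pow_eq_self_of_coprime ho.symm
  exact hm ▸ pow_mem s m

theorem uq {H K K₂ : Subgroup G} (o : Orb T K K₂) (hT : T ≤ H) (h1 : pCoreOf 2 H ≠ ⊥)
    (hKH : K ≤ H) : H ≤ Nm(K ⊔ K₂) := by
  rw [← CfH7.sylIn_pResidualOf_sup (g.syl.mono hT le_top)]
  have : K₂ ≤ H := by
    obtain ⟨t, ht, rfl⟩ := o.ex
    exact (cj_mono t hKH).trans (cj_eq_of_mem (hT ht)).le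
  exact sup_le (CfH7.le_normalizer_sup (res g tw hT h1 o.jc hKH) (res g tw hT h1 o.jc₂ this))
    o.T_le_Nm

theorem uqM {M K K₂ : Subgroup G} (o : Orb T K K₂) (hM : IsMaximalTwoLocal M) (hT : T ≤ M)
    (hKM : K ≤ M) : Nm(pCoreOf 2 (K ⊔ K₂)) = M := by
  obtain ⟨⟨R, r, r1, rfl⟩, hM⟩ := hM
  refine hM _ ⟨_, CfH7.isPGroup_pCoreOf _, ?_, rfl⟩
    ((uq g tw o hT (nm_ne r r1) hKM).trans (CfH7.normalizer_le_normalizer_pCoreOf _))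
  refine ne_bot_of_le (CfH7.le_pCoreOf (A := (K ⊔ K₂) ⊓ pCoreOf 2 (K ⊔ K₂ ⊔ T)) inf_le_left
    (CfH7.le_normalizer_inf le_normalizer (le_sup_left.trans (CfH7.le_normalizer_pCoreOf _)))
    ((CfH7.isPGroup_pCoreOf _).to_le inf_le_right)) (ne_bot_of_le (le_inf
      ((wOf_le K).trans le_sup_left) ((wOf_le_pCoreOf K).trans
        (W.comp_pCoreOf_le (o.ll g) o.jc o.le₁))) o.jc.wOf_ne_bot)

theorem nb (uu : UU T) {K K₂ : Subgroup G} (o : Orb T K K₂) :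
    ∃ H, Nm(JJ 2 T) ≤ H ∧ pCoreOf 2 H ≠ ⊥ ∧ K ≤ H := by
  have b : ∀ X, JC (JJ 2 T) X → pCoreOf 2 X ≤ Cz(OZ 2 (JJ 2 T)) := fun X h =>
    CfH7.le_Cz_comm (h.OZ_le_Cz_pCoreOf g.pgrp)
  have bT : Cz(OZ 2 (JJ 2 T)) ≤ T := (Cz_anti (OZ_le_OZ_J T)).trans g.zc
  have b1 := ne_bot_of_le ((wOf_le_pCoreOf K).trans (b K o.jc)) o.jc.wOf_ne_bot
  obtain ⟨R, r1, r, a, c⟩ := uu K K₂ _ _ o (le_Nm_J T)
    (nm_ne (isPGroup_J g.pgrp) (J_ne_bot g.pgrp (ne_bot_of_le bT b1))) b1 bT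
    (sup_le (b K o.jc) (b K₂ o.jc₂)) ((CfH7.Nm_le_Nm_OZ _).trans (Nm_le_Nm_Cz _))
  exact ⟨_, a, nm_ne (g.pgrp.to_le (r.trans bT)) r1, c⟩

omit tw in
theorem ex {M : Subgroup G} (hM : IsMaximalTwoLocal M) (hT : T ≤ M) :
    Nm(JJ 2 T) = M ∨ ∃ K, JC (JJ 2 T) K ∧ K ≤ M := by
  obtain ⟨⟨R, r, r1, e⟩, m⟩ := hM
  have h1 : pCoreOf 2 M ≠ ⊥ := e ▸ nm_ne r r1
  by_cases c : JJ 2 T ≤ pCoreOf 2 M
  · refine .inl (m _ ⟨_, isPGroup_J g.pgrp, J_ne_bot g.pgrp (ne_bot_of_le (pc_le g hT) h1), rfl⟩ ?_)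
    rw [← J_eq_of_J_le c (pc_le g hT)]
    exact (CfH7.le_normalizer_pCoreOf M).trans (Nm_le_Nm_J _)
  · exact .inr (W.exists_comp_le ⟨⟨g.syl.mono hT le_top, c, (g.loc M hT h1).2⟩, (g.loc M hT h1).1, g.zc⟩)

theorem ex2 (uu : UU T) {M M' : Subgroup G} (hM : IsMaximalTwoLocal M) (hM' : IsMaximalTwoLocal M')
    (hT : T ≤ M) (hT' : T ≤ M') (n : M ≠ M') :
    ∃ K K₂, Orb T K K₂ ∧ K ≤ M := by
  have q : ∀ {M : Subgroup G}, IsMaximalTwoLocal M → pCoreOf 2 M ≠ ⊥ := fun h => by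
    obtain ⟨⟨R, r, r1, rfl⟩, -⟩ := h
    exact nm_ne r r1
  rcases ex g hM hT with a | ⟨K, k, l⟩
  · rcases ex g hM' hT' with b | ⟨K, k, l⟩
    · exact absurd (a.symm.trans b) n
    obtain ⟨K₂, o⟩ := orb g tw hT' (q hM') k l
    obtain ⟨H, c, d, e⟩ := nb g tw uu o
    exact ⟨K, K₂, o, (e.trans (CfH7.le_normalizer_pCoreOf H)).trans (hM.2 _
      ⟨_, CfH7.isPGroup_pCoreOf H, d, rfl⟩ (a ▸ c.trans (CfH7.le_normalizer_pCoreOf H))).le⟩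
  · obtain ⟨K₂, o⟩ := orb g tw hT (q hM) k l
    exact ⟨K, K₂, o, l⟩

theorem cm (uu : UU T) {K K₂ : Subgroup G} (o : Orb T K K₂) :
    K ≤ Nm((⁅OZ 2 (JJ 2 T), pResidualOf 2 Nm(JJ 2 T)⁆ : Subgroup G)) := by
  obtain ⟨H, c, d, e⟩ := nb g tw uu o
  have a := (CfH7.pResidualOf_mono c).trans (res g tw ((le_Nm_J T).trans c) d o.jc e)
  have b := (CfH7.pResidualOf_le (p := 2) Nm(JJ 2 T)).trans (CfH7.Nm_le_Nm_OZ (p := 2) _)
  refine (CfH7.le_Cz_comm ?_).trans (Cz_le_Nm _)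
  refine (commutator_mono (o.jc.OZ_le_sup g.pgrp) le_rfl).trans (CfH7.commutator_sup_left_le
    (N := OZ 2 (JJ 2 T) ⊓ Cz(K)) le_normalizer ?_ (CfH7.comm_le_left (CfH7.le_normalizer_inf b
      (a.trans (Nm_le_Nm_Cz _)))) ?_ |>.trans inf_le_right)
  · exact (inf_le_left.trans ((CfH7.OZ_le_Cz _).trans
      (Cz_anti (inf_le_left.trans (CfH7.OZ_le _))))).trans (Cz_le_Nm _)
  · exact (CfH7.comm_eq_bot_right.2 ((CfH7.le_normalizer_inf b (a.trans (Nm_le_Nm_wOf K))).trans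
      (cz2 (o.jc.card_OZ_inf_wOf g.pgrp)))).le.trans bot_le

omit g tw in
theorem pp (g : GH T) (uu : UU T) {K K₂ L L₂ : Subgroup G} (o : Orb T K K₂) (o' : Orb T L L₂)
    (c : ∀ N : Subgroup G, N ≤ T → T ≤ Nm(N) → K ≤ Nm(N) → L ≤ Nm(N) → N = ⊥) :
    ¬ pCoreOf 2 K ⊔ pCoreOf 2 K₂ ≤ pCoreOf 2 (L ⊔ L₂ ⊔ T) := fun h => by
  have q := pc_le g (le_sup_right : T ≤ L ⊔ L₂ ⊔ T)
  obtain ⟨R, r1, r, a, b⟩ := uu K K₂ _ _ o le_sup_right o'.loc o'.loc q h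
    (CfH7.le_normalizer_pCoreOf _)
  exact r1 (c R (r.trans q) (le_sup_right.trans a) b (o'.le₁.trans a))

omit g tw in
theorem p2 : P2.{u} := by
  intro G _ _ T g uu tw M₁ M₂ m₁ m₂ t₁ t₂ n
  obtain ⟨K, K₂, o, k⟩ := ex2 g tw uu m₁ m₂ t₁ t₂ n
  obtain ⟨L, L₂, o', l⟩ := ex2 g tw uu m₂ m₁ t₂ t₁ n.symm
  have c : ∀ N : Subgroup G, N ≤ T → T ≤ Nm(N) → K ≤ Nm(N) → L ≤ Nm(N) → N = ⊥ := by
    intro N a b c d
    by_contra e
    have := (d.trans (uq g tw o b (nm_ne (g.pgrp.to_le a) e) c)).trans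
      (CfH7.normalizer_le_normalizer_pCoreOf (p := 2) _)
    rw [uqM g tw o m₁ t₁ k] at this
    exact n ((uqM g tw o' m₁ t₁ this).symm.trans (uqM g tw o' m₂ t₂ l))
  refine ⟨K, K₂, L, L₂, g, o, o', c, ?_, pp g uu o o' c, pp g uu o' o fun N a b d e => c N a b e d⟩
  have b := (CfH7.pResidualOf_le (p := 2) Nm(JJ 2 T)).trans (CfH7.Nm_le_Nm_OZ (p := 2) _)
  have := c _ ((CfH7.comm_le_left b).trans ((CfH7.OZ_le _).trans (J_le T)))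
    ((le_Nm_J T).trans (CfH7.le_normalizer_commutator (CfH7.Nm_le_Nm_OZ _)
      (CfH7.le_normalizer_pResidualOf _))) (cm g tw uu o) (cm g tw uu o')
  rw [← CfH7.sylIn_pResidualOf_sup (g.syl.mono (le_Nm_J T) le_top)]
  exact sup_le ((CfH7.comm_eq_bot_right.1 this).trans ((Cz_anti (OZ_le_OZ_J T)).trans g.zc)) le_rfl

end CfH3.W
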